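import Cfsg.Agent.H1.LX3
import Cfsg.Agent.H9.FsAct

/-! The split extension of an elementary abelian 2-group by its automorphism group. -/

set_option autoImplicit false

namespace CfsgH1

open Subgroup Cfsg CfsgH2 Function Matrix
open scoped commutatorElement IsMulCommutative

/-- matrices as automorphisms of the additive group -/
def glAut (n : ℕ) : GL (Fin n) (ZMod 2) →* MulAut (Multiplicative (Fin n → ZMod 2)) :=
  MonoidHom.mk' (fun g => ⟨⟨fun v => .ofAdd (g.1 *ᵥ v.toAdd), fun v => .ofAdd (g⁻¹.1 *ᵥ v.toAdd), fun v => by simp [mulVec_mulVec], fun v => by simp [mulVec_mulVec]⟩,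
    fun v w => congrArg Multiplicative.ofAdd (mulVec_add g.1 v.toAdd w.toAdd)⟩) fun a b => MulEquiv.ext fun v => congrArg Multiplicative.ofAdd (mulVec_mulVec v.toAdd a.1 b.1).symm

theorem glAut_bij (n : ℕ) : Bijective (glAut n) := by
  refine ⟨fun a b e => Units.ext (ext_of_mulVec_single fun i => DFunLike.congr_fun e (.ofAdd _)), fun φ => ?_⟩
  let L : MulAut (Multiplicative (Fin n → ZMod 2)) → Matrix (Fin n) (Fin n) (ZMod 2) := fun φ =>
    LinearMap.toMatrix' ((AddMonoidHom.mk' (fun v => (φ (.ofAdd v)).toAdd) fun v w => map_mul φ (.ofAdd v) (.ofAdd w)).toZModLinearMap 2)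
  have e : ∀ φ v, L φ *ᵥ v = (φ (.ofAdd v)).toAdd := fun φ v => LinearMap.toMatrix'_mulVec _ _
  have i : ∀ φ, L φ * L φ⁻¹ = 1 := fun φ => ext_of_mulVec_single fun i => by rw [← mulVec_mulVec, e, e, one_mulVec]; simp
  exact ⟨⟨L φ, L φ⁻¹, i φ, i φ⁻¹⟩, MulEquiv.ext fun v => e φ _⟩

variable {G : Type*} [Group G] [Finite G] {m u v w x z : G} {A B M U W : Subgroup G} {n : ℕ}

theorem El.equiv_vec (h : El 2 n B) : Nonempty (B ≃* Multiplicative (Fin n → ZMod 2)) := by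
  haveI := h.el.1
  obtain ⟨_⟩ : Nonempty (Module (ZMod 2) (Additive B)) := ⟨AddCommGroup.zmodModule fun x => Subtype.ext (h.el.2 _ x.toMul.2)⟩
  haveI : Module.Finite (ZMod 2) (Additive B) := Module.Finite.of_finite
  have d : Module.finrank (ZMod 2) (Additive B) = n := by
    have := Module.natCard_eq_pow_finrank (K := ZMod 2) (V := Additive B)
    rw [Nat.card_congr Additive.toMul, h.card, Nat.card_zmod] at this
    exact (Nat.pow_right_injective le_rfl this).symm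
  exact ⟨AddEquiv.toMultiplicativeRight (Module.finBasisOfFinrankEq (ZMod 2) _ d).equivFun.toAddEquiv⟩

theorem exists_chi (i : B.relIndex U = 2) (hv : v ∈ U) (h2 : v * v = 1) : ∃ f : U →* U, ∀ u : U, (u.1 ∈ B ∧ f u = 1) ∨ (u.1 ∉ B ∧ (f u).1 = v) := by
  classical
  refine ⟨MonoidHom.mk' (fun u => if u.1 ∈ B then 1 else ⟨v, hv⟩) fun a b => ?_, fun u => ?_⟩
  · have : (a * b).1 ∈ B ↔ (a.1 ∈ B ↔ b.1 ∈ B) := mul_mem_iff_of_index_two i
    by_cases ha : a.1 ∈ B <;> by_cases hb : b.1 ∈ B <;> simp only [this, ha, hb] <;> simp [Subtype.ext_iff, h2]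
  · by_cases hu : u.1 ∈ B <;> simp [hu]

theorem exists_hyper (el : IsElementaryAbelian 2 U) (l : A ≤ U) (hw : w ∈ U) (h : w ∉ A) : ∃ B, A ≤ B ∧ B ≤ U ∧ w ∉ B ∧ B.relIndex U = 2 := by
  have nn : ∀ {X Y : Subgroup G}, X ≤ U → Y ≤ U → X ≤ N[Y] := fun a b => le_norm_of_le_cent (a.trans ((le_cent_self el.1).trans (centralizer_le b)))
  have lw := zpowers_le.2 hw
  obtain ⟨D, d1, d2⟩ := exists_compl_of_elem Nat.prime_two el (sup_le l lw)
  have lD : D ≤ U := d2 ▸ le_sup_right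
  have k : w ∉ A ⊔ D := fun e => by
    obtain ⟨a, ha, d, hd, rfl⟩ := (mem_sup_of_norm (nn l lD)).1 e
    have : d = 1 := d1.le ⟨(mul_mem_cancel_left (mem_sup_left ha)).1 (mem_sup_right (mem_zpowers _)), hd⟩
    exact h (by rwa [this, mul_one])
  have o : orderOf w = 2 := orderOf_eq_prime (el.2 w hw) fun e => h (e ▸ one_mem A)
  refine ⟨A ⊔ D, le_sup_left, sup_le l lD, k, relIndex_eq_two_iff_exists_notMem_and.2 ⟨w, hw, k, fun b hb => ?_⟩⟩
  rw [← d2, sup_right_comm] at hb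
  obtain ⟨a, ha, y, hy, rfl⟩ := (mem_sup_of_norm (nn (sup_le l lD) lw)).1 hb
  rcases (mem_zp2 o).1 hy with rfl | rfl
  · exact .inr (by rwa [mul_one])
  · exact .inl (by rwa [mul_assoc, mul_self_of_two o, mul_one])

/-- `M` acts faithfully on the elementary abelian group `U` as its full automorphism group -/
structure AG (U M : Subgroup G) : Prop where
  el : IsElementaryAbelian 2 U
  n : M ≤ N[U]
  d : U ⊓ M = ⊥
  fa : ∀ m ∈ M, (∀ u ∈ U, m * u * m⁻¹ = u) → m = 1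
  fu : ∀ φ : U ≃* U, ∃ m ∈ M, ∀ u : U, ((φ u : U) : G) = m * u * m⁻¹

namespace AG

theorem sq (h : AG U M) (hu : u ∈ U) : u * u = 1 := by rw [← pow_two, h.el.2 u hu]

theorem tv0 (h : AG U M) (f : U →* U) (hf : ∀ u, f (f u) = 1) : ∃ m ∈ M, ∀ u : U, m * u * m⁻¹ = u * f u := by
  haveI := h.el.1
  have i : Involutive fun u => u * f u := fun u => by
    simp only [map_mul, hf, mul_one]
    rw [mul_assoc, show f u * f u = 1 from Subtype.ext (h.sq (f u).2), mul_one]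
  obtain ⟨m, hm, e⟩ := h.fu ⟨i.toPerm _, fun a b => by simp [mul_mul_mul_comm]⟩
  exact ⟨m, hm, fun u => (e u).symm⟩

theorem tv (h : AG U M) (l : A ≤ U) (hw : w ∈ U) (h1 : w ∉ A) (hv : v ∈ A) :
    ∃ m ∈ M, m * w * m⁻¹ = w * v ∧ (∀ a ∈ A, m * a * m⁻¹ = a) ∧ ∀ u ∈ U, m * u * m⁻¹ = u ∨ m * u * m⁻¹ = u * v := by
  obtain ⟨B, b1, -, b3, b4⟩ := exists_hyper h.el l hw h1
  obtain ⟨f, hf⟩ := exists_chi b4 (l hv) (h.sq (l hv))
  obtain ⟨m, hm, e⟩ := h.tv0 f fun u => ((hf _).resolve_right fun k => k.1 ((hf u).elim (fun e => e.2 ▸ one_mem B) fun e => e.2 ▸ b1 hv)).2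
  refine ⟨m, hm, by rw [e ⟨w, hw⟩, ((hf _).resolve_left fun k => b3 k.1).2], fun a ha => ?_, fun u hu => ?_⟩
  · rw [e ⟨a, l ha⟩, ((hf _).resolve_right fun k => k.1 (b1 ha)).2]; simp
  · rw [e ⟨u, hu⟩]
    exact (hf ⟨u, hu⟩).imp (fun k => by rw [k.2]; simp) fun k => by rw [k.2]

theorem mem_st (h : AG U M) (hz : orderOf z = 2) (h1 : m * z * m⁻¹ = z) (h2 : ∀ u ∈ U, m * u * m⁻¹ = u ∨ m * u * m⁻¹ = u * z) : m ∈ stab U (zpowers z) :=
  mem_stab.2 ⟨(norm_zp2 hz).ge (mem_centralizer_singleton_iff.2 (mul_inv_eq_iff_eq_mul.1 h1)), fun x hx => (mem_zp2 hz).2 ((h2 _ (inv_mem hx)).imp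
    (fun e => by rw [commutatorElement_def, mul_assoc, mul_assoc, ← mul_assoc m, e, mul_inv_cancel])
    fun e => by rw [commutatorElement_def, mul_assoc, mul_assoc, ← mul_assoc m, e, mul_inv_cancel_left])⟩

theorem cent_le (h : AG U M) (zU : z ∈ U) (hC : C1[z] ≤ U ⊔ M) : C[U] ≤ U := fun c hc => by
  obtain ⟨u, hu, m, hm, rfl⟩ := (mem_sup_of_norm' h.n).1 (hC (centralizer_le (Set.singleton_subset_iff.2 zU) hc))
  rw [h.fa m hm fun x hx => mul_inv_eq_iff_eq_mul.2 (mem_cent_iff.1 ((mul_mem_cancel_left (le_cent_self h.el.1 hu)).1 hc) x hx).symm, mul_one]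
  exact hu

theorem lx (h : AG U M) (hz : orderOf z = 2) (zU : z ∈ U) (hC : C1[z] ≤ U ⊔ M) (hx : x ∈ U) (h1 : x ∉ zpowers z) : LX (stab U (zpowers z)) z := by
  haveI : Fact (Nat.Prime 2) := ⟨Nat.prime_two⟩
  set Q := stab U (zpowers z)
  have cU := h.cent_le zU hC
  have UQ : U ≤ Q := (le_cent_self h.el.1).trans (cent_le_stab (zpowers_le.2 zU))
  have QC : Q ≤ C1[z] := stab_le_norm.trans (norm_zp2 hz).le
  have zQ : zpowers z ≤ C[Q] := zpowers_le.2 (le_cent1_iff.1 QC)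
  have c1 : ⁅U, Q⁆ ≤ zpowers z := comm_stab_le
  have c2 : ⁅Q, U⁆ ≤ zpowers z := (commutator_comm _ _).le.trans c1
  have c3 : ⁅Q, Q⁆ ≤ U := (comm_eq_bot_iff.1 (three_subgroup (comm_eq_bot_iff.2 (c2.trans zQ)) (comm_eq_bot_iff.2 (c1.trans zQ)))).trans cU
  have e : U ⊔ M ⊓ Q = Q := (sup_inf_of_norm (.inr h.n) UQ).symm.trans (inf_eq_right.2 (QC.trans hC))
  have c4 : ⁅M ⊓ Q, M ⊓ Q⁆ ≤ zpowers z := (le_inf ((commutator_mono inf_le_right inf_le_right).trans c3)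
    ((commutator_mono inf_le_left inf_le_left).trans (comm_le_left le_normalizer))).trans (h.d.le.trans bot_le)
  have nZ : Q ≤ N[zpowers z] := stab_le_norm
  have c5 : ⁅M ⊓ Q, Q⁆ ≤ zpowers z := comm_le_of_le_stab (e.ge.trans (sup_le (le_stab (UQ.trans nZ) ((commutator_mono inf_le_right le_rfl).trans c2)) (le_stab (inf_le_right.trans nZ) c4)))
  have c6 : ⁅Q, Q⁆ ≤ zpowers z := comm_le_of_le_stab (e.ge.trans (sup_le (le_stab (UQ.trans nZ) c2) (le_stab (inf_le_right.trans nZ) ((commutator_comm _ _).le.trans c5))))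
  have c : C[Q] ≤ zpowers z := fun y hy => by
    by_contra k
    obtain ⟨m, -, a, b, c⟩ := h.tv (zpowers_le.2 zU) (cU (centralizer_le UQ hy)) k (mem_zpowers z)
    rw [mem_cent_iff.1 hy m (h.mem_st hz (b z (mem_zpowers z)) c), mul_inv_cancel_right] at a
    exact ne_one_of_two hz (left_eq_mul.1 a)
  have zc : Z[Q] = zpowers z := le_antisymm (inf_le_right.trans c) (le_inf ((zpowers_le.2 zU).trans UQ) zQ)
  refine ⟨⟨⟨fun q => ⟨2, Subtype.ext ?_⟩, by rw [zc, Nat.card_zpowers, hz], zc ▸ c6⟩, fun ab => h1 (c (le_cent_self ab (UQ hx))), zc⟩, c.trans ((zpowers_le.2 zU).trans UQ),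
    le_norm_stab (hC.trans (sup_le le_normalizer h.n)) (norm_zp2 hz).ge⟩
  change q.1 ^ (2 * 2) = 1
  rw [pow_mul]
  refine h.el.2 _ (cU (mem_cent_iff.2 fun u hu => ?_))
  have a := c2 (commutator_mem_commutator q.2 hu)
  have b := mem_cent_iff.1 (zQ a) q q.2
  have d : q.1 * u = ⁅q.1, u⁆ * u * q := by rw [commutatorElement_def]; group
  calc u * q.1 ^ 2 = ⁅q.1, u⁆ * ⁅q.1, u⁆ * u * q * q := by rw [h.sq (zpowers_le.2 zU a), one_mul, mul_assoc, pow_two]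
    _ = ⁅q.1, u⁆ * (q * u) * q := by rw [d]; simp only [mul_assoc]
    _ = q * (⁅q.1, u⁆ * u * q) := by rw [← mul_assoc ⁅q.1, u⁆, ← b]; simp only [mul_assoc]
    _ = _ := by rw [← d, pow_two, mul_assoc]

theorem irr (h : AG U M) (hz : orderOf z = 2) (zW : z ∈ W) (l : W ≤ U) (hn : C1[z] ≤ N[W]) : W ≤ zpowers z ∨ U ≤ W := by
  refine (em _).imp_right fun k u hu => ?_
  obtain ⟨w, hw, w1⟩ := SetLike.not_le_iff_exists.1 k
  by_cases u1 : u ∈ zpowers z
  · exact zpowers_le.2 zW u1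
  by_cases e : w * u = 1
  · exact eq_inv_of_mul_eq_one_right e ▸ inv_mem hw
  have v1 := mul_mem (l hw) hu
  have o : orderOf (w * u) = 2 := orderOf_eq_prime (h.el.2 _ v1) e
  have c := (zpowers_le.2 (l zW)).trans ((le_cent_self h.el.1).trans (centralizer_le (zpowers_le.2 v1)))
  obtain ⟨m, -, a, b, -⟩ := h.tv (A := zpowers z ⊔ zpowers (w * u)) (sup_le (zpowers_le.2 (l zW)) (zpowers_le.2 v1)) (l hw) (fun k => by
    obtain ⟨a, ha, b, hb, k⟩ := (mem_sup_of_norm (le_norm_of_le_cent c)).1 k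
    rcases (mem_zp2 o).1 hb with rfl | rfl
    · exact w1 (by rwa [← k, mul_one])
    · rw [← mem_cent_iff.1 (le_cent_self h.el.1 (zpowers_le.2 (l zW) ha)) _ v1, mul_assoc, mul_eq_left] at k
      exact u1 (eq_inv_of_mul_eq_one_left k ▸ inv_mem ha)) (mem_sup_right (mem_zpowers _))
  rw [← mul_assoc, h.sq (l hw), one_mul] at a
  exact a ▸ conj_mem_of_norm (hn (mem_centralizer_singleton_iff.2 (mul_inv_eq_iff_eq_mul.1 (b z (mem_sup_left (mem_zpowers z)))))) hw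

theorem compl (h : AG U M) (hz : orderOf z = 2) (zU : z ∈ U) (hC : C1[z] ≤ U ⊔ M) (c : o[U] = 2 ^ (n + 1)) :
    ∃ K ≤ C1[z], stab U (zpowers z) ⊓ K = ⊥ ∧ stab U (zpowers z) ⊔ K = C1[z] ∧ Nonempty (K ≃* GL (Fin n) (ZMod 2)) := by
  haveI : Fact (Nat.Prime 2) := ⟨Nat.prime_two⟩
  haveI := h.el.1
  have cZ := (Nat.card_zpowers z).trans hz
  obtain ⟨B, b1, b2⟩ := exists_compl_of_elem Nat.prime_two h.el (zpowers_le.2 zU)
  have l : B ≤ U := b2 ▸ le_sup_right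
  have b3 : o[B] = 2 ^ n := by
    have := card_sup_of_disj (.inl ((zpowers_le.2 zU).trans (le_norm_of_le_cent (le_cent_of_comm h.el.1 l)))) b1
    rw [b2, c, cZ, pow_succ'] at this
    exact (Nat.eq_of_mul_eq_mul_left two_pos this).symm
  have i : B.relIndex U = 2 := Nat.eq_of_mul_eq_mul_left (Nat.two_pow_pos n) (by rw [← b3, CfsgH2.card_mul_relIndex l, c, b3, pow_succ])
  obtain ⟨ζ, hζ⟩ := exists_chi i zU (h.sq zU)
  have zB : z ∉ B := fun k => ne_one_of_two hz (b1.le ⟨mem_zpowers z, k⟩)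
  let z' : U := ⟨z, zU⟩
  have ζz : ζ z' = z' := Subtype.ext ((hζ z').resolve_left fun k => zB k.1).2
  have ζ1 : ∀ u, ζ u = 1 ∨ ζ u = z' := fun u => (hζ u).imp (·.2) fun k => Subtype.ext k.2
  have ζB : ∀ u : U, u.1 ∈ B → ζ u = 1 := fun u hu => ((hζ u).resolve_right fun k => k.1 hu).2
  have zz : z' * z' = 1 := Subtype.ext (h.sq zU)
  have pB : ∀ u : U, (u * ζ u).1 ∈ B := fun u => (hζ u).elim (fun k => by rw [k.2, mul_one]; exact k.1) fun k =>
    (mul_mem_iff_of_index_two (H := B.subgroupOf U) i).2 (iff_of_false k.1 fun e => zB (k.2 ▸ e))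
  have fa : ∀ m ∈ M ⊓ C1[z], (∀ b ∈ B, m * b * m⁻¹ = b) → m = 1 := fun m hm k => h.fa m hm.1 fun u hu => mul_inv_eq_iff_eq_mul.2
    (mem_centralizer_singleton_iff.1 ((b2.ge.trans (sup_le (zpowers_le.2 (mem_centralizer_singleton_iff.2 (mem_centralizer_singleton_iff.1 hm.2).symm))
      fun b hb => mem_centralizer_singleton_iff.2 (mul_inv_eq_iff_eq_mul.1 (k b hb)).symm)) hu)).symm
  have QC : stab U (zpowers z) ≤ C1[z] := stab_le_norm.trans (norm_zp2 hz).le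
  have UQ : U ≤ stab U (zpowers z) := (le_cent_self h.el.1).trans (cent_le_stab (zpowers_le.2 zU))
  refine ⟨M ⊓ C1[z] ⊓ N[B], inf_le_left.trans inf_le_right, eq_bot_iff.2 fun m hm => fa m hm.2.1 fun b hb => ?_, le_antisymm (sup_le QC (inf_le_left.trans inf_le_right)) fun c hc => ?_, ?_⟩
  · have : ⁅b⁻¹, m⁆ = 1 := b1.le ⟨(mem_stab.1 hm.1).2 _ (inv_mem (l hb)), by
      rw [commutatorElement_def, mul_assoc, mul_assoc, ← mul_assoc m]; exact B.mul_mem (B.inv_mem hb) (conj_mem_of_norm hm.2.2 (B.inv_mem (B.inv_mem hb)))⟩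
    exact mul_inv_eq_iff_eq_mul.2 (Commute.inv_left_iff.1 (commutatorElement_eq_one_iff_commute.1 this)).symm
  · obtain ⟨u, hu, m, hm, rfl⟩ := (mem_sup_of_norm' h.n).1 (hC hc)
    have mz := (mul_mem_cancel_left (QC (UQ hu))).1 hc
    let α := U.normalizerMonoidHom ⟨m, h.n hm⟩
    have αz : α z' = z' := Subtype.ext (mul_inv_eq_iff_eq_mul.2 (mem_centralizer_singleton_iff.1 mz))
    let f : U →* U := ζ.comp α.toMonoidHom * ζ
    have f0 : ∀ u, f u = ζ (α u) * ζ u := fun _ => rfl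
    have fz : f z' = 1 := by rw [f0, αz, ζz, zz]
    have f1 : ∀ u, f u = 1 ∨ f u = z' := fun u => by rcases ζ1 (α u) with a | a <;> rcases ζ1 u with b | b <;> simp [f0, a, b, zz]
    obtain ⟨t, ht, e⟩ := h.tv0 f fun u => by rcases f1 u with a | a <;> simp [a, fz]
    have tz : t * z * t⁻¹ = z := by rw [e z', fz]; simp [z']
    have tQ := h.mem_st hz tz fun u hu => (f1 ⟨u, hu⟩).imp (fun a => by rw [e ⟨u, hu⟩, a]; simp) fun a => by rw [e ⟨u, hu⟩, a]
    refine mul_mem (mem_sup_left (UQ hu)) ((mul_mem_cancel_right (mem_sup_left tQ)).1 (mem_sup_right ⟨⟨mul_mem hm ht, mul_mem mz (QC tQ)⟩, mem_norm_of_conj fun b hb => ?_⟩))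
    have : α (ζ (α ⟨b, l hb⟩)) = ζ (α ⟨b, l hb⟩) := by rcases ζ1 (α ⟨b, l hb⟩) with a | a <;> simp [a, αz]
    have k := pB (α ⟨b, l hb⟩)
    rw [← this, ← map_mul] at k
    rw [_root_.mul_inv_rev, mul_assoc m, mul_assoc m, ← mul_assoc _ t⁻¹, e ⟨b, l hb⟩, f0, ζB ⟨b, _⟩ hb, mul_one, ← mul_assoc]
    exact k
  · let ρ : (M ⊓ C1[z] ⊓ N[B] : Subgroup G) →* MulAut B := B.normalizerMonoidHom.comp (inclusion inf_le_right)
    obtain ⟨ε⟩ := El.equiv_vec ⟨elem_of_le h.el l, b3⟩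
    refine ⟨(MulEquiv.ofBijective ρ ⟨(injective_iff_map_eq_one ρ).2 fun m hm => Subtype.ext (fa m m.2.1 fun b hb => (congrArg Subtype.val (DFunLike.congr_fun hm ⟨b, hb⟩) :)), fun ψ => ?_⟩).trans
      ((MulAut.congr ε).trans (MulEquiv.ofBijective _ (glAut_bij n)).symm)⟩
    let π : U →* B := ((MonoidHom.id U * ζ : U →* U)).codRestrict (B.subgroupOf U) pB |> (subgroupOfEquivOfLe l).toMonoidHom.comp
    let φ : U →* U := (inclusion l).comp (ψ.toMonoidHom.comp π) * ζ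
    have φ0 : ∀ u, (φ u).1 = ψ (π u) * ζ u := fun _ => rfl
    have π0 : ∀ u, (π u).1 = u * ζ u := fun _ => rfl
    have inj : Injective φ := (injective_iff_map_eq_one φ).2 fun u hu => by
      have a := φ0 u
      rw [hu] at a
      rcases ζ1 u with k | k <;> rw [k] at a
      · have : π u = 1 := ψ.map_eq_one_iff.1 (Subtype.ext (by simpa using a.symm))
        have b := π0 u
        rw [this, k] at b
        exact Subtype.ext (by simpa using b.symm)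
      · exact (zB ((mul_mem_cancel_left (ψ (π u)).2).1 (a ▸ one_mem B))).elim
    obtain ⟨m, hm, e⟩ := h.fu (MulEquiv.ofBijective φ (Finite.injective_iff_bijective.1 inj))
    have e1 : ∀ b : B, m * b * m⁻¹ = ψ b := fun b => by
      rw [← e ⟨b, l b.2⟩, MulEquiv.ofBijective_apply, φ0, ζB _ b.2, show π ⟨b, l b.2⟩ = b from Subtype.ext (by rw [π0, ζB _ b.2]; simp)]; simp
    have e2 : m * z * m⁻¹ = z := by
      rw [← e z', MulEquiv.ofBijective_apply, φ0, show π z' = 1 from Subtype.ext (by rw [π0, ζz]; exact h.sq zU), ζz]; simp [z']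
    exact ⟨⟨m, ⟨hm, mem_centralizer_singleton_iff.2 (mul_inv_eq_iff_eq_mul.1 e2)⟩, mem_norm_of_conj fun b hb => e1 ⟨b, hb⟩ ▸ (ψ ⟨b, hb⟩).2⟩, MulEquiv.ext fun b => Subtype.ext (e1 b)⟩

theorem main (h : AG U M) (hz : orderOf z = 2) (zU : z ∈ U) (hC : C1[z] ≤ U ⊔ M) (c : o[U] = 2 ^ (n + 1)) (hn : 1 ≤ n) {Q : Subgroup G} (hQ : Q = O[{2}, C1[z]]) :
    IsExtraspecial 2 Q ∧ o[Q] = 2 ^ (2 * n + 1) ∧ (∃ E ≤ Q, IsElementaryAbelian 2 E ∧ o[E] = 2 ^ (n + 1)) ∧ IsLargeExtraspecial Q ∧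
    ∃ K ≤ C1[z], Q ⊓ K = ⊥ ∧ Q ⊔ K = C1[z] ∧ Nonempty (K ≃* GL (Fin n) (ZMod 2)) := by
  haveI : Fact (Nat.Prime 2) := ⟨Nat.prime_two⟩
  have lz := zpowers_le.2 zU
  have k : ¬ U ≤ zpowers z := fun k => by
    have := card_le_of_le k
    rw [c, Nat.card_zpowers, hz] at this
    exact absurd (Nat.pow_le_pow_right two_pos (Nat.succ_le_succ hn) |>.trans this) (by norm_num)
  obtain ⟨x, hx, x1⟩ := SetLike.not_le_iff_exists.1 k
  have q := h.lx hz zU hC hx x1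
  have UQ : U ≤ stab U (zpowers z) := (le_cent_self h.el.1).trans (cent_le_stab lz)
  have nU : C1[z] ≤ N[U] := hC.trans (sup_le le_normalizer h.n)
  have nZ := (norm_zp2 hz).ge
  obtain rfl : Q = stab U (zpowers z) := by
    have l : Q ≤ C1[z] := hQ ▸ piCoreOf_le
    have cm : ⁅U, Q⁆ ≤ U := comm_le_left (l.trans nU)
    refine le_antisymm (le_stab (l.trans nZ) (le_sup_right.trans ((h.irr (W := zpowers z ⊔ ⁅U, Q⁆) hz (mem_sup_left (mem_zpowers z)) (sup_le lz cm)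
      (le_norm_sup nZ (le_norm_commutator nU (hQ ▸ le_norm_piCoreOf)))).resolve_right fun e => k ?_))) (hQ ▸ le_pCoreOf q.le_c1 q.norm q.pg)
    exact CfsgH9.le_of_le_sup_comm (hQ ▸ isPGroup_piCoreOf) (elem_pgroup h.el) (l.trans nU) (l.trans nZ) lz e
  refine ⟨q.ext, ?_, ⟨U, UQ, h.el, c⟩, ?_, h.compl hz zU hC c⟩
  · have := q.toXZ.card_cent zU UQ
    rw [le_antisymm (inf_le_right.trans (h.cent_le zU hC)) (le_inf UQ (le_cent_self h.el.1)), c] at this
    exact Nat.eq_of_mul_eq_mul_right two_pos (by rw [← this]; ring)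
  · have v1 := mul_mem zU hx
    have e : z * x ≠ 1 := fun e => x1 (eq_inv_of_mul_eq_one_right e ▸ inv_mem (mem_zpowers z))
    obtain ⟨m, -, a, -⟩ := h.tv (zpowers_le.2 v1) zU (fun k => ((mem_zp2 (orderOf_eq_prime (h.el.2 _ v1) e)).1 k).elim (ne_one_of_two hz)
      fun e => x1 (left_eq_mul.1 e ▸ one_mem _)) (mem_zpowers _)
    rw [← mul_assoc, h.sq zU, one_mul] at a
    exact q.large_of_conj (a ▸ UQ hx) fun e => x1 (by rw [← a, e]; exact mem_zpowers z)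

end AG
end CfsgH1
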