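import Cfsg.Agent.H1.Sm3
import Cfsg.Agent.H1.LX
import Cfsg.Agent.H2.MaxCl
import Cfsg.Agent.S1012

/-! Simple groups of order 168. -/

set_option autoImplicit false

namespace CfsgH1.G168

open Subgroup Cfsg CfsgH2 Function

variable {G : Type*} [Group G] [Finite G] {r s t u x y z : G} {A H M T U V W X : Subgroup G}

theorem sup8 (c : o[T] = 8) (l : X ≤ T) (c4 : o[X] = 4) (ht : t ∈ T) (n : t ∉ X) : X ⊔ zpowers t = T := by
  have l1 : X ⊔ zpowers t ≤ T := sup_le l (zpowers_le.2 ht)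
  have a := card_lt_of_lt (left_lt_sup.2 fun e => n (zpowers_le.1 e))
  have b := card_le_of_le l1
  have := c4 ▸ card_dvd_of_le (le_sup_left : X ≤ X ⊔ zpowers t)
  exact eq_of_le_of_card_ge l1 (by omega)

theorem idx2 (c : o[T] = 8) (l : X ≤ T) (c4 : o[X] = 4) : X.relIndex T = 2 := by
  have := card_mul_relIndex l; rw [c4] at this; omega

theorem ab8 (c : o[T] = 8) (l : X ≤ T) (c4 : o[X] = 4) (k : X ≤ C[T]) : Ab[T] := by
  obtain ⟨t, ht, n⟩ := SetLike.not_le_iff_exists.1 fun e : T ≤ X => by have := card_le_of_le e; omega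
  rw [← sup8 c l c4 ht n]
  exact isMulComm_sup_zpowers (isMulComm_of_le_cent (k.trans (cent_anti l))) (le_centralizer_iff.1 k ht)

theorem conj_all (h : Nat.card {g : G // orderOf g = orderOf x} ≤ C1[x].index) (e : orderOf y = orderOf x) : IsConj x y := by
  by_contra c
  have := CfsgL0.card_subtype_lt' (p := fun g => IsConj x g) (q := fun g => orderOf g = orderOf x) (fun a ha => (CfsgH8.orderOf_eq_of_isConj ha).symm) y e c
  rw [CfsgH3.card_isConj_eq_index] at this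
  omega

theorem idx_le (x : G) : C1[x].index ≤ Nat.card {g : G // orderOf g = orderOf x} :=
  CfsgH3.card_isConj_eq_index x ▸ CfsgL0.card_subtype_le fun _ ha => (CfsgH8.orderOf_eq_of_isConj ha).symm

variable [IsSimpleGroup G] (h : Nat.card G = 168)
include h

theorem nab : ¬ ∀ a b : G, a * b = b * a := CfsgSm.nc (by rw [h]; norm_num)

theorem c3 (hx : orderOf x = 3) : C1[x] = zpowers x :=
  CfsgH4.cent_eq_zpowers_of_simple (a := 3) (b := 1) Nat.prime_two (by norm_num : Nat.Prime 7) Nat.prime_three (by rw [h]; norm_num) (by norm_num) hx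

theorem c7 (hx : orderOf x = 7) : C1[x] = zpowers x :=
  CfsgH4.cent_eq_zpowers_of_simple (a := 3) (b := 1) Nat.prime_two Nat.prime_three (by norm_num : Nat.Prime 7) (by rw [h]; norm_num) (by norm_num) hx

theorem n3 : Nat.card (Sylow 3 G) = 28 := by
  haveI : Fact (Nat.Prime 3) := ⟨by norm_num⟩
  obtain ⟨M, _, u, e, X, y, ε, δ, n, H, h1, hC, h2, h3, h4, h5, h6⟩ := CfsgSm.setup3 (p := 3) (a := 3) (b := 1)
    (nab h) Nat.prime_two (by norm_num : Nat.Prime 7) (by rw [h]; norm_num) (by norm_num)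
  have := Nat.le_of_dvd (by norm_num) h4
  rw [H.card_syl, h1]
  interval_cases e; omega

theorem n7 : Nat.card (Sylow 7 G) = 8 := by
  haveI : Fact (Nat.Prime 7) := ⟨by norm_num⟩
  obtain ⟨M, _, u, e, X, y, ε, δ, n, H, h1, hC, h2, h3, h4, h5, h6⟩ := CfsgSm.setup3 (p := 7) (a := 3) (b := 1)
    (nab h) Nat.prime_two Nat.prime_three (by rw [h]; norm_num) (by norm_num)
  have := Nat.le_of_dvd (by norm_num) h4
  rw [H.card_syl, h1]
  interval_cases e <;> omega

theorem small (t : H ≠ ⊤) : o[H] ≤ 24 ∧ o[H] ∣ 168 := by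
  have := CfsgL0.card_dvd_factorial_of_simple H t
  have i := H.card_mul_index
  refine ⟨by_contra fun l => ?_, h ▸ card_subgroup_dvd_card H⟩
  have := this.trans (Nat.factorial_dvd_factorial (show _ ≤ 6 by nlinarith))
  rw [h] at this; norm_num [Nat.factorial] at this

theorem norm_ne (h0 : H ≠ ⊥) (t : H ≠ ⊤) : N[H] ≠ ⊤ := fun e => (normalizer_eq_top_iff.1 e).eq_bot_or_eq_top.elim h0 t

theorem c8 (hT : Syl 2 T ⊤) : o[T] = 8 := by
  rw [hT.card_eq, card_top, CfsgSm.fact_eq (k := 3) (m := 21) Nat.prime_two h (by norm_num)]; rfl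

theorem pg2 (z1 : z ≠ 1) (hz : z ^ 8 = 1) : PG[2, C1[z]] := isPGroup_of_forall_prime_dvd fun q hq d => by
  haveI := Fact.mk hq
  obtain ⟨⟨x, hx⟩, o⟩ := exists_prime_orderOf_dvd_card' q d
  rw [orderOf_mk] at o
  have k : C1[x] = zpowers x → q = 2 := fun e => by
    have a : orderOf z ∣ q := o ▸ orderOf_dvd_of_mem_zpowers (e.le (mem_centralizer_singleton_iff.2 (mem_centralizer_singleton_iff.1 hx).symm))
    have b := ((Nat.dvd_prime hq).1 a).resolve_left (mt orderOf_eq_one_iff.1 z1) ▸ orderOf_dvd_of_pow_eq_one hz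
    exact (Nat.prime_dvd_prime_iff_eq hq Nat.prime_two).1 (hq.dvd_of_dvd_pow (show q ∣ 2 ^ 3 from b))
  have d2 : q ∣ 168 := h ▸ d.trans (card_subgroup_dvd_card _)
  have : q = 2 ∨ q = 3 ∨ q = 7 := by
    rw [show 168 = 2 ^ 3 * (3 * 7) from rfl, hq.dvd_mul, hq.dvd_mul, hq.prime.dvd_pow_iff_dvd three_ne_zero, Nat.prime_dvd_prime_iff_eq hq Nat.prime_two,
      Nat.prime_dvd_prime_iff_eq hq Nat.prime_three, Nat.prime_dvd_prime_iff_eq hq (by norm_num)] at d2
    exact d2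
  rcases this with e | e | e
  exacts [e, k (c3 h (o.trans e)), k (c7 h (o.trans e))]

theorem pow8 (hT : Syl 2 T ⊤) (hx : x ∈ T) : x ^ 8 = 1 := c8 h hT ▸ congrArg Subtype.val (pow_card_eq_one' (x := (⟨x, hx⟩ : T)))

theorem cz (hT : Syl 2 T ⊤) (hz : z ∈ T) (z1 : z ≠ 1) (c : z ∈ C[T]) : C1[z] = T :=
  hT.eq_of_le (pg2 h z1 (pow8 h hT hz)) (le_cent1_iff.2 c) le_top

theorem nT (hT : Syl 2 T ⊤) : N[T] = T := by
  have c := c8 h hT
  obtain ⟨a, b⟩ := small h (norm_ne h (H := T) (fun e => by simp [e] at c) fun e => by rw [e, card_top] at c; omega)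
  obtain ⟨k, hk⟩ := card_dvd_of_le (le_normalizer : T ≤ _)
  refine (eq_of_le_of_card_ge le_normalizer (by_contra fun l => ?_)).symm
  haveI : Fact (Nat.Prime 3) := ⟨by norm_num⟩
  obtain ⟨⟨x, hx⟩, o⟩ := exists_prime_orderOf_dvd_card' (G := N[T]) 3 (by
    rw [c] at hk l; rw [hk] at a b l ⊢; have : k < 4 := by omega
    interval_cases k <;> omega)
  rw [orderOf_mk] at o
  have m := card_modEq_inf_cent (CfsgH2.isPGroup_zpowers (p := 3) (k := 1) (by rw [pow_one, ← o, pow_orderOf_eq_one])) (zpowers_le.2 hx)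
  rw [cent_zpowers, c3 h o, c, inf_eq_bot_of_coprime' (by rw [c, Nat.card_zpowers, o]; norm_num), card_bot] at m
  exact absurd m (by decide)

theorem nabT (hT : Syl 2 T ⊤) : ¬ Ab[T] := fun a =>
  Sm.not_npc (nab h) (by rw [h]; norm_num) (hT.npc_of_norm_le_cent (inf_le_right.trans ((nT h hT).le.trans (le_cent_self a))))

theorem ex4 (hT : Syl 2 T ⊤) : ∃ r ∈ T, orderOf r = 4 := by
  by_contra! k
  refine nabT h hT ?_
  by_cases c : ∃ x ∈ T, orderOf x = 8
  · obtain ⟨x, hx, o⟩ := c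
    exact eq_of_le_of_card_ge (zpowers_le.2 hx) (by rw [c8 h hT, Nat.card_zpowers, o]) ▸ isMulComm_of_cyclic inferInstance
  push Not at c
  refine isMulComm_of_inverted (s := 1) fun x hx => by
    obtain ⟨i, hi, e⟩ := (Nat.dvd_prime_pow Nat.prime_two).1 (orderOf_dvd_of_pow_eq_one (pow8 h hT hx) : _ ∣ 2 ^ 3)
    have := k x hx; have := c x hx
    have : orderOf x ∣ 2 := by interval_cases i <;> simp_all
    rw [one_mul, inv_one, mul_one, eq_inv_iff_mul_eq_one, ← sq]; exact orderOf_dvd_iff_pow_eq_one.1 this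

theorem cr (hT : Syl 2 T ⊤) (hr : r ∈ T) (o : orderOf r = 4) : orderOf (r ^ 2) = 2 ∧ C1[r ^ 2] = T ∧ C1[r] = zpowers r := by
  have c := c8 h hT
  have c4 : o[zpowers r] = 4 := o ▸ Nat.card_zpowers r
  have o2 : orderOf (r ^ 2) = 2 := by rw [orderOf_pow' _ two_ne_zero, o]; rfl
  have n := le_norm_of_relIndex_two (zpowers_le.2 hr) (idx2 c (zpowers_le.2 hr) c4)
  have e : C1[r ^ 2] = T := cz h hT (pow_mem hr 2) (ne_one_of_two o2) (mem_cent_iff.2 fun t ht => mul_inv_eq_iff_eq_mul.1 (by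
    refine (eq_half_of_sq (m := 1) o (conj_mem_of_norm (n ht) (pow_mem (mem_zpowers r) 2)) ?_).resolve_left (mt conj_eq_one_iff.1 (ne_one_of_two o2))
    rw [conj_mul, mul_self_of_two o2]; simp))
  refine ⟨o2, e, le_antisymm (fun t ht => by_contra fun k => nabT h hT ?_) (zpowers_le.2 (self_mem_cent1 r))⟩
  rw [← sup8 c (zpowers_le.2 hr) c4 (e.le (mem_centralizer_singleton_iff.2 ((show Commute t r from mem_centralizer_singleton_iff.1 ht).pow_right 2))) k]
  exact isMulComm_sup_zpowers (isMulComm_of_cyclic inferInstance) (cent_zpowers r ▸ ht)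

theorem count : (∀ g : G, orderOf g = 1 ∨ orderOf g = 2 ∨ orderOf g = 3 ∨ orderOf g = 4 ∨ orderOf g = 7) ∧ Nat.card {g : G // orderOf g = 2} = 21 ∧
    Nat.card {g : G // orderOf g = 3} = 56 ∧ Nat.card {g : G // orderOf g = 4} = 42 ∧ Nat.card {g : G // orderOf g = 7} = 48 := by
  haveI : Fact (Nat.Prime 7) := ⟨by norm_num⟩
  haveI : Fact (Nat.Prime 3) := ⟨by norm_num⟩
  obtain ⟨T, hT⟩ := exists_syl (p := 2) (⊤ : Subgroup G)
  obtain ⟨r, hr, o⟩ := ex4 h hT
  obtain ⟨o2, e2, e4⟩ := cr h hT hr o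
  obtain ⟨x, o3⟩ := exists_prime_orderOf_dvd_card' (G := G) 3 (by rw [h]; norm_num)
  have a1 := idx_le (1 : G)
  have a2 := idx_le (r ^ 2)
  have a3 := idx_le x
  have a4 := idx_le r
  have a7 := CfsgH8.card_sylow_mul_le (G := G) 7 (CfsgSm.fact_eq (k := 1) (m := 24) Fact.out h (by norm_num))
  have b1 := Nat.pos_of_ne_zero (C1[(1 : G)].index_ne_zero_of_finite)
  have b2 := T.card_mul_index
  have b3 := (zpowers x).card_mul_index
  have b4 := (zpowers r).card_mul_index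
  rw [Nat.card_zpowers] at b3 b4
  rw [orderOf_one] at a1
  rw [e2, o2] at a2
  rw [c3 h o3, o3] at a3
  rw [e4, o] at a4
  rw [n7 h] at a7
  rw [c8 h hT] at b2
  rw [o3] at b3
  rw [o] at b4
  have e : Nat.card {g : G // orderOf g = 1 ∨ orderOf g = 2 ∨ orderOf g = 3 ∨ orderOf g = 4 ∨ orderOf g = 7} = Nat.card {g : G // orderOf g = 1} +
      (Nat.card {g : G // orderOf g = 2} + (Nat.card {g : G // orderOf g = 3} + (Nat.card {g : G // orderOf g = 4} + Nat.card {g : G // orderOf g = 7}))) := by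
    rw [CfsgL0.card_subtype_or (by omega), CfsgL0.card_subtype_or (by omega), CfsgL0.card_subtype_or (by omega), CfsgL0.card_subtype_or (by omega)]
  have l := Finite.card_subtype_le fun g : G => orderOf g = 1 ∨ orderOf g = 2 ∨ orderOf g = 3 ∨ orderOf g = 4 ∨ orderOf g = 7
  refine ⟨fun g => by_contra fun c => ?_, by omega⟩
  have := Finite.card_subtype_lt (p := fun g : G => orderOf g = 1 ∨ orderOf g = 2 ∨ orderOf g = 3 ∨ orderOf g = 4 ∨ orderOf g = 7) c
  omega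

theorem ex2 (o : orderOf x = 2 ∨ orderOf x = 4) : ∃ T, Syl 2 T ⊤ ∧ x ∈ T :=
  (exists_syl_ge (CfsgH2.isPGroup_zpowers (p := 2) (k := 2) (orderOf_dvd_iff_pow_eq_one.1 (by rcases o with o | o <;> simp [o]))) le_top).imp
    fun _ a => ⟨a.1, zpowers_le.1 a.2⟩

theorem conj4 (ox : orderOf x = 4) (oy : orderOf y = 4) : IsConj x y := by
  obtain ⟨T, hT, hx⟩ := ex2 h (Or.inr ox)
  have := (zpowers x).card_mul_index
  refine conj_all ?_ (oy.trans ox.symm)
  rw [Nat.card_zpowers, ox] at this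
  rw [ox, (count h).2.2.2.1, (cr h hT hx ox).2.2]; omega

theorem conj3 (ox : orderOf x = 3) (oy : orderOf y = 3) : IsConj x y := by
  have := (zpowers x).card_mul_index
  refine conj_all ?_ (oy.trans ox.symm)
  rw [Nat.card_zpowers, ox] at this
  rw [ox, (count h).2.2.1, c3 h ox]; omega

theorem conj2 (ox : orderOf x = 2) (oy : orderOf y = 2) : IsConj x y := by
  obtain ⟨T, hT⟩ := exists_syl (p := 2) (⊤ : Subgroup G)
  obtain ⟨r, hr, o⟩ := ex4 h hT
  obtain ⟨o2, e2, -⟩ := cr h hT hr o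
  have := T.card_mul_index
  have k : ∀ x : G, orderOf x = 2 → IsConj (r ^ 2) x := fun x o => conj_all (by rw [o2, (count h).2.1, e2]; have := c8 h hT; nlinarith) (o.trans o2.symm)
  exact (k x ox).symm.trans (k y oy)

theorem syl2 (o : orderOf x = 2) : Syl 2 C1[x] ⊤ := by
  obtain ⟨T, hT⟩ := exists_syl (p := 2) (⊤ : Subgroup G)
  obtain ⟨r, hr, o4⟩ := ex4 h hT
  obtain ⟨o2, e2, -⟩ := cr h hT hr o4
  obtain ⟨g, rfl⟩ := isConj_iff.1 (conj2 h o2 o)
  rw [centralizer_conj, e2]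
  exact hT.map_cj_mem (mem_top g)

theorem out2 (hT : Syl 2 T ⊤) (hr : r ∈ T) (o : orderOf r = 4) (hs : s ∈ T) (n : s ∉ zpowers r) : orderOf s = 2 := by
  have d := orderOf_dvd_of_pow_eq_one (pow8 h hT hs)
  rcases (count h).1 s with e | e | e | e | e
  · exact (n (orderOf_eq_one_iff.1 e ▸ one_mem _)).elim
  · exact e
  · rw [e] at d; omega
  · obtain ⟨g, rfl⟩ := isConj_iff.1 (conj4 h o e)
    have a := (cr h hT hs e).2.1
    rw [conj_pow, centralizer_conj, (cr h hT hr o).2.1] at a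
    exact (n (conj_mem_of_norm (le_norm_of_relIndex_two (zpowers_le.2 hr) (idx2 (c8 h hT) (zpowers_le.2 hr) (o ▸ Nat.card_zpowers r))
      ((nT h hT).le (mem_norm_of_map_le a.le))) (mem_zpowers r))).elim
  · rw [e] at d; omega

theorem dih (hT : Syl 2 T ⊤) : ∃ r s, Cy2 T r s 1 ∧ s * r * s⁻¹ = r⁻¹ := by
  obtain ⟨r, hr, o⟩ := ex4 h hT
  have c := c8 h hT
  have c4 : o[zpowers r] = 4 := o ▸ Nat.card_zpowers r
  obtain ⟨s, hs, n⟩ := SetLike.not_le_iff_exists.1 fun e : T ≤ zpowers r => by have := card_le_of_le e; omega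
  have o1 := out2 h hT hr o hs n
  have o2 := out2 h hT hr o (mul_mem hs hr) (by rwa [mul_mem_cancel_right (mem_zpowers r)])
  refine ⟨r, s, ⟨o, n, sup8 c (zpowers_le.2 hr) c4 hs n, by rw [sq, mul_self_of_two o1]; exact one_mem _,
    le_norm_of_relIndex_two (zpowers_le.2 hr) (idx2 c (zpowers_le.2 hr) c4) hs⟩, ?_⟩
  rw [inv_of_two o1, eq_inv_iff_mul_eq_one, mul_assoc, mul_self_of_two o2]

theorem cV (k : IsKleinFour V) : C[V] = V ∧ o[N[V]] = 24 := by
  obtain ⟨u, hu, u1, -⟩ := CfsgHv.klein_other k 1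
  have a : ∀ u ∈ V, u ≠ 1 → Syl 2 C1[u] ⊤ ∧ V ≤ C1[u] ∧ C1[u] ≤ N[V] := fun u hu u1 =>
    have s := syl2 h (orderOf_eq_prime (by rw [sq, CfsgHv.klein_sq k hu]) u1)
    have l : V ≤ C1[u] := (le_cent_self (CfsgHv.klein_ab k)).trans (cent_le_cent1 hu)
    ⟨s, l, le_norm_of_relIndex_two l (idx2 (c8 h s) l k.card_four)⟩
  obtain ⟨s, l, n⟩ := a u hu u1
  have c := c8 h s
  have nc : ¬ V ≤ C[C1[u]] := fun e => nabT h s (ab8 c l k.card_four e)
  refine ⟨le_antisymm (fun t ht => by_contra fun d => nc ?_) (le_cent_self (CfsgHv.klein_ab k)), ?_⟩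
  · rw [← sup8 c l k.card_four (cent_le_cent1 hu ht) d, le_centralizer_iff]
    exact sup_le (le_cent_self (CfsgHv.klein_ab k)) (zpowers_le.2 ht)
  have c4 := k.card_four
  obtain ⟨b1, b2⟩ := small h (norm_ne h (H := V) (fun e => by simp [e] at c4) fun e => by rw [e, card_top] at c4; omega)
  obtain ⟨m, hm⟩ := card_dvd_of_le n
  have : o[N[V]] ≠ 8 := fun e => nc fun v hv => by
    by_cases v1 : v = 1
    · exact v1 ▸ one_mem _
    obtain ⟨s', -, n'⟩ := a v hv v1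
    exact le_cent1_iff.1 (n.trans (eq_of_le_of_card_ge n' (by rw [e, c8 h s'])).ge)
  rw [c] at hm
  rw [hm] at b1 b2 this ⊢
  have : m < 4 := by omega
  interval_cases m <;> omega

theorem s4 (c : o[H] = 24) : Nonempty (H ≃* Equiv.Perm (Fin 4)) :=
  Cfsg.Agent.S1012.result c fun g e => by have := (count h).1 g; rw [orderOf_coe, e] at this; omega

theorem two4 (hT : Syl 2 T ⊤) : ∃ U W : Subgroup G, U ≠ W ∧ ∀ X, X ≤ T ∧ IsKleinFour X ↔ X = U ∨ X = W := by
  obtain ⟨r, s, y, e⟩ := dih h hT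
  have o : orderOf r = 4 := y.ord
  obtain ⟨o2, e2, e4⟩ := cr h hT y.amem o
  have c := c8 h hT
  have k : ∀ x ∈ T, x ∉ zpowers r → IsKleinFour ↥(zpowers (r ^ 2) ⊔ zpowers x) := fun x hx n => by
    have ox := out2 h hT y.amem o hx n
    have m : x ∈ N[zpowers (r ^ 2)] := (norm_zp2 o2).ge (e2.ge hx)
    refine CfsgHv.klein_of (by
      rw [card_sup_zpowers_prime Nat.prime_two m (by rw [sq x, mul_self_of_two ox]; exact one_mem _) fun d => n (zpowers_le.2 (pow_mem (mem_zpowers r) 2) d),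
        Nat.card_zpowers, o2]) fun w hw => ?_
    obtain ⟨a, ha, b, hb, rfl⟩ := (mem_sup_of_norm' (zpowers_le.2 m)).1 hw
    have := mem_centralizer_singleton_iff.1 (e2.ge hx)
    rcases (mem_zp2 o2).1 ha with rfl | rfl <;> rcases (mem_zp2 ox).1 hb with rfl | rfl
    · simp
    · simpa using mul_self_of_two ox
    · simpa using mul_self_of_two o2
    · rw [mul_assoc, ← mul_assoc b, this, mul_assoc, mul_self_of_two ox, mul_one, mul_self_of_two o2]
  have n1 : r * s ∉ zpowers r := y.mul_nmem (mem_zpowers r)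
  have l : ∀ x ∈ T, zpowers (r ^ 2) ⊔ zpowers x ≤ T := fun x hx => sup_le (zpowers_le.2 (pow_mem y.amem 2)) (zpowers_le.2 hx)
  refine ⟨zpowers (r ^ 2) ⊔ zpowers s, zpowers (r ^ 2) ⊔ zpowers (r * s), fun d => ?_, fun X => ⟨fun ⟨lX, kX⟩ => ?_, ?_⟩⟩
  · have := CfsgHv.klein_sq (k s y.bmem y.nmem) ((mul_mem_cancel_right (mem_sup_right (mem_zpowers s))).1 (d.ge (mem_sup_right (mem_zpowers (r * s)))))
    exact ne_one_of_two o2 (by rw [sq, this])
  · have hz : r ^ 2 ∈ X := (cV h kX).1.le (le_cent1_iff.1 (lX.trans e2.ge))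
    obtain ⟨x, hx, x1, x2⟩ := CfsgHv.klein_other kX (r ^ 2)
    have n : x ∉ zpowers r := fun d => (eq_half_of_sq (m := 1) o d (CfsgHv.klein_sq kX hx)).elim x1 x2
    have q : ∀ t ∈ T, t ∉ zpowers r → x * t⁻¹ ∈ zpowers (r ^ 2) → X = zpowers (r ^ 2) ⊔ zpowers t := fun t ht n d =>
      (eq_of_le_of_card_ge (sup_le (zpowers_le.2 hz) (zpowers_le.2 (inv_mem_iff.1 ((mul_mem_cancel_left hx).1 (zpowers_le.2 hz d)))))
        (kX.card_four.trans (k t ht n).card_four.symm).le).symm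
    obtain ⟨i, hi⟩ := (y.mem_iff.1 (lX hx)).resolve_left n
    obtain ⟨j, rfl | rfl⟩ := i.even_or_odd'
    · exact Or.inl (q s y.bmem y.nmem ⟨j, by rw [← hi]; simp [zpow_mul]⟩)
    · exact Or.inr (q _ (mul_mem y.amem y.bmem) n1 ⟨j, by rw [mul_inv_rev, ← mul_assoc, ← hi]; simp [zpow_mul, zpow_add]⟩)
  · rintro (rfl | rfl)
    exacts [⟨l s y.bmem, k s y.bmem y.nmem⟩, ⟨l _ (mul_mem y.amem y.bmem), k _ (mul_mem y.amem y.bmem) n1⟩]

theorem nconj (hT : Syl 2 T ⊤) (lU : U ≤ T) (lW : W ≤ T) (kU : IsKleinFour U) (kW : IsKleinFour W) {g : G} (e : U.map (cj g) = W) : U = W := by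
  have nU := le_norm_of_relIndex_two lU (idx2 (c8 h hT) lU kU.card_four)
  have nW := le_norm_of_relIndex_two lW (idx2 (c8 h hT) lW kW.card_four)
  obtain ⟨l, hl, m⟩ := hT.exists_norm_of_le (mem_top g) le_top nW (by rw [← e, normalizer_map_cj]; exact map_mono nU)
  rw [← map_cj_eq (nU ((nT h hT).le m)), ← map_cj_cj, e, map_cj_eq hl]

theorem n21 (o : orderOf x = 7) : o[N[zpowers x]] = 21 := by
  haveI : Fact (Nat.Prime 7) := ⟨by norm_num⟩
  have s : Syl 7 (zpowers x) ⊤ := Syl.of_card le_top (by rw [card_top, CfsgSm.fact_eq (k := 1) (m := 24) Fact.out h (by norm_num), Nat.card_zpowers, o]; rfl)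
  have := N[zpowers x].card_mul_index
  rw [← CfsgH1.Syl.card_sylow s, n7 h] at this; omega

end CfsgH1.G168
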