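import Cfsg.Agent.H1.Mi
import Cfsg.Agent.H5.SLBasic

/-! The three-point stabiliser is the projective special linear group of degree three over four elements. -/

set_option autoImplicit false
set_option maxRecDepth 100000

namespace CfsgH1.L34

open Cfsg CfsgH7 CfsgH7.Gol CfsgH1.Mg MulAction

variable {F : Type*} [Field F] [Fintype F]

theorem char2 (hF : Fintype.card F = 4) : CharP F 2 := charP_of_card_eq_prime_pow (f := 2) hF

theorem root4 (hF : Fintype.card F = 4) : ∃ θ : F, θ * θ = θ + 1 := by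
  classical
  have := char2 hF
  obtain ⟨x, -, hx⟩ := Finset.exists_mem_notMem_of_card_lt_card (s := ({0, 1} : Finset F)) (t := Finset.univ)
    (Finset.card_le_two.trans_lt (by rw [Finset.card_univ, hF]; norm_num))
  simp only [Finset.mem_insert, Finset.mem_singleton, not_or] at hx
  have h1 := FiniteField.pow_card_sub_one_eq_one x hx.1
  rw [hF] at h1
  refine ⟨x, mul_left_cancel₀ (sub_ne_zero.2 hx.2) ?_⟩
  have h2 : (2 : F) = 0 := CharTwo.two_eq_zero
  linear_combination h1 + (1 - x ^ 2) * h2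

theorem ok4 (hF : Fintype.card F = 4) {θ : F} (h : θ * θ = θ + 1) : (arQ 2 1 1).Ok (cfQ 2 θ) :=
  have := char2 hF
  arQ_ok 2 1 1 (by norm_num) (by simpa using h) (by decide)

theorem card_psl (hF : Fintype.card F = 4) : Nat.card (Matrix.ProjectiveSpecialLinearGroup (Fin 3) F) = 20160 := by
  have := CfsgH5.card_PSL (F := F) 3 (by norm_num)
  rw [hF] at this
  simp [Fin.prod_univ_succ] at this
  omega

def l21 : List Net := [(Net.cons (nat_lit 16) (nat_lit 0x1e00) (Net.cons (nat_lit 8) (nat_lit 0x1e0008) (Net.cons (nat_lit 4) (nat_lit 0xc0c000a) (Net.cons (nat_lit 2) (nat_lit 0x10300210) (Net.cons (nat_lit 1) (nat_lit 0x40100104) (Net.cons (nat_lit 2) (nat_lit 0x200200) (Net.cons (nat_lit 4) (nat_lit 0xc0c0008) (Net.cons (nat_lit 8) (nat_lit 0x8) (Net.cons (nat_lit 16) (nat_lit 0x1e00) Net.nil))))))))),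
  (Net.cons (nat_lit 16) (nat_lit 0x935c) (Net.cons (nat_lit 8) (nat_lit 0x900080) (Net.cons (nat_lit 4) (nat_lit 0xd000f) (Net.cons (nat_lit 2) (nat_lit 0x32010) (Net.cons (nat_lit 1) (nat_lit 0x1414040) (Net.cons (nat_lit 2) (nat_lit 0x20) (Net.cons (nat_lit 4) (nat_lit 0x40e) (Net.cons (nat_lit 8) (nat_lit 0x8200a0) (Net.cons (nat_lit 16) (nat_lit 0x9356) Net.nil)))))))))]

def Ms : List (List (List Nat)) := [[[0,3,0],[2,0,0],[0,0,1]],[[0,3,0],[2,0,0],[0,0,1]],[[1,2,1],[0,0,3],[2,1,3]],[[3,0,1],[1,1,3],[0,2,0]]]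

theorem I3 : Ix (fun i : Fin 3 => i.val) (finPt 3) 3 := ⟨by decide, by decide, by decide⟩

theorem ge21 : 20160 ≤ Nat.card (genW (finGen 21 l21) (gensW 2)) :=
  (finRep 21 l21 (by decide +kernel) (by decide +kernel)).card_geS (finPt_inj 21) _ [⟨0, [[2],[0,2]], [0,0,1,0,1,0,1], 21⟩,
  ⟨1, [[0],[3,0,2,0,2]], [0,1,1,0,1,0,1,1], 20⟩,
  ⟨5, [[2,2,0,3,0,2,0,3,3],[0,2,2,0,2,0,3,0,3,3],[0,3,3,0,2,0,3,3,0,3,3]], [0,2,1,0,2], 16⟩,
  ⟨2, [[0,2,2,0,2,0,3,0,3,3]], [0,0], 3⟩] 5 (by decide +kernel)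

theorem iso (hF : Fintype.card F = 4) : Nonempty (K21 ≃* Matrix.ProjectiveSpecialLinearGroup (Fin 3) F) := by
  obtain ⟨θ, h⟩ := root4 hF
  have K := ok4 hF h
  have hM : (arQ 2 1 1).mOk 3 Ms = true := by decide +kernel
  let g : Nat → Matrix.SpecialLinearGroup (Fin 3) F := fun k => match k with
    | 0 => ⟨_, K.det_one I3 hM 0 2 (by decide +kernel) (by rw [hF]; norm_num)⟩
    | _ => ⟨_, K.det_one I3 hM 2 5 (by decide +kernel) (by rw [hF]; norm_num)⟩
  have hP : (arQ 2 1 1).okP 21 3 [[2097120,0],[1973790,2088960],[1398101,1677720]] = true := by decide +kernel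
  have R := K.rep_lin (l := l21) I3 hM (K.matOf (ρ := Matrix.SpecialLinearGroup.coeMonoidHom) (g := g) I3 hM 2
    (fun k hk => by interval_cases k <;> rfl) (by decide +kernel)) hP [[0],[2]] [[2089441,1974270],[1031483,1603526]]
    (by decide +kernel) (by decide +kernel) (nall_iff.1 (by decide +kernel))
  obtain ⟨e1⟩ := R.iso_cq (K.lin_inj (K.surj hF) I3 hP R (gensW 2) [1,0,1,0,1,0,1,0,1,1] 0 (by decide +kernel))
    (by decide +kernel) (gensW 2) [[3,1,2,0,2],[3,3,1,3,0,2,0,3]] 0 [1,0,1,0,1,0,1,0,1,1] 5 (by decide +kernel)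
    (QuotientGroup.mk' (Subgroup.center _)) (fun x hx => (QuotientGroup.eq_one_iff x).1 hx) ((card_psl hF).le.trans ge21)
  obtain ⟨e2⟩ := (RP.onList W21 [2,3,5,14,17,4,13,16,22,11,8,18,12,19,6,7,21,20,10,9,15] 21 l21 (by decide +kernel)).iso_fin (inj_nth I.inj _ _ (by decide +kernel))
    (by decide +kernel) (genW_le.1 (gen_sub gm gen21).le) (card21.le.trans ge21)
  exact ⟨e2.trans e1.symm⟩

end CfsgH1.L34
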