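import Cfsg.Agent.H1.LX3

/-! Large extraspecial 2-subgroups of sections. -/

set_option autoImplicit false

namespace CfsgH1

open Subgroup Cfsg CfsgH2 Function
open scoped commutatorElement

variable {G : Type*} [Group G] [Finite G] {a b c g k m q r s u x y z : G} {A D H K L M N P Q R V W X : Subgroup G} {n : ℕ}

theorem LX.conj_pair (h : LX Q z) (hx : g * z * g⁻¹ ∈ Q) (hr : r ∈ Q) (h1 : r ∉ C1[g * z * g⁻¹]) (hs : s ∈ Q.map (cj g)) (h2 : s ∉ C1[z]) :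
    s * r * (g * z * g⁻¹) * (s * r)⁻¹ = z := by
  have k := h.map_cj g
  have zq := h.symm hx
  have e := mul_self_of_two k.ord
  have e3 := mem_centralizer_singleton_iff.1 (k.le_c1 hs)
  have e4 := mem_centralizer_singleton_iff.1 (k.le_c1 zq)
  have e1 := h.conj_eq hr hx h1
  have e2 := k.conj_eq hs zq h2
  generalize g * z * g⁻¹ = x at *
  calc s * r * x * (s * r)⁻¹ = s * (r * x * r⁻¹) * s⁻¹ := by group
    _ = s * z * s⁻¹ * (s * x * s⁻¹) := by rw [e1]; group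
    _ = z := by rw [e2, e3, mul_inv_cancel_right, ← e4, mul_assoc, e, mul_one]

theorem XZ.exists_nc_cent (h : XZ Q z) (ho : Odd o[A]) (hn : A ≤ N[Q]) (hx : x ∈ Q ⊓ C[A]) (h1 : x ∉ zpowers z) : ∃ r ∈ Q ⊓ C[A], r ∉ C1[x] := by
  haveI : Fact (Nat.Prime 2) := ⟨Nat.prime_two⟩
  by_contra! k
  obtain ⟨j, hj⟩ := exists_card_eq_pow h.pg
  have e := coprime_comm_sup_cent hn (hj ▸ (Nat.coprime_two_right.2 ho).pow_right j) (.inr (by haveI := h.pg.isNilpotent; infer_instance))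
  have c : ⁅⁅Q, A⁆, zpowers x⁆ = ⊥ := three_subgroup (K := A) (L := zpowers x) (H := Q)
    (by rw [comm_eq_bot_iff.2 (le_centralizer_iff.1 (zpowers_le.2 hx.2)), commutator_bot_left])
    (comm_eq_bot_iff.2 (((commutator_mono (zpowers_le.2 hx.1) le_rfl).trans h.der).trans (zpowers_le.2 (le_cent1_iff.1 (hn.trans h.norm_le)))))
  exact h1 (h.zc.le ⟨hx.1, le_cent1_iff.1 (e.ge.trans (sup_le ((comm_eq_bot_iff.1 c).trans (centralizer_le (Set.singleton_subset_iff.2 (mem_zpowers x)))) k))⟩)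

theorem le_sup_of_not_four (hz : orderOf z = 2) (h1 : z ∈ D) (h2 : D ≤ C1[z]) (h4 : ¬ 4 ∣ o[D]) : D ≤ O[{2}ᶜ, D] ⊔ zpowers z := by
  have l := zpowers_le.2 h1
  have c : o[zpowers z] = 2 := (Nat.card_zpowers z).trans hz
  have o : ¬ 2 ∣ (zpowers z).relIndex D := fun e => h4 (by rw [← CfsgH2.card_mul_relIndex l, c]; exact Nat.mul_dvd_mul_left 2 e)
  obtain ⟨H, a1, a2, -, a4⟩ := exists_compl l (h2.trans (norm_zp2 hz).ge) (c ▸ (Nat.Prime.coprime_iff_not_dvd Nat.prime_two).2 o)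
  refine a2.ge.trans (sup_le le_sup_right (le_sup_of_le_left (le_pPrimeCoreOf a1 (a2.ge.trans (sup_le ?_ le_normalizer)) (a4 ▸ o))))
  exact (zpowers_le.2 (le_cent1_iff.1 (a1.trans h2))).trans (centralizer_le_normalizer _)

theorem large_quot [hn : (K.subgroupOf M).Normal] (hP : P ≤ M) (pg : PG[2, P]) (hz : z ∈ P) (zz : orderOf z = 2) (zK : z ∉ K) (der : ⁅P, P⁆ ≤ zpowers z) (pz : P ≤ C1[z])
    (h1 : ∀ m ∈ M, ⁅m, z⁆ ∈ K → m ∈ N[P]) (h2 : ∀ m ∈ M, (∀ p ∈ P, ⁅m, p⁆ ∈ K) → m ∈ zpowers z ⊔ K) (hK : K ≤ M) (hm : m ∈ M) (hx : m * z * m⁻¹ ∈ P) (h3 : ⁅m, z⁆ ∉ K) :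
    IsLargeExtraspecial ((P.subgroupOf M).map (QuotientGroup.mk' (K.subgroupOf M))) := by
  haveI : Fact (Nat.Prime 2) := ⟨Nat.prime_two⟩
  set f := QuotientGroup.mk' (K.subgroupOf M)
  have f1 : ∀ a : M, f a = 1 ↔ a.1 ∈ K := fun a => QuotientGroup.eq_one_iff a
  have fc : ∀ a b : M, f a * f b = f b * f a ↔ ⁅a.1, b.1⁆ ∈ K := fun a b => by
    rw [← commutatorElement_eq_one_iff_mul_comm, ← map_commutatorElement]; exact f1 _
  let z' : M := ⟨z, hP hz⟩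
  have z1 : f z' ≠ 1 := mt (f1 _).1 zK
  have zo : orderOf (f z') = 2 := orderOf_eq_prime (by rw [← map_pow, show z' ^ 2 = 1 from Subtype.ext (zz ▸ pow_orderOf_eq_one z), map_one]) z1
  have mz : ∀ a : M, a.1 ∈ zpowers z → f a ∈ zpowers (f z') := fun a ⟨j, e⟩ => ⟨j, by rw [show a = z' ^ j from Subtype.ext e.symm, map_zpow]⟩
  have l : (P.subgroupOf M).map f ≤ C1[f z'] := by
    rintro _ ⟨a, ha, rfl⟩
    exact mem_centralizer_singleton_iff.2 ((fc _ _).2 ((commutatorElement_eq_one_iff_mul_comm.2 (mem_centralizer_singleton_iff.1 (pz ha))).symm ▸ K.one_mem :))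
  have c : C[(P.subgroupOf M).map f] ≤ zpowers (f z') := fun a ha => by
    obtain ⟨a, rfl⟩ := QuotientGroup.mk'_surjective _ a
    obtain ⟨y, hy, w, hw, e⟩ := (mem_sup_of_norm ((zpowers_le.2 (hP hz)).trans ((normal_subgroupOf_iff_le_normalizer hK).1 hn))).1
      (h2 a a.2 fun p hp => (fc a ⟨p, hP hp⟩).1 (mem_cent_iff.1 ha _ ⟨⟨p, hP hp⟩, hp, rfl⟩).symm)
    rw [show a = ⟨y, zpowers_le.2 (hP hz) hy⟩ * ⟨w, hK hw⟩ from Subtype.ext e.symm, map_mul, (f1 ⟨w, _⟩).2 hw, mul_one]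
    exact mz _ hy
  have zm : f z' ∈ (P.subgroupOf M).map f := ⟨z', hz, rfl⟩
  have zc : Z[(P.subgroupOf M).map f] = zpowers (f z') := le_antisymm (inf_le_right.trans c) (zpowers_le.2 ⟨zm, le_cent1_iff.1 l⟩)
  have xm : f ⟨m, hm⟩ * f z' * (f ⟨m, hm⟩)⁻¹ ∈ (P.subgroupOf M).map f := ⟨⟨m, hm⟩ * z' * ⟨m, hm⟩⁻¹, hx, by simp⟩
  have ne : f ⟨m, hm⟩ * f z' * (f ⟨m, hm⟩)⁻¹ ≠ f z' := fun e => h3 ((fc ⟨m, hm⟩ z').1 (mul_inv_eq_iff_eq_mul.1 e))
  refine LX.large_of_conj ⟨⟨⟨(pg.comap_of_injective M.subtype M.subtype_injective).map f, by rw [zc, Nat.card_zpowers, zo], zc ▸ ?_⟩, fun ab => ?_, zc⟩, c.trans (zpowers_le.2 zm), fun a ha => ?_⟩ xm ne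
  · refine commutator_le.2 ?_
    rintro _ ⟨a, ha, rfl⟩ _ ⟨b, hb, rfl⟩
    rw [← map_commutatorElement]
    exact mz _ (der (commutator_mem_commutator ha hb))
  · exact ((mem_zp2 zo).1 (c (le_cent_self ab xm))).elim (fun e => z1 (by simpa using e)) ne
  · obtain ⟨a, rfl⟩ := QuotientGroup.mk'_surjective _ a
    exact map_le_norm_map f le_rfl (mem_map_of_mem f (le_normalizer_comap M.subtype (h1 a a.2 ((fc a z').1 (mem_centralizer_singleton_iff.1 ha)))))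

end CfsgH1
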