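import Cfsg.Agent.H8.Multi

/-! Normal subgroups of multiply transitive groups. -/

set_option autoImplicit false

namespace CfsgH1.MT

open MulAction CfsgH8

variable {G Ω : Type*} [Group G] [MulAction G Ω] {N : Subgroup G} [hN : N.Normal] {S : Finset Ω} {j : ℕ}

def Pr (G : Type*) [Group G] [MulAction G Ω] (S : Finset Ω) : Prop := ∀ B : Set Ω, (∀ x ∈ B, x ∉ S) →
  (∀ g : G, (∀ x ∈ S, g • x = x) → ∀ y ∈ B, g • y ∈ B → ∀ z ∈ B, g • z ∈ B) → B.Subsingleton ∨ ∀ x, x ∉ S → x ∈ B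

theorem not_mem {g : G} (hg : ∀ x ∈ S, g • x = x) {a : Ω} (ha : a ∉ S) : g • a ∉ S := fun c => ha (MulAction.injective g (hg _ c) ▸ c)

theorem fix_inv {g : G} (hg : ∀ x ∈ S, g • x = x) : ∀ x ∈ S, g⁻¹ • x = x := fun x hx => inv_smul_eq_iff.2 (hg x hx).symm

theorem step [Finite Ω] [FaithfulSMul G Ω] (h : IsMultiplyPretransitive N Ω j) (hS : S.card = j) (p : Pr G S) {n : G} (hn : n ∈ N) (n1 : n ≠ 1) (f : ∀ x ∈ S, n • x = x) :
    IsMultiplyPretransitive N Ω (j + 1) := by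
  obtain ⟨c, hc⟩ := not_forall.1 fun e : ∀ x : Ω, n • x = x => n1 (eq_of_smul_eq_smul (α := Ω) fun x => (e x).trans (one_smul G x).symm)
  have c1 : c ∉ S := fun e => hc (f c e)
  have t := (p {y | ∃ m ∈ N, (∀ x ∈ S, m • x = x) ∧ m • c = y} (by rintro _ ⟨m, -, k, rfl⟩; exact not_mem k c1) (by
    rintro g hg _ ⟨m, hm, k, rfl⟩ ⟨m', hm', k', e⟩ _ ⟨l, hl, k'', rfl⟩
    refine ⟨g * (l * m⁻¹) * g⁻¹ * m', N.mul_mem (hN.conj_mem _ (N.mul_mem hl (N.inv_mem hm)) g) hm', fun x hx => ?_, ?_⟩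
    · simp [mul_smul, k' x hx, fix_inv hg x hx, fix_inv k x hx, k'' x hx, hg x hx]
    · simp [mul_smul, e])).resolve_left fun e => hc (e ⟨n, hn, f, rfl⟩ ⟨1, N.one_mem, by simp, by simp⟩)
  haveI := Fintype.ofFinite Ω
  refine isMultiplyPretransitive_succ_of h (by rw [← hS, Nat.card_eq_fintype_card]; exact S.card_le_univ) S hS fun a b ha hb => ?_
  obtain ⟨m, hm, k, rfl⟩ := t a ha
  obtain ⟨l, hl, k', rfl⟩ := t b hb
  exact ⟨⟨l * m⁻¹, N.mul_mem hl (N.inv_mem hm)⟩, fun x hx => by simp [mul_smul, fix_inv k x hx, k' x hx], by simp [mul_smul]⟩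

omit hN in
theorem pr_of [Finite Ω] {k : ℕ} (h : IsMultiplyPretransitive G Ω k) (hk : k ≤ Nat.card Ω) (hS : S.card + 2 ≤ k) : Pr G S := fun B b1 b2 => by
  classical
  refine or_iff_not_imp_left.2 fun c x hx => by_contra fun d => ?_
  obtain ⟨y, hy, z, hz, ne⟩ := Set.not_subsingleton_iff.1 c
  obtain ⟨g, g1, g2⟩ := exists_fix_smul_eq h hk (insert y S) (by rw [Finset.card_insert_of_notMem (b1 y hy)]; omega) (a := z) (b := x)
    (by simp [ne.symm, b1 z hz]) (by simp only [Finset.mem_insert, hx, or_false]; rintro rfl; exact d hy)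
  exact d (g2 ▸ b2 g (fun x hx => g1 x (Finset.mem_insert_of_mem hx)) y hy ((g1 y (Finset.mem_insert_self _ _)).symm ▸ hy) z hz)

theorem swap [Finite Ω] [DecidableEq Ω] (h : IsMultiplyPretransitive N Ω j) (hS : S.card = j) (h0 : ∀ n ∈ N, (∀ x ∈ S, n • x = x) → n = 1)
    {a b : Ω} (ha : a ∈ S) (hb : b ∈ S) : ∃ s ∈ N, (∀ x ∈ S, s • x = Equiv.swap a b x) ∧ (∀ x, x ∉ S → s • x ∉ S) ∧ (∀ x : Ω, s • s • x = x) ∧
      ∀ g : G, (∀ x ∈ S, g • x = x) → ∀ x : Ω, g • s • x = s • g • x := by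
  haveI := Fintype.ofFinite Ω
  obtain ⟨⟨s, hs⟩, e⟩ := exists_smul_eq_on_finset h (by rw [← hS, Nat.card_eq_fintype_card]; exact S.card_le_univ) S hS.le (Equiv.swap a b) (Equiv.injective _).injOn
  replace e : ∀ x ∈ S, s • x = Equiv.swap a b x := e
  have m : ∀ x ∈ S, Equiv.swap a b x ∈ S := fun x hx => by rw [Equiv.swap_apply_def]; split_ifs <;> assumption
  have k : ∀ x ∈ S, s • s • x = x := fun x hx => by rw [e x hx, e _ (m x hx), Equiv.swap_apply_self]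
  have k2 : ∀ x : Ω, s • s • x = x := fun x => by rw [← mul_smul, h0 _ (N.mul_mem hs hs) fun x hx => (mul_smul _ _ _).trans (k x hx), one_smul]
  refine ⟨s, hs, e, fun x hx c => hx (k2 x ▸ e _ c ▸ m _ c), k2, fun g hg x => ?_⟩
  have := h0 (s * (g * s * g⁻¹)) (N.mul_mem hs (hN.conj_mem _ hs g)) fun y hy => by
    rw [mul_smul, mul_smul, mul_smul, fix_inv hg y hy, hg _ (e y hy ▸ m y hy), k y hy]
  have := congrArg (s • · • g • x) this
  simpa [mul_smul, k2] using this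

end CfsgH1.MT
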