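import Cfsg.Agent.H1.RS2

/-! The subgroup of `SL(2, k(λ))` generated by two opposite one-parameter groups over `k`. -/

set_option autoImplicit false
set_option linter.unusedSectionVars false

namespace CfsgH1

open Polynomial Matrix
open scoped MatrixGroups

variable {k : Type*} [Field k]

/-- Pairs of polynomials with a normal Euclidean chain. -/
def Nm : ℕ → k[X] → k[X] → Prop
  | 0, p, r => (∃ a, a ≠ 0 ∧ p = C a) ∧ r = 0
  | m + 1, p', r' => ∃ p r c c', c ≠ 0 ∧ c' ≠ 0 ∧ Nm m p r ∧ r' = r + C c * p ∧ p' = p + C c' * (X * r')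

theorem Nm.deg : ∀ {m : ℕ} {p r : k[X]}, Nm m p r →
    p.coeff m ≠ 0 ∧ (∀ i, m < i → p.coeff i = 0) ∧ ∀ i, m ≤ i → r.coeff i = 0
  | 0, p, r, ⟨⟨a, ha, e⟩, e'⟩ => by
    subst e e'
    exact ⟨by simpa, fun i hi => coeff_C_of_ne_zero hi.ne', by simp⟩
  | m + 1, p', r', ⟨p, r, c, c', hc, hc', h, e1, e2⟩ => by
    obtain ⟨h1, h2, h3⟩ := h.deg
    have k1 : ∀ i, m + 1 ≤ i → r'.coeff i = 0 := fun i hi => by
      rw [e1, coeff_add, coeff_C_mul, h3 i (by omega), h2 i (by omega)]; simp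
    refine ⟨?_, fun i hi => ?_, k1⟩
    · rw [e2, coeff_add, coeff_C_mul, coeff_X_mul, h2 _ (by omega), e1, coeff_add, coeff_C_mul,
        h3 m le_rfl]
      simp [hc, hc', h1]
    · obtain ⟨j, rfl⟩ : ∃ j, i = j + 1 := ⟨i - 1, by omega⟩
      rw [e2, coeff_add, coeff_C_mul, coeff_X_mul, h2 _ (by omega), k1 j (by omega)]; simp

theorem Nm.smul : ∀ {m : ℕ} {p r : k[X]} {a b : k}, a ≠ 0 → b ≠ 0 → Nm m p r →
    Nm m (C a * p) (C b * r)
  | 0, p, r, a, b, ha, _, ⟨⟨c, hc, e⟩, e'⟩ => by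
    subst e e'
    exact ⟨⟨a * c, mul_ne_zero ha hc, by rw [C_mul]⟩, mul_zero _⟩
  | m + 1, p', r', a, b, ha, hb, ⟨p, r, c, c', hc, hc', h, e1, e2⟩ => by
    refine ⟨C a * p, C b * r, b * c / a, a * c' / b, div_ne_zero (mul_ne_zero hb hc) ha,
      div_ne_zero (mul_ne_zero ha hc') hb, h.smul ha hb, ?_, ?_⟩
    · rw [e1, mul_add, ← mul_assoc, ← mul_assoc, ← C_mul, ← C_mul, div_mul_cancel₀ _ ha]
    · rw [e2, mul_add, ← mul_assoc (C a), ← C_mul, mul_left_comm X, ← mul_assoc (C (a * c' / b)),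
        ← C_mul, div_mul_cancel₀ _ hb]

theorem Nm.cofinite : ∀ (m : ℕ) (P R : k[X][X]) (s0 : k), (∀ i, m < i → P.coeff i = 0) →
    (∀ i, m ≤ i → R.coeff i = 0) → Nm m (P.map (evalRingHom s0)) (R.map (evalRingHom s0)) →
    {s | ¬ Nm m (P.map (evalRingHom s)) (R.map (evalRingHom s))}.Finite
  | 0, P, R, s0, hP, hR, h => by
    have e1 : P = C (P.coeff 0) := by
      ext1 i
      rcases i with _ | i
      · simp
      · rw [hP _ (by omega), coeff_C_succ]
    have e2 : R = 0 := by ext1 i; exact hR i (Nat.zero_le i)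
    have h0 : P.coeff 0 ≠ 0 := fun e => h.deg.1 (by rw [coeff_map, e, map_zero])
    refine (finite_setOf_isRoot h0).subset fun s hs => ?_
    by_contra hn
    exact hs ⟨⟨_, hn, by rw [e1, map_C]; simp⟩, by rw [e2, Polynomial.map_zero]⟩
  | m + 1, P, R, s0, hP, hR, h => by
    set P' := C (R.coeff m) * P - C (P.coeff (m + 1)) * (X * R) with hP'
    set R' := C (P'.coeff m) * R - C (R.coeff m) * P' with hR'
    have d1 : ∀ i, m < i → P'.coeff i = 0 := fun i hi => by
      obtain ⟨j, rfl⟩ : ∃ j, i = j + 1 := ⟨i - 1, by omega⟩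
      rw [hP', coeff_sub, coeff_C_mul, coeff_C_mul, coeff_X_mul]
      rcases (show j = m ∨ m < j by omega) with rfl | hj
      · ring
      · rw [hP _ (by omega), hR j (by omega)]; ring
    have d2 : ∀ i, m ≤ i → R'.coeff i = 0 := fun i hi => by
      rw [hR', coeff_sub, coeff_C_mul, coeff_C_mul]
      rcases hi.eq_or_lt with rfl | hj
      · ring
      · rw [d1 _ hj, hR _ hj]; ring
    have mp : ∀ s, P'.map (evalRingHom s) = C ((R.map (evalRingHom s)).coeff m) * P.map (evalRingHom s)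
        - C ((P.map (evalRingHom s)).coeff (m + 1)) * (X * R.map (evalRingHom s)) := fun s => by
      simp [hP', Polynomial.map_sub, Polynomial.map_mul]
    have mr : ∀ s, R'.map (evalRingHom s) = C ((P'.map (evalRingHom s)).coeff m) * R.map (evalRingHom s)
        - C ((R.map (evalRingHom s)).coeff m) * P'.map (evalRingHom s) := fun s => by
      rw [hR']; simp only [Polynomial.map_sub, Polynomial.map_mul, map_C, coeff_map]
    have hd := h.deg.1
    obtain ⟨p, r, c, c', hc, hc', hn, e1, e2⟩ := h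
    obtain ⟨n1, n2, n3⟩ := hn.deg
    have l1 : (R.map (evalRingHom s0)).coeff m = c * p.coeff m := by
      rw [e1, coeff_add, coeff_C_mul, n3 m le_rfl, zero_add]
    have l2 : (P.map (evalRingHom s0)).coeff (m + 1) = c' * (c * p.coeff m) := by
      rw [e2, coeff_add, coeff_C_mul, coeff_X_mul, l1, n2 _ (by omega), zero_add]
    have f1 : P'.map (evalRingHom s0) = C (c * p.coeff m) * p := by
      rw [mp, l1, l2, e2]; simp only [C_mul]; ring
    have f2 : R'.map (evalRingHom s0) = C (c * p.coeff m * p.coeff m) * r := by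
      rw [mr, f1, l1, coeff_C_mul, e1]; simp only [C_mul]; ring
    have a1 : c * p.coeff m ≠ 0 := mul_ne_zero hc n1
    have ih := Nm.cofinite m P' R' s0 d1 d2 (by rw [f1, f2]; exact hn.smul a1 (mul_ne_zero a1 n1))
    have z1 : R.coeff m ≠ 0 := fun e => a1 (by rw [← l1, coeff_map, e, map_zero])
    have z2 : P.coeff (m + 1) ≠ 0 := fun e => hd (by rw [coeff_map, e, map_zero])
    refine (ih.union ((finite_setOf_isRoot z1).union (finite_setOf_isRoot z2))).subset fun s hs => ?_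
    by_contra hc
    simp only [Set.mem_union, Set.mem_setOf_eq, not_or, not_not] at hc
    obtain ⟨g1, g2, g3⟩ := hc
    have g2 : (R.map (evalRingHom s)).coeff m ≠ 0 := by rwa [coeff_map]
    have g3 : (P.map (evalRingHom s)).coeff (m + 1) ≠ 0 := by rwa [coeff_map]
    have g4 := g1.deg.1
    apply hs
    have q1 := mp s
    have q2 := mr s
    generalize P'.map (evalRingHom s) = p1, R'.map (evalRingHom s) = r1,
      P.map (evalRingHom s) = p0, R.map (evalRingHom s) = r0 at *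
    generalize p1.coeff m = u, r0.coeff m = v, p0.coeff (m + 1) = w at *
    refine ⟨_, _, v * v / u, w / v, div_ne_zero (mul_ne_zero g2 g2) g4, div_ne_zero g3 g2,
      g1.smul (inv_ne_zero g2) (inv_ne_zero g4), ?_, ?_⟩
    · have : C u⁻¹ * C u = (1 : k[X]) := by rw [← C_mul, inv_mul_cancel₀ g4, C_1]
      rw [← mul_assoc, ← C_mul, show v * v / u * v⁻¹ = u⁻¹ * v by field_simp, C_mul, q2]
      linear_combination -r0 * this
    · have : C v⁻¹ * C v = (1 : k[X]) := by rw [← C_mul, inv_mul_cancel₀ g2, C_1]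
      rw [div_eq_inv_mul, C_mul, q1]
      linear_combination -p0 * this

theorem exists_nm (m : ℕ) : ∃ p r : k[X], Nm m p r ∧ p.coeff 0 = 1 := by
  induction m with
  | zero => exact ⟨1, 0, ⟨⟨1, one_ne_zero, by simp⟩, rfl⟩, by simp⟩
  | succ m ih =>
    obtain ⟨p, r, h, e⟩ := ih
    exact ⟨_, _, ⟨p, r, 1, 1, one_ne_zero, one_ne_zero, h, rfl, rfl⟩, by simpa using e⟩

theorem exists_nm_finset [Fintype k] (m : ℕ) : ∃ s : Finset (k[X] × k[X]),
    s.card = (Fintype.card k - 1) ^ (2 * m) ∧ ∀ x ∈ s, Nm m x.1 x.2 ∧ x.1.coeff 0 = 1 := by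
  classical
  induction m with
  | zero =>
    refine ⟨{(1, 0)}, by simp, fun x hx => ?_⟩
    rw [Finset.mem_singleton.1 hx]
    exact ⟨⟨⟨1, one_ne_zero, by simp⟩, rfl⟩, by simp⟩
  | succ m ih =>
    obtain ⟨s, h1, h2⟩ := ih
    let f : (k[X] × k[X]) × kˣ × kˣ → k[X] × k[X] := fun x =>
      (x.1.1 + C (x.2.2 : k) * (X * (x.1.2 + C (x.2.1 : k) * x.1.1)), x.1.2 + C (x.2.1 : k) * x.1.1)
    refine ⟨(s ×ˢ Finset.univ).image f, ?_, fun x hx => ?_⟩
    · rw [Finset.card_image_of_injOn, Finset.card_product, h1, Finset.card_univ, Fintype.card_prod,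
        Fintype.card_units]
      · ring
      rintro ⟨⟨p, r⟩, c, c'⟩ hx ⟨⟨p1, r1⟩, d, d'⟩ hy e
      obtain ⟨a1, a2, a3⟩ := (h2 _ (Finset.mem_product.1 hx).1).1.deg
      obtain ⟨b1, b2, b3⟩ := (h2 _ (Finset.mem_product.1 hy).1).1.deg
      simp only [f, Prod.mk.injEq] at e a1 a2 a3 b1 b2 b3 ⊢
      obtain ⟨e1, e2⟩ := e
      rw [← e2] at e1
      have l1 := congrArg (coeff · (m + 1)) e1
      simp only [coeff_add, coeff_C_mul, coeff_X_mul, a2 _ (Nat.lt_succ_self m),
        b2 _ (Nat.lt_succ_self m), a3 m le_rfl, zero_add] at l1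
      have l2 : c' = d' := Units.ext (mul_right_cancel₀ (mul_ne_zero c.ne_zero a1) l1)
      subst l2
      have l3 : p = p1 := add_right_cancel e1
      subst l3
      have l4 := congrArg (coeff · m) e2
      simp only [coeff_add, coeff_C_mul, a3 m le_rfl, b3 m le_rfl, zero_add] at l4
      have l5 : c = d := Units.ext (mul_right_cancel₀ a1 l4)
      subst l5
      exact ⟨⟨rfl, add_right_cancel e2⟩, rfl, rfl⟩
    · obtain ⟨⟨⟨p, r⟩, c, c'⟩, hy, rfl⟩ := Finset.mem_image.1 hx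
      obtain ⟨a1, a2⟩ := h2 _ (Finset.mem_product.1 hy).1
      exact ⟨⟨p, r, c, c', c.ne_zero, c'.ne_zero, a1, rfl, rfl⟩, by simpa [f] using a2⟩

section field
variable {K : Type*} [Field K] [Algebra k K] {lam : K} {H : Subgroup SL(2, K)}

theorem Nm.reach (h1 : ∀ c, sU (algebraMap k K c) ∈ H) (h2 : ∀ c, sL (algebraMap k K c * lam) ∈ H) :
    ∀ {m : ℕ} {p r : k[X]}, Nm m p r → p.coeff 0 = 1 →
      ∃ g ∈ H, g.1 0 0 = aeval lam p ∧ g.1 1 0 = lam * aeval lam r
  | 0, p, r, ⟨⟨a, _, e⟩, e'⟩, h0 => by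
    subst e e'
    rw [coeff_C_zero] at h0
    exact ⟨1, one_mem _, by simp [h0], by simp⟩
  | m + 1, p', r', ⟨p, r, c, c', _, _, h, e1, e2⟩, h0 => by
    obtain ⟨g, hg, a1, a2⟩ := h.reach h1 h2 (by rw [e2] at h0; simpa using h0)
    refine ⟨sU (algebraMap k K c') * (sL (algebraMap k K c * lam) * g),
      mul_mem (h1 _) (mul_mem (h2 _) hg), ?_, ?_⟩
    · simp [sl2_mul, sU_val, sL_val, a1, a2, e1, e2, -mul_eq_mul_left_iff, -add_right_inj]; ring
    · simp [sl2_mul, sU_val, sL_val, a1, a2, e1]; ring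

theorem borel_of_col {g g' : SL(2, K)} {μ : K} (h1 : g'.1 0 0 = μ * g.1 0 0)
    (h2 : g'.1 1 0 = μ * g.1 1 0) : (g⁻¹ * g').1 0 0 = μ ∧ (g⁻¹ * g').1 1 0 = 0 := by
  have d := sl2_det g
  rw [sl2_mul, sl2_mul, SpecialLinearGroup.SL2_inv_expl, h1, h2]
  simp
  constructor
  · linear_combination μ * d
  · ring

theorem borel_conj {g : SL(2, K)} (h : g.1 1 0 = 0) (t : K) :
    g * sU t * g⁻¹ = sU (g.1 0 0 ^ 2 * t) := by
  have d := sl2_det g
  rw [h] at d
  rw [mul_inv_eq_iff_eq_mul]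
  apply sl2_ext <;> simp [sl2_mul, sU_val, h]
  linear_combination (-g.1 0 0 * t) * d

theorem sW_conj {t : K} (ht : t ≠ 0) (r : K) : sW t * sU r * (sW t)⁻¹ = sL (-r / t ^ 2) := by
  rw [mul_inv_eq_iff_eq_mul]
  apply sl2_ext <;> simp [sl2_mul, sU_val, sL_val, sW_val ht]
  field_simp

/-- multipliers of the upper translations -/
def mulT (H : Subgroup SL(2, K)) : Subring K where
  carrier := {t | ∀ s, sU s ∈ H → sU (t * s) ∈ H}
  mul_mem' := fun {a b} ha hb s hs => by rw [mul_assoc]; exact ha _ (hb _ hs)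
  one_mem' := fun s hs => by rwa [one_mul]
  add_mem' := fun {a b} ha hb s hs => by rw [add_mul, sU_add]; exact mul_mem (ha _ hs) (hb _ hs)
  zero_mem' := fun s _ => by rw [zero_mul, sU_zero]; exact one_mem _
  neg_mem' := fun {a} ha s hs => by rw [neg_mul, sU_neg]; exact inv_mem (ha _ hs)

theorem sq_mem_mulT {g : SL(2, K)} (hg : g ∈ H) (h : g.1 1 0 = 0) : g.1 0 0 ^ 2 ∈ mulT H :=
  fun s hs => borel_conj h s ▸ mul_mem (mul_mem hg hs) (inv_mem hg)

theorem exists_poly_lt (hi : IsIntegral k lam) (ht : ∀ t : K, t ∈ Algebra.adjoin k {lam}) (t : K) :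
    ∃ q : k[X], aeval lam q = t ∧ ∀ i, (minpoly k lam).natDegree ≤ i → q.coeff i = 0 := by
  have := ht t
  rw [Algebra.adjoin_singleton_eq_range_aeval] at this
  obtain ⟨q, rfl⟩ := this
  refine ⟨q %ₘ minpoly k lam, aeval_modByMonic_eq_self_of_root (minpoly.aeval k lam), fun i hi' => ?_⟩
  apply coeff_eq_zero_of_degree_lt
  refine (degree_modByMonic_lt q (minpoly.monic hi)).trans_le ?_
  rw [degree_eq_natDegree (minpoly.ne_zero hi)]
  exact_mod_cast hi'

theorem gen_infinite [Infinite k] (h1 : ∀ c, sU (algebraMap k K c) ∈ H)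
    (h2 : ∀ c, sL (algebraMap k K c * lam) ∈ H) (h0 : lam ≠ 0) (hi : IsIntegral k lam)
    (ht : ∀ t : K, t ∈ Algebra.adjoin k {lam}) {μ : K} (hμ : μ ≠ 0) : μ ^ 2 ∈ mulT H := by
  set n := (minpoly k lam).natDegree
  obtain ⟨p0, r0, hn, e0⟩ := exists_nm (k := k) n
  obtain ⟨-, d1, d2⟩ := hn.deg
  have key : ∀ ν : K, ∃ p r : k[X], (∀ i, n < i → p.coeff i = 0) ∧ (∀ i, n ≤ i → r.coeff i = 0) ∧
      p.coeff 0 = 1 ∧ aeval lam p = ν * aeval lam p0 ∧ aeval lam r = ν * aeval lam r0 := by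
    intro ν
    obtain ⟨q, a1, a2⟩ := exists_poly_lt hi ht ((ν * aeval lam p0 - 1) / lam)
    obtain ⟨r, b1, b2⟩ := exists_poly_lt hi ht (ν * aeval lam r0)
    refine ⟨1 + X * q, r, fun i hi => ?_, b2, by simp, ?_, b1⟩
    · obtain ⟨j, rfl⟩ : ∃ j, i = j + 1 := ⟨i - 1, by omega⟩
      rw [coeff_add, coeff_X_mul, a2 j (by omega), coeff_one]; simp
    · rw [map_add, map_mul, a1, aeval_X, map_one]; field_simp; ring
  obtain ⟨p1, r1, a1, a2, a3, a4, a5⟩ := key μ⁻¹
  obtain ⟨p2, r2, b1, b2, b3, b4, b5⟩ := key μ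
  let L : k[X] → k[X] → k[X][X] := fun u v => C (1 - X) * u.map C + C X * v.map C
  have Lc : ∀ u v i, u.coeff i = 0 → v.coeff i = 0 → (L u v).coeff i = 0 := fun u v i hu hv => by
    simp only [L, coeff_add, coeff_C_mul, coeff_map, hu, hv, map_zero, mul_zero, add_zero]
  have Lm : ∀ u v s, (L u v).map (evalRingHom s) = C (1 - s) * u + C s * v := fun u v s => by
    have : (evalRingHom s).comp C = RingHom.id k := by ext; simp
    simp only [L, Polynomial.map_add, Polynomial.map_mul, map_C, Polynomial.map_map, this,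
      Polynomial.map_id]
    simp
  have f1 := Nm.cofinite n (L p0 p1) (L r0 r1) 0 (fun i hi => Lc _ _ _ (d1 i hi) (a1 i hi))
    (fun i hi => Lc _ _ _ (d2 i hi) (a2 i hi)) (by rw [Lm, Lm]; simpa using hn)
  have f2 := Nm.cofinite n (L p2 p0) (L r2 r0) 1 (fun i hi => Lc _ _ _ (b1 i hi) (d1 i hi))
    (fun i hi => Lc _ _ _ (b2 i hi) (d2 i hi)) (by rw [Lm, Lm]; simpa using hn)
  obtain ⟨s, hs⟩ := (f1.union f2).exists_notMem
  simp only [Set.mem_union, Set.mem_setOf_eq, not_or, not_not, Lm] at hs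
  obtain ⟨g, hg, c1, c2⟩ := hs.1.reach h1 h2 (by simp [e0, a3])
  obtain ⟨g', hg', c3, c4⟩ := hs.2.reach h1 h2 (by simp [e0, b3])
  obtain ⟨u1, u2⟩ := borel_of_col (g := g) (g' := g') (μ := μ)
    (by rw [c1, c3]; simp [a4, b4]; field_simp) (by rw [c2, c4]; simp [a5, b5]; field_simp)
  exact u1 ▸ sq_mem_mulT (mul_mem (inv_mem hg) hg') u2

theorem count_ineq {q n τ : ℕ} (hq : 5 ≤ q) (hn : 2 ≤ n) (h1 : τ ^ 2 ≤ q ^ n)
    (h2 : (q - 1) ^ (2 * n) ≤ (q ^ n + 1) * (2 * (τ - 1))) : False := by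
  obtain ⟨a, rfl⟩ : ∃ a, q = a + 1 := ⟨q - 1, by omega⟩
  rw [Nat.add_sub_cancel] at h2
  have ha : 4 ≤ a := by omega
  have h3 : 2 * (a + 1) ^ 3 ≤ a ^ 4 := by
    obtain ⟨b, rfl⟩ : ∃ b, a = b + 4 := ⟨a - 4, by omega⟩
    nlinarith [Nat.zero_le b, Nat.zero_le (b ^ 2), Nat.zero_le (b ^ 3), Nat.zero_le (b ^ 4)]
  have h4 : 4 * ((a + 1) ^ n) ^ 3 ≤ (a ^ (2 * n)) ^ 2 := by
    calc 4 * ((a + 1) ^ n) ^ 3 ≤ 2 ^ n * ((a + 1) ^ n) ^ 3 :=
          Nat.mul_le_mul_right _ (Nat.pow_le_pow_right (n := 2) (by norm_num) hn)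
      _ = (2 * (a + 1) ^ 3) ^ n := by rw [mul_pow, ← pow_mul, ← pow_mul, mul_comm n]
      _ ≤ (a ^ 4) ^ n := Nat.pow_le_pow_left h3 n
      _ = _ := by rw [← pow_mul, ← pow_mul]; congr 1; ring
  have h0 : 0 < (a + 1) ^ n := by positivity
  generalize (a + 1) ^ n = Q at *
  generalize a ^ (2 * n) = P at *
  rcases τ with _ | τ
  · simp at h2; subst h2; simp at h4; omega
  rw [Nat.add_sub_cancel] at h2
  have h5 : τ < Q := by nlinarith
  have h6 : P < 2 * Q * (τ + 1) := by nlinarith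
  have h7 : P ^ 2 < (2 * Q * (τ + 1)) ^ 2 := Nat.pow_lt_pow_left h6 (by norm_num)
  have h8 : (2 * Q * (τ + 1)) ^ 2 ≤ 4 * Q ^ 3 := by
    calc _ = 4 * Q ^ 2 * (τ + 1) ^ 2 := by ring
      _ ≤ 4 * Q ^ 2 * Q := Nat.mul_le_mul_left _ h1
      _ = _ := by ring
  omega

theorem gen_finite [Fintype k] (hq : 5 ≤ Fintype.card k) (h1 : ∀ c, sU (algebraMap k K c) ∈ H)
    (h2 : ∀ c, sL (algebraMap k K c * lam) ∈ H) (h0 : lam ≠ 0) (hi : IsIntegral k lam)
    (ht : ∀ t : K, t ∈ Algebra.adjoin k {lam}) (t : K) : sU t ∈ H := by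
  classical
  set n := (minpoly k lam).natDegree with hn
  by_cases hn2 : n ≤ 1
  · obtain ⟨q, rfl, a⟩ := exists_poly_lt hi ht t
    have : q = C (q.coeff 0) := by
      ext1 i
      rcases i with _ | i
      · simp
      · rw [a _ (by omega), coeff_C_succ]
    rw [this, aeval_C]; exact h1 _
  have htop : Algebra.adjoin k {lam} = ⊤ := eq_top_iff.2 fun t _ => ht t
  let pb := (Algebra.adjoin.powerBasis hi).map
    ((Subalgebra.equivOfEq _ _ htop).trans Subalgebra.topEquiv)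
  haveI : Module.Finite k K := pb.finite
  haveI : Finite K := Module.finite_of_finite k
  haveI := Fintype.ofFinite K
  have cK : Fintype.card K = Fintype.card k ^ n := by
    rw [Module.card_eq_pow_finrank (K := k), pb.finrank]; rfl
  by_cases hT : mulT H = ⊤
  · have : t ∈ mulT H := hT ▸ Subring.mem_top t
    simpa using this 1 (by simpa using h1 1)
  exfalso
  let T := mulT H
  letI : Field T := Fintype.fieldOfDomain T
  have cT : Fintype.card T ^ 2 ≤ Fintype.card K := by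
    rw [Module.card_eq_pow_finrank (K := T) (V := K)]
    apply Nat.pow_le_pow_right Fintype.card_pos
    by_contra hc
    have : Module.finrank T K = 1 := by
      have := Module.finrank_pos (R := T) (M := K); omega
    obtain ⟨v, -, hv⟩ := finrank_eq_one_iff'.1 this
    apply hT
    rw [eq_top_iff]
    intro x _
    obtain ⟨a, ha⟩ := hv 1
    obtain ⟨b, hb⟩ := hv x
    have a0 : a ≠ 0 := by rintro rfl; simp at ha
    have : x = ((b * a⁻¹ : T) : K) := by
      rw [← mul_one (((b * a⁻¹ : T)) : K), ← ha, ← hb]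
      change _ = (b * a⁻¹) • a • v
      rw [smul_smul, inv_mul_cancel_right₀ a0]
    rw [this]; exact Subtype.property _
  let D : Finset K := Finset.univ.filter fun μ => ∃ g ∈ H, g.1 0 0 = μ ∧ g.1 1 0 = 0
  have cD : D.card ≤ 2 * (Fintype.card T - 1) := by
    have := Finset.card_le_mul_card_image_of_maps_to (s := D)
      (t := (Finset.univ.erase (0 : T)).map (Function.Embedding.subtype _)) (f := fun μ => μ ^ 2)
      (fun μ hμ => by
        obtain ⟨g, hg, rfl, e⟩ := (Finset.mem_filter.1 hμ).2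
        refine Finset.mem_map.2 ⟨⟨_, sq_mem_mulT hg e⟩, Finset.mem_erase.2 ⟨fun e' => ?_,
          Finset.mem_univ _⟩, rfl⟩
        exact pow_ne_zero 2 (sl2_eq_of_zero e).1 (congrArg Subtype.val e')) 2
      (fun b _ => by
        by_cases e : (D.filter fun μ => μ ^ 2 = b).Nonempty
        · obtain ⟨a, ha⟩ := e
          refine (Finset.card_le_card (t := {a, -a}) fun x hx => ?_).trans Finset.card_le_two
          have := (Finset.mem_filter.1 hx).2.trans (Finset.mem_filter.1 ha).2.symm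
          simpa using sq_eq_sq_iff_eq_or_eq_neg.1 this
        · rw [Finset.not_nonempty_iff_eq_empty.1 e]; simp)
    rwa [Finset.card_map, Finset.card_erase_of_mem (Finset.mem_univ _), Finset.card_univ] at this
  obtain ⟨s, s1, s2⟩ := exists_nm_finset (k := k) n
  let ev : k[X] × k[X] → K × K := fun x => (aeval lam x.1, lam * aeval lam x.2)
  have z : ∀ q : k[X], aeval lam q = 0 → (∀ i, n ≤ i → q.coeff i = 0) → q = 0 := by
    intro q a b
    by_contra hq
    have := minpoly.degree_le_of_ne_zero k lam hq a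
    rw [degree_eq_natDegree (minpoly.ne_zero hi), degree_eq_natDegree hq] at this
    exact hq (leadingCoeff_eq_zero.1 (b _ (by exact_mod_cast this)))
  have inj : Set.InjOn ev s := by
    rintro ⟨p, r⟩ hx ⟨p', r'⟩ hy e
    obtain ⟨-, a2, a3⟩ := (s2 _ hx).1.deg
    obtain ⟨-, b2, b3⟩ := (s2 _ hy).1.deg
    have a4 := (s2 _ hx).2
    have b4 := (s2 _ hy).2
    simp only [ev, Prod.mk.injEq] at e a2 a3 b2 b3 a4 b4 ⊢
    constructor
    · obtain ⟨q, hq⟩ : X ∣ p - p' := X_dvd_iff.2 (by rw [coeff_sub, a4, b4, sub_self])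
      have : q = 0 := z q (by
        have := congrArg (aeval lam) hq
        rw [map_sub, e.1, sub_self, map_mul, aeval_X] at this
        exact (mul_eq_zero.1 this.symm).resolve_left h0) fun i hi => by
          rw [← coeff_X_mul, ← hq, coeff_sub, a2 _ (by omega), b2 _ (by omega), sub_self]
      rw [this, mul_zero] at hq
      exact sub_eq_zero.1 hq
    · exact sub_eq_zero.1 (z _ (by rw [map_sub, mul_left_cancel₀ h0 e.2, sub_self])
        fun i hi => by rw [coeff_sub, a3 i hi, b3 i hi, sub_self])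
  have mem : ∀ x ∈ s.image ev, ∃ g ∈ H, g.1 0 0 = x.1 ∧ g.1 1 0 = x.2 := by
    intro x hx
    obtain ⟨y, hy, rfl⟩ := Finset.mem_image.1 hx
    exact (s2 y hy).1.reach h1 h2 (s2 y hy).2
  have cO := Finset.card_le_mul_card_image_of_maps_to (s := s.image ev)
    (t := (Finset.univ : Finset (Option K)))
    (f := fun x => if x.2 = 0 then none else some (x.1 / x.2)) (fun _ _ => Finset.mem_univ _) D.card
    (fun b _ => by
      by_cases e : ((s.image ev).filter fun x => (if x.2 = 0 then none else some (x.1 / x.2)) = b).Nonempty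
      swap; · rw [Finset.not_nonempty_iff_eq_empty.1 e]; simp
      obtain ⟨w, hw⟩ := e
      obtain ⟨hw1, hw2⟩ := Finset.mem_filter.1 hw
      obtain ⟨g, hg, c1, c2⟩ := mem w hw1
      refine (Finset.card_le_card (t := D.image fun μ => (μ * w.1, μ * w.2)) fun x hx => ?_).trans
        Finset.card_image_le
      obtain ⟨hx1, hx2⟩ := Finset.mem_filter.1 hx
      obtain ⟨g', hg', c3, c4⟩ := mem x hx1
      obtain ⟨μ, m1, m2⟩ : ∃ μ, x.1 = μ * w.1 ∧ x.2 = μ * w.2 := by
        rw [← hw2] at hx2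
        by_cases q1 : w.2 = 0
        · have q2 : x.2 = 0 := by
            by_contra q2; rw [if_neg q2, if_pos q1] at hx2; exact absurd hx2 (by simp)
          have q3 : w.1 ≠ 0 := c1 ▸ (sl2_eq_of_zero (c2.trans q1)).1
          exact ⟨x.1 / w.1, by field_simp, by rw [q1, q2, mul_zero]⟩
        · have q2 : x.2 ≠ 0 := by
            intro q2; rw [if_pos q2, if_neg q1] at hx2; exact absurd hx2 (by simp)
          rw [if_neg q2, if_neg q1, Option.some.injEq] at hx2
          refine ⟨x.2 / w.2, ?_, by field_simp⟩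
          field_simp at hx2 ⊢
          exact hx2
      obtain ⟨u1, u2⟩ := borel_of_col (g := g) (g' := g') (μ := μ) (by rw [c1, c3, m1])
        (by rw [c2, c4, m2])
      exact Finset.mem_image.2 ⟨μ, Finset.mem_filter.2 ⟨Finset.mem_univ _, _,
        mul_mem (inv_mem hg) hg', u1, u2⟩, Prod.ext m1.symm m2.symm⟩)
  rw [Finset.card_image_of_injOn inj, s1, Finset.card_univ, Fintype.card_option, cK] at cO
  rw [cK] at cT
  exact count_ineq hq (by omega) cT (cO.trans (by rw [mul_comm]; exact Nat.mul_le_mul_left _ cD))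

theorem five_le_card [Fintype k] (h2 : (2 : k) ≠ 0) (h3 : Nat.card k ≠ 3) : 5 ≤ Fintype.card k := by
  rw [Nat.card_eq_fintype_card] at h3
  have h1 := Fintype.one_lt_card (α := k)
  have h4 : Fintype.card k % 2 = 1 :=
    FiniteField.odd_card_of_char_ne_two fun e => h2 (by
      have := ringChar.Nat.cast_ringChar (R := k)
      rwa [e] at this)
  omega

theorem sl2_gen (k2 : (2 : k) ≠ 0) (k3 : Nat.card k ≠ 3) (h1 : ∀ c, sU (algebraMap k K c) ∈ H)
    (h2 : ∀ c, sL (algebraMap k K c * lam) ∈ H) (h0 : lam ≠ 0) (hi : IsIntegral k lam)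
    (ht : ∀ t : K, t ∈ Algebra.adjoin k {lam}) : H = ⊤ := by
  have hU : ∀ t, sU t ∈ H := by
    cases finite_or_infinite k
    · haveI := Fintype.ofFinite k
      exact gen_finite (five_le_card k2 k3) h1 h2 h0 hi ht
    · have K2 : (2 : K) ≠ 0 := by
        rw [← map_ofNat (algebraMap k K) 2]; exact (_root_.map_ne_zero _).2 k2
      have sq : ∀ μ : K, μ ^ 2 ∈ mulT H := fun μ => by
        by_cases e : μ = 0
        · rw [e, zero_pow two_ne_zero]; exact zero_mem _
        · exact gen_infinite h1 h2 h0 hi ht e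
      intro t
      have := sub_mem (sq ((t + 1) / 2)) (sq ((t - 1) / 2))
      rw [show ((t + 1) / 2) ^ 2 - ((t - 1) / 2) ^ 2 = t by field_simp; ring] at this
      simpa using this 1 (by simpa using h1 1)
  refine sl2_le_of hU fun t => ?_
  have a : -lam⁻¹ ≠ 0 := neg_ne_zero.2 (inv_ne_zero h0)
  have w : sW (-lam⁻¹) ∈ H := mul_mem (mul_mem (hU _) (by simpa using h2 1)) (hU _)
  have := sW_conj a (-t * (-lam⁻¹) ^ 2)
  rw [show -(-t * (-lam⁻¹) ^ 2) / (-lam⁻¹) ^ 2 = t by field_simp] at this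
  rw [← this]
  exact mul_mem (mul_mem w (hU _)) (inv_mem w)

end field

end CfsgH1
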