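import Cfsg.Agent.H1.QP1

/-! Strong approximation for the group generated by `x(c)`, `y(c z)`, `c ∈ k`. -/

set_option autoImplicit false
set_option linter.unusedSectionVars false

namespace CfsgH1

open Polynomial Matrix
open scoped MatrixGroups commutatorElement

universe u

section ring
variable {R : Type*} [CommRing R]

/-- upper elementary matrix over a ring -/
def rU (t : R) : SL(2, R) := ⟨!![1, t; 0, 1], by simp [det_fin_two]⟩
/-- lower elementary matrix over a ring -/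
def rL (t : R) : SL(2, R) := ⟨!![1, 0; t, 1], by simp [det_fin_two]⟩

theorem rU_val (t : R) : (rU t).1 = !![1, t; 0, 1] := rfl
theorem rL_val (t : R) : (rL t).1 = !![1, 0; t, 1] := rfl

theorem r_ext {g h : SL(2, R)} (h1 : g.1 0 0 = h.1 0 0) (h2 : g.1 0 1 = h.1 0 1)
    (h3 : g.1 1 0 = h.1 1 0) (h4 : g.1 1 1 = h.1 1 1) : g = h := by
  ext i j
  fin_cases i <;> fin_cases j
  exacts [h1, h2, h3, h4]

theorem r_det (g : SL(2, R)) : g.1 0 0 * g.1 1 1 - g.1 0 1 * g.1 1 0 = 1 := by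
  have := g.2
  rwa [det_fin_two] at this

theorem r_mul (g h : SL(2, R)) (i j : Fin 2) :
    (g * h).1 i j = g.1 i 0 * h.1 0 j + g.1 i 1 * h.1 1 j := by
  simp [Matrix.mul_apply, Fin.sum_univ_two]

theorem r_inv (g : SL(2, R)) : g⁻¹.1 = !![g.1 1 1, -g.1 0 1; -g.1 1 0, g.1 0 0] := by
  rw [SpecialLinearGroup.SL2_inv_expl]; rfl

theorem r_inv00 (g : SL(2, R)) : g⁻¹.1 0 0 = g.1 1 1 := by rw [r_inv]; rfl
theorem r_inv01 (g : SL(2, R)) : g⁻¹.1 0 1 = -g.1 0 1 := by rw [r_inv]; rfl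
theorem r_inv10 (g : SL(2, R)) : g⁻¹.1 1 0 = -g.1 1 0 := by rw [r_inv]; rfl
theorem r_inv11 (g : SL(2, R)) : g⁻¹.1 1 1 = g.1 0 0 := by rw [r_inv]; rfl

theorem rU_add (s t : R) : rU (s + t) = rU s * rU t := by
  apply r_ext <;> simp [r_mul, rU_val, add_comm]
theorem rL_add (s t : R) : rL (s + t) = rL s * rL t := by
  apply r_ext <;> simp [r_mul, rL_val, add_comm]
theorem rU_zero : rU (0 : R) = 1 := by apply r_ext <;> simp [rU_val]
theorem rL_zero : rL (0 : R) = 1 := by apply r_ext <;> simp [rL_val]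
theorem rU_neg (t : R) : rU (-t) = (rU t)⁻¹ := by
  rw [eq_inv_iff_mul_eq_one, ← rU_add, neg_add_cancel, rU_zero]
theorem rL_neg (t : R) : rL (-t) = (rL t)⁻¹ := by
  rw [eq_inv_iff_mul_eq_one, ← rL_add, neg_add_cancel, rL_zero]

/-- reduction map -/
abbrev rM {S : Type*} [CommRing S] (f : R →+* S) : SL(2, R) →* SL(2, S) := SpecialLinearGroup.map f

theorem rM_val {S : Type*} [CommRing S] (f : R →+* S) (g : SL(2, R)) (i j : Fin 2) :
    (rM f g).1 i j = f (g.1 i j) := rfl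

theorem rM_U {S : Type*} [CommRing S] (f : R →+* S) (t : R) : rM f (rU t) = rU (f t) := by
  apply r_ext <;> simp [rM_val, rU_val]
theorem rM_L {S : Type*} [CommRing S] (f : R →+* S) (t : R) : rM f (rL t) = rL (f t) := by
  apply r_ext <;> simp [rM_val, rL_val]

theorem rW_val {s s' : R} (h : s * s' = -1) : (rU s * rL s' * rU s).1 = !![0, s; s', 0] := by
  ext i j
  rw [r_mul, r_mul, r_mul]
  fin_cases i <;> fin_cases j <;> simp [rU_val, rL_val, h, mul_comm s']

theorem rW_conjU {s s' : R} (h : s * s' = -1) (r : R) :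
    (rU s * rL s' * rU s) * rU r * (rU s * rL s' * rU s)⁻¹ = rL (-(s' ^ 2 * r)) := by
  rw [mul_inv_eq_iff_eq_mul]
  apply r_ext <;> rw [r_mul, r_mul _ (rU s * rL s' * rU s), rW_val h] <;> simp [rU_val, rL_val]
  linear_combination s' * r * h

theorem rW_conjL {s s' : R} (h : s * s' = -1) (r : R) :
    (rU s * rL s' * rU s) * rL r * (rU s * rL s' * rU s)⁻¹ = rU (-(s ^ 2 * r)) := by
  rw [mul_inv_eq_iff_eq_mul]
  apply r_ext <;> rw [r_mul, r_mul _ (rU s * rL s' * rU s), rW_val h] <;> simp [rU_val, rL_val]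
  linear_combination s * r * h

end ring

variable {k : Type*} [Field k] {R : Type u} [CommRing R] [Algebra k R] {z z' : R}
  {H : Subgroup SL(2, R)}

theorem two_unit (k2 : (2 : k) ≠ 0) : (2 : R) * algebraMap k R 2⁻¹ = 1 := by
  rw [← map_ofNat (algebraMap k R) 2, ← map_mul, mul_inv_cancel₀ k2, map_one]

theorem step_scalar (k2 : (2 : k) ≠ 0) (hz : z * z' = 1) (hg : ∀ t : R, t ∈ Algebra.adjoin k {z})
    (h1 : ∀ c, rU (algebraMap k R c) ∈ H) (h2 : ∀ c, rL (algebraMap k R c * z) ∈ H)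
    {S : Type*} [CommRing S] (f : R →+* S)
    (hU : ∀ t, ∃ w ∈ H, rM f w = rU (f t)) (hL : ∀ t, ∃ w ∈ H, rM f w = rL (f t))
    (hN : ∀ w ∈ H, rM f w = 1 → w.1 0 1 = 0 ∧ w.1 1 0 = 0 ∧ w.1 0 0 = w.1 1 1) (t : R) :
    rU t ∈ H ∧ rL t ∈ H := by
  have t2 := two_unit (R := R) k2
  set h := algebraMap k R 2⁻¹
  have cm : ∀ w ∈ H, ∀ v ∈ H, v.1 0 0 + v.1 1 1 = 2 → rM f w * rM f v = rM f v * rM f w →
      w * v = v * w := by
    intro w hw v hv tr e
    obtain ⟨a1, a2, a3⟩ := hN (w * v * w⁻¹ * v⁻¹) (mul_mem (mul_mem (mul_mem hw hv) (inv_mem hw))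
      (inv_mem hv)) (by rw [map_mul, map_mul, map_mul, e, map_inv, map_inv]; group)
    generalize hc : w * v * w⁻¹ * v⁻¹ = c at a1 a2 a3
    have e1 : w * v * w⁻¹ = c * v := by rw [← hc]; group
    have e2 := congrArg (fun g : SL(2, R) => g.1 0 0) e1
    have e3 := congrArg (fun g : SL(2, R) => g.1 1 1) e1
    simp only [r_mul, r_inv, a1, a2, a3] at e2 e3
    simp at e2 e3
    have d := r_det w
    have e4 : c.1 1 1 = 1 := by
      linear_combination -h * e2 - h * e3 + (v.1 0 0 + v.1 1 1) * h * d - (c.1 1 1 - 1) * h * tr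
        - (c.1 1 1 - 1) * t2
    have : c = 1 := by apply r_ext <;> simp [a1, a2, a3, e4]
    rw [this, one_mul] at e1
    rw [← e1, inv_mul_cancel_right]; simp [e1]
  have shL : ∀ w ∈ H, (∃ t, rM f w = rL t) → w.1 0 1 = 0 ∧ w.1 0 0 = w.1 1 1 := by
    rintro w hw ⟨t, e⟩
    have := cm w hw (rL z) (by simpa using h2 1) (by simp [rL_val]; norm_num)
      (by rw [e, rM_L, ← rL_add, ← rL_add, add_comm])
    have e1 := congrArg (fun g : SL(2, R) => g.1 0 0) this
    have e2 := congrArg (fun g : SL(2, R) => g.1 1 0) this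
    simp [r_mul, rL_val] at e1 e2
    exact ⟨by linear_combination z' * e1 - w.1 0 1 * hz,
      by linear_combination -z' * e2 - (w.1 0 0 - w.1 1 1) * hz⟩
  have liftL : ∀ t, ∃ s, rL s ∈ H ∧ f s = f t := by
    intro t
    obtain ⟨w, hw, e⟩ := hL (t * h)
    obtain ⟨a1, a2⟩ := shL w hw ⟨_, e⟩
    have d := r_det w
    have b1 : f (w.1 1 1) = 1 := by simpa [rL_val] using congrArg (fun g : SL(2, S) => g.1 1 1) e
    have b2 : f (w.1 1 0) = f (t * h) := by
      simpa [rL_val] using congrArg (fun g : SL(2, S) => g.1 1 0) e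
    refine ⟨2 * w.1 1 0 * w.1 1 1, ?_, ?_⟩
    · convert mul_mem hw hw using 1
      rw [a1, a2] at d
      apply r_ext <;> simp [r_mul, rL_val, a1, a2] <;> [linear_combination -d; ring;
        linear_combination -d]
    · rw [map_mul, map_mul, b1, b2, mul_one, ← map_mul, mul_left_comm, t2, mul_one]
  have mt : ∀ s s', rU s ∈ H → rL s' ∈ H → f (s * s') = f (-1) → s * s' = -1 := by
    intro s s' a b e
    have w := mul_mem (mul_mem a b) a
    rw [map_mul, map_neg, map_one] at e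
    obtain ⟨c1, c2⟩ := shL _ (mul_mem (mul_mem w (h1 1)) (inv_mem w))
      ⟨_, by rw [map_mul, map_mul, map_inv, map_mul, map_mul, rM_U, rM_U, rM_L, rW_conjU e]⟩
    simp [r_mul, r_inv, rU_val, rL_val] at c1 c2
    linear_combination c1 + s * h * c2 + s * (s' + s * s' ^ 2) * t2
  have u1 : rU (1 : R) ∈ H := by simpa using h1 1
  obtain ⟨s, a, e⟩ := liftL (-1)
  have e1 := mt 1 s u1 a (by rwa [one_mul])
  have w1 := mul_mem (mul_mem u1 a) u1
  have e1' : s = -1 := by rwa [one_mul] at e1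
  have AB : ∀ r, rU r ∈ H → rL r ∈ H := fun r hr => by
    have := mul_mem (mul_mem w1 hr) (inv_mem w1)
    rw [rW_conjU e1, e1', rL_neg] at this
    simpa using this
  have BA : ∀ r, rL r ∈ H → rU r ∈ H := fun r hr => by
    have := mul_mem (mul_mem w1 hr) (inv_mem w1)
    rw [rW_conjL e1, rU_neg] at this
    simpa using this
  have uz : rU z ∈ H := BA z (by simpa using h2 1)
  obtain ⟨s', a', e'⟩ := liftL (-z')
  have e2 := mt z s' uz a' (by rw [map_mul, e', ← map_mul, mul_neg, hz])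
  have w2 := mul_mem (mul_mem uz a') uz
  have sq : ∀ r, rU r ∈ H → rU (z ^ 2 * r) ∈ H := fun r hr => by
    have := mul_mem (mul_mem w2 (AB r hr)) (inv_mem w2)
    rw [rW_conjL e2, rU_neg] at this
    simpa using this
  have pw : ∀ n : ℕ, ∀ c, rU (algebraMap k R c * z ^ n) ∈ H ∧ rU (algebraMap k R c * z ^ (n + 1)) ∈ H := by
    intro n c
    induction n with
    | zero => exact ⟨by simpa using h1 c, by simpa using BA _ (h2 c)⟩
    | succ n ih => exact ⟨ih.2, by convert sq _ ih.1 using 2; ring⟩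
  have all : ∀ t, rU t ∈ H := by
    intro t
    have := hg t
    rw [Algebra.adjoin_singleton_eq_range_aeval] at this
    obtain ⟨q, rfl⟩ := this
    change rU (aeval z q) ∈ H
    induction q using Polynomial.induction_on' with
    | add p q h1 h2 => rw [map_add, rU_add]; exact mul_mem h1 h2
    | monomial n c => rw [aeval_monomial]; exact (pw n c).1
  exact ⟨all t, AB t (all t)⟩

theorem exists_sq_ne_one (k2 : (2 : k) ≠ 0) (k3 : Nat.card k ≠ 3) : ∃ c : k, c ≠ 0 ∧ c ^ 2 ≠ 1 := by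
  by_contra hc
  push Not at hc
  have : (Set.univ : Set k) ⊆ {0, 1, -1} := fun c _ => by
    by_cases e : c = 0
    · exact Or.inl e
    · exact Or.inr (sq_eq_one_iff.1 (hc c e))
  haveI fi : Finite k := Set.finite_univ_iff.1 ((Set.toFinite _).subset this)
  letI i := Fintype.ofFinite k
  have h5 := five_le_card k2 k3
  have := Set.ncard_le_ncard this
  rw [Set.ncard_univ, Nat.card_eq_fintype_card] at this
  have h2 := Set.ncard_insert_le (0 : k) {1, -1}
  have h3 := Set.ncard_insert_le (1 : k) {-1}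
  rw [Set.ncard_singleton] at h3
  omega

theorem comm_diag_U {a b : R} (h : a * b = 1) (t : R) :
    ⁅rU a * rL (-b) * rU a * (rU (-1) * rL 1 * rU (-1)), rU t⁆ = rU ((a ^ 2 - 1) * t) := by
  rw [commutatorElement_def, ← rU_neg, sub_mul, sub_eq_add_neg, rU_add, one_mul]
  congr 1
  have e1 := rW_conjU (s := (-1 : R)) (s' := 1) (by ring) t
  have e2 := rW_conjL (s := a) (s' := -b) (by rw [mul_neg, h]) (-(1 ^ 2 * t))
  rw [← e1] at e2
  rw [show a ^ 2 * t = -(a ^ 2 * -(1 ^ 2 * t)) by ring, ← e2]; group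

theorem comm_diag_L {a b : R} (h : a * b = 1) (t : R) :
    ⁅rU a * rL (-b) * rU a * (rU (-1) * rL 1 * rU (-1)), rL t⁆ = rL ((b ^ 2 - 1) * t) := by
  rw [commutatorElement_def, ← rL_neg, sub_mul, sub_eq_add_neg, rL_add, one_mul]
  congr 1
  have e1 := rW_conjL (s := (-1 : R)) (s' := 1) (by ring) t
  have e2 := rW_conjU (s := a) (s' := -b) (by rw [mul_neg, h]) (-((-1) ^ 2 * t))
  rw [← e1] at e2
  rw [show b ^ 2 * t = -((-b) ^ 2 * -((-1) ^ 2 * t)) by ring, ← e2]; group

theorem mem_comm_of_all (k2 : (2 : k) ≠ 0) (k3 : Nat.card k ≠ 3) (hU : ∀ t, rU t ∈ H)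
    (hL : ∀ t, rL t ∈ H) (t : R) : rU t ∈ ⁅H, H⁆ ∧ rL t ∈ ⁅H, H⁆ := by
  obtain ⟨c, c0, c1⟩ := exists_sq_ne_one k2 k3
  have hc : algebraMap k R c * algebraMap k R c⁻¹ = 1 := by
    rw [← map_mul, mul_inv_cancel₀ c0, map_one]
  have c2 : c ^ 2 - 1 ≠ 0 := sub_ne_zero.2 c1
  have k' : (algebraMap k R c ^ 2 - 1) * (algebraMap k R (c ^ 2 - 1)⁻¹ * t) = t := by
    rw [← map_pow, ← map_one (algebraMap k R), ← map_sub, ← mul_assoc, ← map_mul,
      mul_inv_cancel₀ c2, map_one, one_mul]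
  have m : ∀ a b : R, rU a * rL b * rU a ∈ H := fun a b => mul_mem (mul_mem (hU _) (hL _)) (hU _)
  constructor
  · rw [← k', ← comm_diag_U hc]
    exact Subgroup.commutator_mem_commutator (mul_mem (m _ _) (m _ _)) (hU _)
  · rw [← k', ← comm_diag_L (mul_comm (algebraMap k R c) _ ▸ hc)]
    exact Subgroup.commutator_mem_commutator (mul_mem (m _ _) (m _ _)) (hL _)

theorem step_ker (k2 : (2 : k) ≠ 0) (k3 : Nat.card k ≠ 3) {K : Type*} [Field K] [Algebra k K]
    (φ : R →+* K) {e : R} (he : ∀ x, φ x = 0 ↔ x * e = 0) (hs : H.map (rM φ) = ⊤)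
    {w : SL(2, R)} (hw : w ∈ H) (hw1 : ∀ i j, e ∣ (w.1 - 1) i j)
    (hn : ¬ (w.1 0 1 = 0 ∧ w.1 1 0 = 0 ∧ w.1 0 0 = w.1 1 1))
    {g : SL(2, R)} (hg : ∀ i j, e ∣ (g.1 - 1) i j) : g ∈ H := by
  have lift : ∀ v : SL(2, K), ∃ h ∈ H, rM φ h = v := fun v => by
    have : v ∈ H.map (rM φ) := hs ▸ Subgroup.mem_top v
    exact this
  have eqe : ∀ {x y : R}, φ x = φ y → e * x = e * y := fun {x y} h => by
    have := (he (x - y)).1 (by rw [map_sub, h, sub_self])
    linear_combination this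
  have K2 : (2 : K) ≠ 0 := by
    rw [← map_ofNat (algebraMap k K) 2]; exact (_root_.map_ne_zero _).2 k2
  by_cases ee : φ e = 0
  · have e2 : e * e = 0 := (he e).1 ee
    -- the set of trace zero matrices over `K` realised in `H`
    let V : K → K → K → Prop := fun a b c => ∃ w ∈ H, ∃ a' b' c' : R, φ a' = a ∧ φ b' = b ∧ φ c' = c ∧
      w.1 0 0 = 1 + e * a' ∧ w.1 0 1 = e * b' ∧ w.1 1 0 = e * c' ∧ w.1 1 1 = 1 - e * a'
    have shape : ∀ g : SL(2, R), (∀ i j, e ∣ (g.1 - 1) i j) → ∃ a' b' c' : R,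
        g.1 0 0 = 1 + e * a' ∧ g.1 0 1 = e * b' ∧ g.1 1 0 = e * c' ∧ g.1 1 1 = 1 - e * a' := by
      intro g hg
      obtain ⟨a, ha⟩ := hg 0 0
      obtain ⟨b, hb⟩ := hg 0 1
      obtain ⟨c, hc⟩ := hg 1 0
      obtain ⟨d, hd⟩ := hg 1 1
      simp at ha hb hc hd
      have dt := r_det g
      refine ⟨a, b, c, by linear_combination ha, hb, hc, ?_⟩
      rw [show g.1 0 0 = 1 + e * a by linear_combination ha,
        show g.1 1 1 = 1 + e * d by linear_combination hd, hb, hc] at dt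
      linear_combination hd + dt - (a * d - b * c) * e2
    have Vadd : ∀ {a b c a1 b1 c1}, V a b c → V a1 b1 c1 → V (a + a1) (b + b1) (c + c1) := by
      rintro _ _ _ _ _ _ ⟨w, hw, a, b, c, rfl, rfl, rfl, p1, p2, p3, p4⟩
        ⟨v, hv, a', b', c', rfl, rfl, rfl, q1, q2, q3, q4⟩
      refine ⟨w * v, mul_mem hw hv, a + a', b + b', c + c', map_add _ _ _, map_add _ _ _,
        map_add _ _ _, ?_, ?_, ?_, ?_⟩ <;> simp only [r_mul, p1, p2, p3, p4, q1, q2, q3, q4]
      · linear_combination (a * a' + b * c') * e2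
      · linear_combination (a * b' - b * a') * e2
      · linear_combination (c * a' - a * c') * e2
      · linear_combination (c * b' + a * a') * e2
    have Vneg : ∀ {a b c}, V a b c → V (-a) (-b) (-c) := by
      rintro _ _ _ ⟨w, hw, a, b, c, rfl, rfl, rfl, p1, p2, p3, p4⟩
      refine ⟨w⁻¹, inv_mem hw, -a, -b, -c, map_neg _ _, map_neg _ _, map_neg _ _, ?_, ?_, ?_, ?_⟩ <;>
        simp only [r_inv00, r_inv01, r_inv10, r_inv11, p1, p2, p3, p4] <;> ring
    have Vconj : ∀ (v : SL(2, K)) {a b c}, V a b c →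
        V (a * (v.1 0 0 * v.1 1 1 + v.1 0 1 * v.1 1 0) - b * v.1 0 0 * v.1 1 0 + c * v.1 0 1 * v.1 1 1)
          (-2 * a * v.1 0 0 * v.1 0 1 + b * v.1 0 0 ^ 2 - c * v.1 0 1 ^ 2)
          (2 * a * v.1 1 0 * v.1 1 1 - b * v.1 1 0 ^ 2 + c * v.1 1 1 ^ 2) := by
      rintro v _ _ _ ⟨w, hw, a, b, c, rfl, rfl, rfl, p1, p2, p3, p4⟩
      obtain ⟨h, hh, rfl⟩ := lift v
      have d := r_det h
      refine ⟨h * w * h⁻¹, mul_mem (mul_mem hh hw) (inv_mem hh),
        a * (h.1 0 0 * h.1 1 1 + h.1 0 1 * h.1 1 0) - b * h.1 0 0 * h.1 1 0 + c * h.1 0 1 * h.1 1 1,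
        -2 * a * h.1 0 0 * h.1 0 1 + b * h.1 0 0 ^ 2 - c * h.1 0 1 ^ 2,
        2 * a * h.1 1 0 * h.1 1 1 - b * h.1 1 0 ^ 2 + c * h.1 1 1 ^ 2,
        by simp [rM_val], by simp [rM_val, map_ofNat], by simp [rM_val, map_ofNat], ?_, ?_, ?_, ?_⟩ <;>
        simp only [r_mul, r_inv00, r_inv01, r_inv10, r_inv11, p1, p2, p3, p4]
      · linear_combination d
      · ring
      · ring
      · linear_combination d
    have cU : ∀ (s : K) {a b c}, V a b c → V (a + c * s) (b - 2 * a * s - c * s ^ 2) c := by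
      intro s a b c h
      convert Vconj (sU s) h using 1 <;> simp [sU_val]; ring
    have cL : ∀ (s : K) {a b c}, V a b c → V (a - b * s) b (c + 2 * a * s - b * s ^ 2) := by
      intro s a b c h
      convert Vconj (sL s) h using 1 <;> simp [sL_val]; ring
    have cW : ∀ (s : K), s ≠ 0 → ∀ {a b c}, V a b c → V (-a) (-c * s ^ 2) (-b * s⁻¹ ^ 2) := by
      intro s hs a b c h
      convert Vconj (sW s) h using 1 <;> simp [sW_val hs, hs]
    obtain ⟨a, b, c, p1, p2, p3, p4⟩ := shape w hw1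
    have v0 : V (φ a) (φ b) (φ c) := ⟨w, hw, a, b, c, rfl, rfl, rfl, p1, p2, p3, p4⟩
    obtain ⟨a1, b1, c1, c0, v1⟩ : ∃ a b c, c ≠ 0 ∧ V a b c := by
      by_cases q1 : φ c = 0
      swap; · exact ⟨_, _, _, q1, v0⟩
      by_cases q2 : φ b = 0
      swap; · exact ⟨_, _, _, by simpa using q2, cW 1 one_ne_zero v0⟩
      by_cases q3 : φ a = 0
      · exfalso
        apply hn
        rw [p1, p2, p3, p4, mul_comm e, mul_comm e, mul_comm e, (he a).1 q3, (he b).1 q2, (he c).1 q1]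
        simp
      · exact ⟨_, _, _, by simp [q1, q2, q3, K2], cL 1 v0⟩
    have v2 := Vadd (cU 1 v1) (Vneg v1)
    have v3 := Vadd (cU 1 v2) (Vneg v2)
    have v4 : V 0 (-2 * c1) 0 := by convert v3 using 1 <;> ring
    have vs : ∀ s : K, V 0 (-2 * c1 * s ^ 2) 0 := fun s => by
      by_cases s0 : s = 0
      · convert Vadd v4 (Vneg v4) using 1 <;> simp [s0]
      · convert cW s s0 (cW 1 one_ne_zero v4) using 1 <;> simp
    have vb : ∀ t : K, V 0 t 0 := fun t => by
      have := Vadd (vs ((t / (-2 * c1) + 1) / 2)) (Vneg (vs ((t / (-2 * c1) - 1) / 2)))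
      convert this using 1
      · simp
      · field_simp; ring
      · simp
    have vc : ∀ t : K, V 0 0 t := fun t => by
      convert cW 1 one_ne_zero (vb (-t)) using 1 <;> simp
    have va : ∀ a b c : K, V a b c := fun a b c => by
      convert Vadd (Vadd (cL 1 (vb (-a))) (vb (a + b))) (vc (c - a)) using 1 <;> ring
    obtain ⟨a, b, c, q1, q2, q3, q4⟩ := shape g hg
    obtain ⟨v, hv, a', b', c', r1, r2, r3, s1, s2, s3, s4⟩ := va (φ a) (φ b) (φ c)
    have : g = v := by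
      apply r_ext
      · rw [q1, s1, eqe r1]
      · rw [q2, s2, eqe r2]
      · rw [q3, s3, eqe r3]
      · rw [q4, s4, eqe r1]
    rw [this]; exact hv
  · have inj : ∀ x, e ∣ x → φ x = 0 → x = 0 := by
      rintro _ ⟨y, rfl⟩ h
      rw [map_mul] at h
      rw [mul_comm]; exact (he y).1 ((mul_eq_zero.1 h).resolve_left ee)
    let π := Ideal.Quotient.mk (Ideal.span {e})
    have kr : ∀ g : SL(2, R), g ∈ (rM π).ker ↔ ∀ i j, e ∣ (g.1 - 1) i j := fun g => by
      rw [MonoidHom.mem_ker]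
      constructor
      · intro h i j
        rw [← Ideal.mem_span_singleton, ← Ideal.Quotient.eq_zero_iff_mem, Matrix.sub_apply, map_sub,
          ← rM_val, h]
        simp [Matrix.one_apply, π]
      · intro h
        ext i j
        have := h i j
        rw [← Ideal.mem_span_singleton, ← Ideal.Quotient.eq_zero_iff_mem, Matrix.sub_apply, map_sub,
          sub_eq_zero] at this
        rw [rM_val, this]
        simp [Matrix.one_apply]
    let N := (H ⊓ (rM π).ker).map (rM φ)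
    have nN : (⊤ : Subgroup SL(2, K)) ≤ Subgroup.normalizer (N : Set SL(2, K)) := by
      rw [← hs]
      refine le_trans (Subgroup.map_mono ?_) (Subgroup.le_normalizer_map _)
      exact CfsgH9.le_normalizer_inf Subgroup.le_normalizer (by rw [Subgroup.normalizer_eq_top]; exact le_top)
    have hp : ⁅(⊤ : Subgroup SL(2, K)), (⊤ : Subgroup SL(2, K))⁆ = ⊤ :=
      sl2_le_of (fun t => (mem_comm_of_all (H := ⊤) k2 k3 (fun _ => trivial) (fun _ => trivial) t).1)
        (fun t => (mem_comm_of_all (H := ⊤) k2 k3 (fun _ => trivial) (fun _ => trivial) t).2)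
    have q := (sl2_rp (k := K)).qs (by rw [upper_sup_lower]; exact hp)
    rw [upper_sup_lower] at q
    have d0 : ∀ {x y : R}, e ∣ x - y → φ x = φ y → x = y := fun h1 h2 =>
      sub_eq_zero.1 (inj _ h1 (by rw [map_sub, h2, sub_self]))
    rcases q.norm N le_top nN with e1 | e1
    · obtain ⟨v, hv, e2⟩ : rM φ g ∈ N := e1 ▸ Subgroup.mem_top _
      have : g = v := by
        ext i j
        refine d0 ?_ (by rw [← rM_val, ← rM_val, e2])
        have := dvd_sub (hg i j) ((kr v).1 hv.2 i j)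
        simpa using this
      rw [this]; exact hv.1
    · exfalso
      rw [CfsgH9.comm_bot_iff, Subgroup.coe_top, Subgroup.centralizer_univ] at e1
      have := sl2_center (e1 (Subgroup.mem_map_of_mem _ ⟨hw, (kr w).2 hw1⟩))
      have a1 : (rM φ w).1 0 1 = 0 ∧ (rM φ w).1 1 0 = 0 ∧ (rM φ w).1 0 0 = (rM φ w).1 1 1 := by
        rcases this with h | h <;> rw [h] <;> simp
      apply hn
      refine ⟨inj _ (by simpa using hw1 0 1) a1.1, inj _ (by simpa using hw1 1 0) a1.2.1,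
        d0 ?_ a1.2.2⟩
      have := dvd_sub (hw1 0 0) (hw1 1 1)
      simpa using this

theorem ring_gen (k2 : (2 : k) ≠ 0) (k3 : Nat.card k ≠ 3) (n : ℕ) :
    ∀ (R : Type u) [CommRing R] [Algebra k R] [Module.Finite k R], Module.finrank k R = n →
      ∀ (z z' : R) (H : Subgroup SL(2, R)), z * z' = 1 → (∀ t : R, t ∈ Algebra.adjoin k {z}) →
      (∀ c, rU (algebraMap k R c) ∈ H) → (∀ c, rL (algebraMap k R c * z) ∈ H) →
      ∀ t, rU t ∈ H ∧ rL t ∈ H := by
  induction n using Nat.strong_induction_on with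
  | _ n ih =>
  intro R _ _ _ hn z z' H hz hg h1 h2 t
  rcases subsingleton_or_nontrivial R with hR | hR
  · rw [Subsingleton.elim t 0, rU_zero, rL_zero]; exact ⟨one_mem _, one_mem _⟩
  haveI : IsArtinianRing R := IsArtinianRing.of_finite k R
  obtain ⟨I, hI, -⟩ := (eq_bot_or_exists_atom_le (⊤ : Ideal R)).resolve_left top_ne_bot
  obtain ⟨e, he, e0⟩ := Submodule.exists_mem_ne_zero_of_ne_bot hI.1
  have gen : ∀ x ∈ I, x ≠ 0 → Ideal.span {x} = I := fun x hx x0 =>
    (hI.le_iff.1 ((Ideal.span_singleton_le_iff_mem I).2 hx)).resolve_left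
      (by rwa [Ideal.span_singleton_eq_bot])
  let m : Ideal R := LinearMap.ker (LinearMap.toSpanSingleton R R e)
  have mm : ∀ x, x ∈ m ↔ x * e = 0 := fun x => Iff.rfl
  haveI : m.IsMaximal := by
    rw [Ideal.isMaximal_iff]
    refine ⟨fun h => e0 (by simpa using (mm 1).1 h), fun J x hJ hx hxJ => ?_⟩
    have : e ∈ Ideal.span {x * e} := by
      rw [gen _ (I.mul_mem_left x he) (fun h => hx ((mm x).2 h))]; exact he
    obtain ⟨y, hy⟩ := Ideal.mem_span_singleton'.1 this
    have : 1 - y * x ∈ J := hJ ((mm _).2 (by linear_combination -hy))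
    simpa using J.add_mem this (J.mul_mem_left y hxJ)
  letI : Field (R ⧸ m) := Ideal.Quotient.field m
  have gq : ∀ (J : Ideal R) (t : R ⧸ J), t ∈ Algebra.adjoin k {Ideal.Quotient.mk J z} := by
    intro J t
    obtain ⟨t, rfl⟩ := Ideal.Quotient.mk_surjective t
    have := hg t
    rw [Algebra.adjoin_singleton_eq_range_aeval] at this ⊢
    obtain ⟨q, rfl⟩ := this
    exact ⟨q, aeval_algHom_apply (Ideal.Quotient.mkₐ k J) z q⟩
  have g1 : ∀ (J : Ideal R) c, rU (algebraMap k (R ⧸ J) c) ∈ H.map (rM (Ideal.Quotient.mk J)) :=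
    fun J c => ⟨_, h1 c, rM_U _ _⟩
  have g2 : ∀ (J : Ideal R) c, rL (algebraMap k (R ⧸ J) c * Ideal.Quotient.mk J z) ∈
      H.map (rM (Ideal.Quotient.mk J)) := fun J c => ⟨_, h2 c, by rw [rM_L, map_mul]; rfl⟩
  have hs : H.map (rM (Ideal.Quotient.mk m)) = ⊤ :=
    sl2_gen k2 k3 (g1 m) (g2 m)
      (left_ne_zero_of_mul_eq_one (b := Ideal.Quotient.mk m z') (by rw [← map_mul, hz, map_one]))
      (IsIntegral.of_finite k _) (gq m)
  have lt : Module.finrank k (R ⧸ I) < n := by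
    have := (Ideal.Quotient.mkₐ k I).toLinearMap.finrank_range_add_finrank_ker
    rw [LinearMap.range_eq_top.2 (Ideal.Quotient.mkₐ_surjective k I), finrank_top, hn] at this
    have h0 : Module.finrank k (LinearMap.ker (Ideal.Quotient.mkₐ k I).toLinearMap) ≠ 0 := by
      rw [Ne, Submodule.finrank_eq_zero]
      intro h
      have : e ∈ LinearMap.ker (Ideal.Quotient.mkₐ k I).toLinearMap :=
        Ideal.Quotient.eq_zero_iff_mem.2 he
      rw [h] at this
      exact e0 this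
    omega
  have IH := ih _ lt (R ⧸ I) rfl _ (Ideal.Quotient.mk I z') _ (by rw [← map_mul, hz, map_one])
    (gq I) (g1 I) (g2 I)
  have kr : ∀ g : SL(2, R), rM (Ideal.Quotient.mk I) g = 1 → ∀ i j, e ∣ (g.1 - 1) i j := by
    intro g h i j
    rw [← Ideal.mem_span_singleton, gen e he e0, ← Ideal.Quotient.eq_zero_iff_mem, Matrix.sub_apply,
      map_sub, ← rM_val, h]
    simp [Matrix.one_apply]
  by_cases hN : ∀ w ∈ H, rM (Ideal.Quotient.mk I) w = 1 →
      w.1 0 1 = 0 ∧ w.1 1 0 = 0 ∧ w.1 0 0 = w.1 1 1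
  · exact step_scalar k2 hz hg h1 h2 _ (fun t => (IH _).1) (fun t => (IH _).2) hN t
  · push Not at hN
    obtain ⟨w, hw, w1, w2⟩ := hN
    have key : ∀ g : SL(2, R), rM (Ideal.Quotient.mk I) g ∈ H.map (rM (Ideal.Quotient.mk I)) →
        g ∈ H := by
      rintro g ⟨v, hv, e1⟩
      have := step_ker k2 k3 (Ideal.Quotient.mk m) (fun x => Ideal.Quotient.eq_zero_iff_mem) hs hw
        (kr w w1) (fun h => w2 h.1 h.2.1 h.2.2) (g := v⁻¹ * g)
        (kr _ (by rw [map_mul, map_inv, e1, inv_mul_cancel]))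
      simpa using mul_mem hv this
    exact ⟨key _ (by rw [rM_U]; exact (IH _).1), key _ (by rw [rM_L]; exact (IH _).2)⟩

/-- The generic group. -/
noncomputable def Hz (k : Type*) [Field k] : Subgroup SL(2, k[X]) :=
  Subgroup.closure (Set.range (fun c : k => rU (C c)) ∪ Set.range fun c : k => rL (C c * X))

theorem rM_eq_iff {R : Type*} [CommRing R] {a : R} {g h : SL(2, R)} :
    rM (Ideal.Quotient.mk (Ideal.span {a})) g = rM (Ideal.Quotient.mk (Ideal.span {a})) h ↔
      ∀ i j, a ∣ (g.1 - h.1) i j := by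
  simp only [← Ideal.mem_span_singleton, ← Ideal.Quotient.eq, Matrix.sub_apply]
  exact ⟨fun e i j => by rw [← rM_val, ← rM_val, e], fun e => by ext i j; exact e i j⟩

theorem density {k : Type u} [Field k] (k2 : (2 : k) ≠ 0) (k3 : Nat.card k ≠ 3) {g : k[X]}
    (hg : g.coeff 0 ≠ 0) (n : ℕ) (t : k[X]) :
    ∃ w ∈ Hz k, (∀ i j, g ∣ (w.1 - (rU t).1) i j) ∧ ∀ i j, X ^ n ∣ (w.1 - 1) i j := by
  have g0 : g ≠ 0 := by rintro rfl; simp at hg
  haveI : Module.Finite k (AdjoinRoot g) := (AdjoinRoot.powerBasis g0).finite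
  let π : k[X] →+* AdjoinRoot g := AdjoinRoot.mk g
  have hz : π X * π (C (-(g.coeff 0)⁻¹) * g.divX) = 1 := by
    have : π (X * g.divX + C (g.coeff 0)) = 0 := by rw [X_mul_divX_add]; exact AdjoinRoot.mk_self
    have c : π (C (g.coeff 0)⁻¹) * π (C (g.coeff 0)) = 1 := by
      rw [← map_mul, ← C_mul, inv_mul_cancel₀ hg, C_1, map_one]
    simp only [map_add, map_mul, map_neg] at this ⊢
    linear_combination -π (C (g.coeff 0)⁻¹) * this + c
  have all := ring_gen k2 k3 _ (AdjoinRoot g) rfl _ _ ((Hz k).map (rM π)) hz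
    (fun t => by
      have := AdjoinRoot.adjoinRoot_eq_top (f := g)
      exact this.ge trivial)
    (fun c => ⟨_, Subgroup.subset_closure (Or.inl ⟨c, rfl⟩), rM_U _ _⟩)
    (fun c => ⟨_, Subgroup.subset_closure (Or.inr ⟨c, rfl⟩), by rw [rM_L, map_mul]; rfl⟩)
  have perf : (Hz k).map (rM π) ≤ ⁅(Hz k).map (rM π), (Hz k).map (rM π)⁆ := by
    have := mem_comm_of_all k2 k3 (fun t => (all t).1) (fun t => (all t).2)
    conv_lhs => rw [Hz, MonoidHom.map_closure]
    rw [Subgroup.closure_le]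
    rintro _ ⟨_, ⟨c, rfl⟩ | ⟨c, rfl⟩, rfl⟩
    · rw [rM_U]; exact (this _).1
    · rw [rM_L]; exact (this _).2
  let D : ℕ → Subgroup SL(2, k[X]) := fun j => Nat.rec (Hz k) (fun _ K => ⁅K, K⁆) j
  have d1 : ∀ j, D j ≤ Hz k := fun j => by
    induction j with
    | zero => exact le_rfl
    | succ j ih => exact (Subgroup.commutator_le_self _).trans ih
  have d2 : ∀ j, (Hz k).map (rM π) ≤ (D j).map (rM π) := fun j => by
    induction j with
    | zero => exact le_rfl
    | succ j ih =>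
      change _ ≤ Subgroup.map _ ⁅D j, D j⁆
      rw [Subgroup.map_commutator]
      exact perf.trans (Subgroup.commutator_mono ih ih)
  have d3 : ∀ j, D (j + 1) ≤ (rM (Ideal.Quotient.mk (Ideal.span {(X : k[X]) ^ (j + 1)}))).ker := by
    intro j
    induction j with
    | zero =>
      change ⁅Hz k, Hz k⁆ ≤ _
      rw [← Subgroup.map_eq_bot_iff, Subgroup.map_commutator]
      have : (Hz k).map (rM (Ideal.Quotient.mk (Ideal.span {(X : k[X]) ^ (0 + 1)}))) ≤
          Subgroup.closure (Set.range rU) := by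
        rw [Hz, MonoidHom.map_closure, Subgroup.closure_le]
        rintro _ ⟨_, ⟨c, rfl⟩ | ⟨c, rfl⟩, rfl⟩
        · rw [rM_U]; exact Subgroup.subset_closure ⟨_, rfl⟩
        · rw [rM_L, Ideal.Quotient.eq_zero_iff_mem.2 (Ideal.mem_span_singleton.2 (by simp)), rL_zero]
          exact one_mem _
      refine CfsgH9.comm_bot_mono ?_ this this
      rw [CfsgH9.comm_bot_iff, Subgroup.closure_le]
      rintro _ ⟨s, rfl⟩
      rw [SetLike.mem_coe, Subgroup.centralizer_closure]
      rintro _ ⟨r, rfl⟩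
      rw [← rU_add, ← rU_add, add_comm r s]
    | succ j ih =>
      change ⁅D (j + 1), D (j + 1)⁆ ≤ _
      rw [Subgroup.commutator_le]
      intro u hu v hv
      rw [MonoidHom.mem_ker, map_commutatorElement, commutatorElement_eq_one_iff_mul_comm,
        ← map_mul, ← map_mul, rM_eq_iff]
      have a := rM_eq_iff.1 ((ih hu).trans (map_one _).symm)
      have b := rM_eq_iff.1 ((ih hv).trans (map_one _).symm)
      have c : ∀ {x y : k[X]}, X ^ (j + 1) ∣ x → X ^ (j + 1) ∣ y → X ^ (j + 1 + 1) ∣ x * y :=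
        fun hx hy => by
          rw [pow_succ]
          exact mul_dvd_mul hx ((dvd_pow_self X (Nat.succ_ne_zero j)).trans hy)
      intro i l
      have : ((u * v).1 - (v * u).1) i l = ((u.1 - 1) * (v.1 - 1) - (v.1 - 1) * (u.1 - 1)) i l := by
        have e : u.1 * v.1 - v.1 * u.1 = (u.1 - 1) * (v.1 - 1) - (v.1 - 1) * (u.1 - 1) := by
          noncomm_ring
        exact congrFun (congrFun e i) l
      rw [this, Matrix.sub_apply, Matrix.mul_apply, Matrix.mul_apply, Fin.sum_univ_two,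
        Fin.sum_univ_two]
      exact dvd_sub (dvd_add (c (a _ _) (b _ _)) (c (a _ _) (b _ _)))
        (dvd_add (c (b _ _) (a _ _)) (c (b _ _) (a _ _)))
  obtain ⟨w, hw, e⟩ := d2 (n + 1) (all (π t)).1
  refine ⟨w, d1 (n + 1) hw, rM_eq_iff.1 (e.trans (rM_U _ _).symm), fun i j => ?_⟩
  exact (pow_dvd_pow X (Nat.le_succ n)).trans (rM_eq_iff.1 ((d3 n hw).trans (map_one _).symm) i j)

end CfsgH1
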