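import Cfsg.Agent.H1.QP2

/-! Two quadratic elements with their scalar families. -/

set_option autoImplicit false
set_option linter.unusedSectionVars false

namespace CfsgH1

open Polynomial Matrix
open scoped MatrixGroups commutatorElement

universe u

variable {k : Type u} [Field k] {𝔸 : Type*} [Ring 𝔸] [Algebra k 𝔸] {G : Subgroup 𝔸ˣ}
  {α β γ x y a b : 𝔸}

/-- the values of the units in `G` -/
def Gm (G : Subgroup 𝔸ˣ) : Submonoid 𝔸 := G.toSubmonoid.map (Units.coeHom 𝔸)

theorem mem_Gm : x ∈ Gm G ↔ ∃ g ∈ G, (g : 𝔸) = x := Iff.rfl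

theorem coe_mem_Gm {g : 𝔸ˣ} : (g : 𝔸) ∈ Gm G ↔ g ∈ G :=
  ⟨fun ⟨_, h, e⟩ => (Units.ext e : _ = g) ▸ h, fun h => ⟨g, h, rfl⟩⟩

theorem Gm_mono {H : Subgroup 𝔸ˣ} (h : G ≤ H) : Gm G ≤ Gm H :=
  fun _ ⟨g, hg, e⟩ => ⟨g, h hg, e⟩

variable (k) in
/-- the scalar family of `1 + α` lies in `G` -/
def Fm (G : Subgroup 𝔸ˣ) (α : 𝔸) : Prop := ∀ c : k, 1 + c • α ∈ Gm G

theorem Fm.mono {H : Subgroup 𝔸ˣ} (h : Fm k G α) (e : G ≤ H) : Fm k H α := fun c => Gm_mono e (h c)

theorem Fm.zero : Fm k G (0 : 𝔸) := fun c => by simpa using one_mem (Gm G)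

theorem Fm.smul (h : Fm k G α) (c : k) : Fm k G (c • α) := fun d => by
  rw [smul_smul]; exact h _

theorem Fm.neg (h : Fm k G α) : Fm k G (-α) := by simpa using h.smul (-1)

theorem Fm.one_add (h : Fm k G α) : 1 + α ∈ Gm G := by simpa using h 1

theorem Fm.one_sub (h : Fm k G α) : 1 - α ∈ Gm G := by simpa [sub_eq_add_neg] using h (-1)

theorem Fm.add (h : Fm k G α) (h' : Fm k G β) (e : α * β = 0) : Fm k G (α + β) := fun c => by
  have := mul_mem (h c) (h' c)
  convert this using 1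
  simp [mul_add, add_mul, e, add_assoc, add_comm, add_left_comm]

theorem Fm.conj (h : Fm k G α) (ha : a ∈ Gm G) (hb : b ∈ Gm G) (e : a * b = 1) :
    Fm k G (a * α * b) := fun c => by
  have := mul_mem (mul_mem ha (h c)) hb
  convert this using 1
  simp [mul_add, add_mul, e]

theorem Fm.conj' (h : Fm k G α) {g : 𝔸ˣ} (hg : g ∈ G) : Fm k G (g * α * (g⁻¹ : 𝔸ˣ)) :=
  h.conj (coe_mem_Gm.2 hg) (coe_mem_Gm.2 (inv_mem hg)) (by simp)

/-- commutator of two families in the unipotent case -/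
theorem Fm.comm (h : Fm k G α) (h' : Fm k G β) (a2 : α * α = 0) (b2 : β * β = 0)
    (e1 : α * β * α = 0) (e2 : β * α * β = 0) : Fm k G (α * β - β * α) := fun c => by
  have := mul_mem (mul_mem (h c) h'.one_add) (mul_mem (h (-c)) h'.one_sub)
  convert this using 1
  have a3 : ∀ x, α * (α * x) = 0 := fun x => by rw [← mul_assoc, a2, zero_mul]
  have e3 : ∀ x, α * (β * (α * x)) = 0 := fun x => by rw [← mul_assoc, ← mul_assoc, e1, zero_mul]
  rw [mul_assoc] at e1 e2
  simp only [mul_add, add_mul, mul_sub, sub_mul, one_mul, mul_one, smul_mul_assoc, mul_smul_comm,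
    mul_assoc, a2, b2, a3, e1, e2, e3, smul_zero, mul_zero, neg_smul, smul_sub, mul_neg, neg_mul,
    smul_neg, smul_add]
  abel

section rep
variable (α β)

/-- `x` is the image of the matrix `w` under `e₁₂ ↦ α`, `X e₂₁ ↦ β` -/
def Rep (w : Matrix (Fin 2) (Fin 2) k[X]) (x : 𝔸) : Prop :=
  ∃ a f h f' : k[X], w 0 0 = a + X * f ∧ w 1 0 = X * h ∧ w 1 1 = a + X * f' ∧
    x = aeval (α * β + β * α) a + aeval (α * β + β * α) f * (α * β) +
      aeval (α * β + β * α) (w 0 1) * α + aeval (α * β + β * α) h * β +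
      aeval (α * β + β * α) f' * (β * α)

variable {α β}

theorem z_mul_left (a2 : α * α = 0) : (α * β + β * α) * α = α * β * α := by
  rw [add_mul, mul_assoc β, a2, mul_zero, add_zero]

theorem z_mul_right (b2 : β * β = 0) : (α * β + β * α) * β = β * α * β := by
  rw [add_mul, mul_assoc α, b2, mul_zero, zero_add]

theorem z_comm_left (a2 : α * α = 0) : Commute (α * β + β * α) α := by
  change _ = _
  rw [z_mul_left a2, mul_add, ← mul_assoc, ← mul_assoc, a2, zero_mul, zero_add]

theorem z_comm_right (b2 : β * β = 0) : Commute (α * β + β * α) β := by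
  rw [add_comm]; exact z_comm_left b2

theorem aeval_comm {z : 𝔸} (h : Commute z x) (p : k[X]) : Commute (aeval z p) x := by
  induction p using Polynomial.induction_on' with
  | add p q hp hq => rw [map_add]; exact hp.add_left hq
  | monomial n c =>
    rw [aeval_monomial]
    exact Commute.mul_left (Algebra.commutes c x) (h.pow_left n)

theorem rep_of_mem (a2 : α * α = 0) (b2 : β * β = 0) (h1 : Fm k G α) (h2 : Fm k G β)
    {w : SL(2, k[X])} (hw : w ∈ Hz k) : ∃ x ∈ Gm G, Rep α β w.1 x := by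
  set z := α * β + β * α with hz
  have za : z * α = α * β * α := z_mul_left a2
  have zb : z * β = β * α * β := z_mul_right b2
  have sU : ∀ (w : SL(2, k[X])) (c : k), (∃ x ∈ Gm G, Rep α β w.1 x) →
      ∃ x ∈ Gm G, Rep α β (w * rU (C c)).1 x := by
    rintro w c ⟨x, hx, a, f, h, f', e1, e2, e3, e4⟩
    refine ⟨_, mul_mem hx (h1 c), a, f, h, h * C c + f', ?_, ?_, ?_, ?_⟩
    · simp [r_mul, rU_val, e1]
    · simp [r_mul, rU_val, e2]
    · simp [r_mul, rU_val, e2, e3]; ring
    · have : (w * rU (C c)).1 0 1 = C c * a + C c * (f * X) + w.1 0 1 := by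
        simp [r_mul, rU_val, e1]; ring
      rw [this, e4, ← hz, mul_comm h]
      simp only [map_add, map_mul, aeval_C, aeval_X, ← Algebra.smul_def, mul_add, add_mul,
        mul_one, mul_smul_comm, smul_mul_assoc, mul_assoc, a2, mul_zero, za, smul_add, smul_zero]
      abel
  have sL : ∀ (w : SL(2, k[X])) (c : k), (∃ x ∈ Gm G, Rep α β w.1 x) →
      ∃ x ∈ Gm G, Rep α β (w * rL (C c * X)).1 x := by
    rintro w c ⟨x, hx, a, f, h, f', e1, e2, e3, e4⟩
    refine ⟨_, mul_mem hx (h2 c), a, f + C c * w.1 0 1, h + C c * a + C c * (f' * X), f',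
      ?_, ?_, ?_, ?_⟩
    · simp [r_mul, rL_val, e1]; ring
    · simp [r_mul, rL_val, e2, e3]; ring
    · simp [r_mul, rL_val, e3]
    · have : (w * rL (C c * X)).1 0 1 = w.1 0 1 := by simp [r_mul, rL_val]
      rw [this, e4, ← hz]
      simp only [map_add, map_mul, aeval_C, aeval_X, ← Algebra.smul_def, mul_add, add_mul,
        mul_one, mul_smul_comm, smul_mul_assoc, mul_assoc, b2, mul_zero, zb, smul_add, smul_zero]
      abel
  induction hw using Subgroup.closure_induction_right with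
  | one => exact ⟨1, one_mem _, 1, 0, 0, 0, by simp, by simp, by simp, by simp⟩
  | mul_right w _ y hy ih =>
    rcases hy with ⟨c, rfl⟩ | ⟨c, rfl⟩
    exacts [sU w c ih, sL w c ih]
  | mul_inv_cancel w _ y hy ih =>
    rcases hy with ⟨c, rfl⟩ | ⟨c, rfl⟩
    · simpa only [← rU_neg, ← C_neg] using sU w (-c) ih
    · simpa only [← rL_neg, C_neg, neg_mul] using sL w (-c) ih

end rep

/-- The key lemma: the families of `t(z) zᵉ α` lie in `G`. -/
theorem fam_poly (k2 : (2 : k) ≠ 0) (k3 : Nat.card k ≠ 3) (a2 : α * α = 0) (b2 : β * β = 0)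
    (h1 : Fm k G α) (h2 : Fm k G β) {g : k[X]} {e : ℕ} (hg : g.coeff 0 ≠ 0)
    (h0 : aeval (α * β + β * α) (X ^ e * g) = 0) (t : k[X]) :
    Fm k G (aeval (α * β + β * α) (t * X ^ e) * α) := by
  intro c
  set z := α * β + β * α with hz
  obtain ⟨w, hw, d1, d2⟩ := density k2 k3 hg (e + 1) (C c * (t * X ^ e))
  obtain ⟨x, hx, a, f, h, f', e1, e2, e3, e4⟩ := rep_of_mem a2 b2 h1 h2 hw
  have cop : ∀ n, IsCoprime (X ^ n : k[X]) g := fun n => IsCoprime.pow_left
    ((irreducible_X.coprime_iff_not_dvd).2 (by rwa [X_dvd_iff]))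
  have kill : ∀ p : k[X], X ^ e * g ∣ p → aeval z p = 0 := by
    rintro _ ⟨p, rfl⟩; rw [map_mul, h0, zero_mul]
  have canc : ∀ p : k[X], X ^ (e + 1) * g ∣ X * p → X ^ e * g ∣ p := fun p hp => by
    rwa [pow_succ', mul_assoc, mul_dvd_mul_iff_left X_ne_zero] at hp
  have q00 : X ^ (e + 1) * g ∣ w.1 0 0 - 1 :=
    (cop _).mul_dvd (by simpa using d2 0 0) (by simpa [rU_val] using d1 0 0)
  have q11 : X ^ (e + 1) * g ∣ w.1 1 1 - 1 :=
    (cop _).mul_dvd (by simpa using d2 1 1) (by simpa [rU_val] using d1 1 1)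
  have q10 : X ^ (e + 1) * g ∣ w.1 1 0 :=
    (cop _).mul_dvd (by simpa using d2 1 0) (by simpa [rU_val] using d1 1 0)
  have q01 : X ^ e * g ∣ w.1 0 1 - C c * (t * X ^ e) :=
    (cop _).mul_dvd (dvd_sub ((pow_dvd_pow X (Nat.le_succ e)).trans (by simpa using d2 0 1))
      (Dvd.dvd.mul_left (Dvd.intro_left _ rfl) _)) (by simpa [rU_val] using d1 0 1)
  have hh : aeval z h = 0 := kill _ (canc _ (e2 ▸ q10))
  have hf : aeval z f' = aeval z f := by
    rw [← sub_eq_zero, ← map_sub]
    refine kill _ (canc _ ?_)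
    have := dvd_sub q11 q00
    rw [e1, e3] at this
    convert this using 1; ring
  have ha : aeval z a + aeval z f * z = 1 := by
    have := kill _ (((mul_dvd_mul_right (pow_dvd_pow X (Nat.le_succ e)) g)).trans q00)
    rw [e1, mul_comm X] at this
    simpa [sub_eq_zero] using this
  have hw01 : aeval z (w.1 0 1) = c • aeval z (t * X ^ e) := by
    have := kill _ q01
    rwa [map_sub, sub_eq_zero, map_mul, aeval_C, ← Algebra.smul_def] at this
  convert hx using 1
  rw [e4, ← hz, hh, hf, hw01, ← ha, smul_mul_assoc]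
  conv_lhs => rw [show aeval z f * z = aeval z f * (α * β + β * α) from rfl]
  noncomm_ring

theorem exists_pow_mul [Module.Finite k 𝔸] (z : 𝔸) :
    ∃ (e : ℕ) (g : k[X]), g.coeff 0 ≠ 0 ∧ aeval z (X ^ e * g) = 0 := by
  have hi : IsIntegral k z := Algebra.IsIntegral.isIntegral z
  obtain ⟨q, e, hq⟩ := exists_eq_pow_rootMultiplicity_mul_and_not_dvd (minpoly k z)
    (minpoly.ne_zero hi) 0
  simp only [map_zero, sub_zero] at e hq
  exact ⟨_, q, by rwa [X_dvd_iff] at hq, by rw [← e]; exact minpoly.aeval k z⟩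

theorem conj_sq (a2 : α * α = 0) (e : b * a = 1) : a * α * b * (a * α * b) = 0 := by
  rw [show a * α * b * (a * α * b) = a * α * (b * a) * α * b by noncomm_ring, e, mul_one,
    mul_assoc a, a2, mul_zero, zero_mul]

theorem one_add_mul_one_sub (b2 : β * β = 0) : (1 + β) * (1 - β) = 1 := by
  rw [mul_sub, add_mul, add_mul, b2]; simp

theorem one_sub_mul_one_add (b2 : β * β = 0) : (1 - β) * (1 + β) = 1 := by
  rw [sub_mul, mul_add, mul_add, b2]; simp

theorem z_conj (a2 : α * α = 0) (b2 : β * β = 0) :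
    α * ((1 + β) * α * (1 - β)) + (1 + β) * α * (1 - β) * α =
      -((α * β + β * α) * (α * β + β * α)) := by
  have a3 : ∀ x, α * (α * x) = 0 := fun x => by rw [← mul_assoc, a2, zero_mul]
  have b3 : ∀ x, β * (β * x) = 0 := fun x => by rw [← mul_assoc, b2, zero_mul]
  simp only [mul_add, add_mul, mul_sub, sub_mul, one_mul, mul_one, mul_assoc, a2, a3, b3, mul_zero]
  abel

/-- if `z² α = 0` then the family of `z α` lies in `G` -/
theorem fam_z (k2 : (2 : k) ≠ 0) (a2 : α * α = 0) (b2 : β * β = 0) (h1 : Fm k G α)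
    (h2 : Fm k G β) (hz : α * β * α * β * α = 0) : Fm k G (α * β * α) := by
  have a3 : ∀ x, α * (α * x) = 0 := fun x => by rw [← mul_assoc, a2, zero_mul]
  have hz' : α * (β * (α * (β * α))) = 0 := by simpa only [mul_assoc] using hz
  have hz3 : ∀ x, α * (β * (α * (β * (α * x)))) = 0 := fun x => by
    have := congrArg (· * x) hz'
    simpa only [mul_assoc, zero_mul] using this
  have key : ∀ β : 𝔸, β * β = 0 → Fm k G β → α * (β * (α * (β * α))) = 0 →
      (∀ x, α * (β * (α * (β * (α * x)))) = 0) →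
      Fm k G (α * ((1 + β) * α * (1 - β)) - (1 + β) * α * (1 - β) * α) := by
    intro β b2 h2 hz' hz3
    have b3 : ∀ x, β * (β * x) = 0 := fun x => by rw [← mul_assoc, b2, zero_mul]
    refine h1.comm (h1.conj h2.one_add h2.one_sub (one_add_mul_one_sub b2)) a2
      (conj_sq a2 (one_sub_mul_one_add b2)) ?_ ?_
    · simp only [mul_add, add_mul, mul_sub, sub_mul, one_mul, mul_one, mul_assoc, a2, a3, b3,
        mul_zero, hz']
      abel
    · simp only [mul_add, add_mul, mul_sub, sub_mul, one_mul, mul_one, mul_assoc, a2, a3, b3,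
        mul_zero, zero_mul, hz', hz3]
      abel
  have b3 : ∀ x, β * (β * x) = 0 := fun x => by rw [← mul_assoc, b2, zero_mul]
  have f1 := key β b2 h2 hz' hz3
  have f2 := key (-β) (by simpa) h2.neg (by simpa) (by simpa)
  have f3 := (f1.add f2.neg (by
    simp only [mul_add, add_mul, mul_sub, sub_mul, one_mul, mul_one, mul_assoc, a2, a3, b3,
        mul_zero, zero_mul, hz', hz3, mul_neg, neg_mul]
    abel)).smul ((2 : k)⁻¹ * 2⁻¹)
  convert f3 using 1
  have : α * ((1 + β) * α * (1 - β)) - (1 + β) * α * (1 - β) * α +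
      -(α * ((1 + -β) * α * (1 - -β)) - (1 + -β) * α * (1 - -β) * α) =
      ((2 : k) * 2) • (α * β * α) := by
    rw [mul_smul, two_smul, two_smul]
    simp only [mul_add, add_mul, mul_sub, sub_mul, one_mul, mul_one, mul_assoc, a2, a3, b3,
        mul_zero, mul_neg, neg_mul]
    abel
  rw [this, smul_smul, show (2 : k)⁻¹ * 2⁻¹ * (2 * 2) = 1 by field_simp, one_smul]

/-! ### Matrix units -/

section units
variable {K : Type*} [CommRing K]

/-- data for a representation of `SL₂(K)` by matrix units -/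
structure MU (l : K → 𝔸) (a b : 𝔸) : Prop where
  add : ∀ s t, l (s + t) = l s + l t
  mul : ∀ s t, l (s * t) = l s * l t
  one : l 1 = a * b + b * a
  ca : ∀ s, l s * a = a * l s
  cb : ∀ s, l s * b = b * l s
  a2 : a * a = 0
  b2 : b * b = 0
  aba : a * b * a = a
  bab : b * a * b = b

namespace MU
variable {l : K → 𝔸}

theorem zero (h : MU l a b) : l 0 = 0 := by simpa using h.add 0 0

theorem neg (h : MU l a b) (s : K) : l (-s) = -l s := by
  rw [eq_neg_iff_add_eq_zero, ← h.add, neg_add_cancel, h.zero]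

theorem pa (h : MU l a b) : l 1 * a = a := by rw [h.one, z_mul_left h.a2, h.aba]
theorem pb (h : MU l a b) : l 1 * b = b := by rw [h.one, z_mul_right h.b2, h.bab]

/-- the image of a matrix -/
def val (l : K → 𝔸) (a b : 𝔸) (w : Matrix (Fin 2) (Fin 2) K) : 𝔸 :=
  1 - l 1 + (l (w 0 0) * (a * b) + l (w 0 1) * a + l (w 1 0) * b + l (w 1 1) * (b * a))

theorem val_mul (h : MU l a b) (v w : Matrix (Fin 2) (Fin 2) K) :
    val l a b (v * w) = val l a b v * val l a b w := by
  have ca : ∀ s x, a * (l s * x) = l s * (a * x) := fun s x => by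
    rw [← mul_assoc, ← h.ca, mul_assoc]
  have cb : ∀ s x, b * (l s * x) = l s * (b * x) := fun s x => by
    rw [← mul_assoc, ← h.cb, mul_assoc]
  have a3 : ∀ x, a * (a * x) = 0 := fun x => by rw [← mul_assoc, h.a2, zero_mul]
  have b3 : ∀ x, b * (b * x) = 0 := fun x => by rw [← mul_assoc, h.b2, zero_mul]
  have aba : a * (b * a) = a := by rw [← mul_assoc, h.aba]
  have bab : b * (a * b) = b := by rw [← mul_assoc, h.bab]
  have aba3 : ∀ x, a * (b * (a * x)) = a * x := fun x => by rw [← mul_assoc, ← mul_assoc, h.aba]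
  have bab3 : ∀ x, b * (a * (b * x)) = b * x := fun x => by rw [← mul_assoc, ← mul_assoc, h.bab]
  have l1 : ∀ s x, l 1 * (l s * x) = l s * x := fun s x => by rw [← mul_assoc, ← h.mul, one_mul]
  have l11 : l 1 * l 1 = l 1 := by rw [← h.mul, one_mul]
  have al : a * l 1 = a := by rw [← h.ca, h.pa]
  have bl : b * l 1 = b := by rw [← h.cb, h.pb]
  simp only [val, Matrix.mul_apply, Fin.sum_univ_two, h.add, h.mul, mul_add, add_mul, mul_sub,
    sub_mul, one_mul, mul_one, mul_assoc, ca, cb, a3, b3, aba, bab, aba3, bab3, l1, l11, al, bl,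
    h.a2, h.b2, mul_zero]
  abel

theorem val_one (h : MU l a b) : val l a b 1 = 1 := by
  simp only [val, one_apply_eq, ne_eq, zero_ne_one, not_false_eq_true, one_apply_ne, one_ne_zero,
    h.zero, zero_mul, add_zero, ← mul_assoc, h.pa, h.pb, ← h.one]
  abel

/-- the representation of `SL₂(K)` -/
def hom (h : MU l a b) : SL(2, K) →* 𝔸ˣ :=
  MonoidHom.toHomUnits ⟨⟨fun w => val l a b w.1, h.val_one⟩, fun v w => h.val_mul v.1 w.1⟩

theorem hom_val (h : MU l a b) (w : SL(2, K)) : (h.hom w : 𝔸) = val l a b w.1 := rfl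

theorem hom_U (h : MU l a b) (t : K) : (h.hom (rU t) : 𝔸) = 1 + l t * a := by
  simp only [hom_val, val, rU_val, of_apply, cons_val', cons_val_zero, cons_val_one,
    cons_val_fin_one, h.zero, zero_mul, add_zero, ← mul_assoc, h.pa, h.pb, h.one]
  rw [← h.one, h.pa, h.pb, h.one]
  abel

theorem hom_L (h : MU l a b) (t : K) : (h.hom (rL t) : 𝔸) = 1 + l t * b := by
  simp only [hom_val, val, rL_val, of_apply, cons_val', cons_val_zero, cons_val_one,
    cons_val_fin_one, h.zero, zero_mul, add_zero, ← mul_assoc, h.pa, h.pb, h.one]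
  rw [← h.one, h.pa, h.pb, h.one]
  abel

theorem hom_neg_one (h : MU l a b) : (h.hom (-1) : 𝔸) = 1 - l 1 - l 1 := by
  have : (-1 : SL(2, K)).1 = !![-1, 0; 0, -1] := by
    ext i j; fin_cases i <;> fin_cases j <;> simp
  simp only [hom_val, val, this, of_apply, cons_val', cons_val_zero, cons_val_one,
    cons_val_fin_one, h.zero, zero_mul, add_zero, h.neg, neg_mul, ← mul_assoc, h.pa, h.pb]
  rw [h.one]; abel

theorem hom_inj (h : MU l a b) (hl : ∀ s, l s * a = 0 → s = 0) : Function.Injective h.hom := by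
  rw [injective_iff_map_eq_one]
  intro w hw
  have e : val l a b w.1 = 1 := by rw [← h.hom_val, hw]; rfl
  have ca : ∀ s x, a * (l s * x) = l s * (a * x) := fun s x => by
    rw [← mul_assoc, ← h.ca, mul_assoc]
  have cb : ∀ s x, b * (l s * x) = l s * (b * x) := fun s x => by
    rw [← mul_assoc, ← h.cb, mul_assoc]
  have a3 : ∀ x, a * (a * x) = 0 := fun x => by rw [← mul_assoc, h.a2, zero_mul]
  have b3 : ∀ x, b * (b * x) = 0 := fun x => by rw [← mul_assoc, h.b2, zero_mul]
  have aba : a * (b * a) = a := by rw [← mul_assoc, h.aba]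
  have aba3 : ∀ x, a * (b * (a * x)) = a * x := fun x => by rw [← mul_assoc, ← mul_assoc, h.aba]
  have sub : ∀ s t, l s * a = l t * a → s = t := fun s t e => by
    rw [← sub_eq_zero]; apply hl; rw [sub_eq_add_neg, h.add, h.neg, add_mul, e]; simp
  have pa3 : ∀ x, l 1 * (a * x) = a * x := fun x => by rw [← mul_assoc, h.pa]
  have pb3 : ∀ x, l 1 * (b * x) = b * x := fun x => by rw [← mul_assoc, h.pb]
  have e1 := congrArg (fun x => a * (b * (x * a))) e
  have e2 := congrArg (fun x => a * (b * (x * (b * a)))) e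
  have e3 := congrArg (fun x => a * (x * a)) e
  have e4 := congrArg (fun x => a * (x * (b * a))) e
  simp only [val, mul_add, add_mul, mul_sub, sub_mul, one_mul, mul_assoc, ca, cb, a3, b3, aba,
    aba3, h.a2, h.pa, pa3, pb3, mul_zero, sub_self, zero_add, add_zero] at e1 e2 e3 e4
  refine r_ext (sub _ _ ?_) (hl _ ?_) (hl _ ?_) (sub _ _ ?_)
  · simpa [h.pa] using e1
  · simpa using e2
  · simpa using e3
  · simpa [h.pa] using e4

end MU
end units

end CfsgH1
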