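import Cfsg.Agent.H1.RS6

/-! Classes of abstract root subgroups. -/

set_option autoImplicit false
set_option linter.unusedSectionVars false

namespace CfsgH1

open Subgroup Cfsg CfsgH9
open scoped commutatorElement

variable {G : Type*} [Group G]
variable {S : Set (Subgroup G)} {A B C D E F T : Subgroup G} {a b c d e t x y z g : G}

/-- one conjugacy class -/
def Cl (S : Set (Subgroup G)) : Prop := ∀ A ∈ S, ∀ B ∈ S, ∃ g : G, B = cj g A

namespace RS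

theorem ni_all (hS : RS S) (hc : Cl S) (hA : A ∈ S) (h : NI S A) : ∀ E ∈ S, NI S E := by
  intro E hE
  obtain ⟨g, rfl⟩ := hc A hA E hE
  exact hS.ni_cj h g

theorem exists_lp (hS : RS S) (hc : Cl S) (hn : ∀ E ∈ S, NI S E) (hC : C ∈ S) (h : RC S C D)
    (hA : A ∈ S) : ∃ B, LP S A B := by
  obtain ⟨g, rfl⟩ := hc C hC A hA
  exact ⟨_, (hS.lp_of_rc hC (hn C hC) h).conj hS g⟩

theorem sp_of_rc (hS : RS S) (hc : Cl S) (hn : ∀ E ∈ S, NI S E) (hC : C ∈ S) (h : RC S C D)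
    (hA : A ∈ S) (hB : B ∈ S) (r : RP A B) : Sp A B := by
  obtain ⟨P, l⟩ := hS.exists_lp hc hn hC h hA
  obtain ⟨T, F, o, -⟩ := hS.exists_op hn l hB r
  exact o.sp.symm

theorem line_move (hS : RS S) (hn : ∀ E ∈ S, NI S E) (l : LP S A B) :
    ∃ T ∈ S, ∃ F ∈ S, T ≠ A ∧ LP S A T ∧ A ⊔ T = A ⊔ B ∧ RC S A F ∧ ⁅A, F⁆ = T ∧
      F ≤ normalizer ((A ⊔ B : Subgroup G) : Set G) ∧ ⁅F, T⁆ = ⊥ ∧
      ∀ E ∈ S, E ≤ A ⊔ B → E = T ∨ ∃ f ∈ F, E = cj f A := by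
  obtain ⟨D, hD, r⟩ := hn A l.l
  obtain ⟨T, F, o, t1, t2, l2⟩ := hS.exists_op hn l hD r
  have e : ⁅A, F⁆ = T := by rw [commutator_comm, o.e2]
  refine ⟨T, o.mA, F, o.mC, t1, l2, t2, o.symm.rc.symm, e, ?_, o.cA,
    fun E hE hl => hS.line_pts hn o hE (t2 ▸ hl)⟩
  rw [← t2]
  exact le_norm_of_comm (commutator_sup_le (le_normalizer.trans' le_sup_left)
    (le_normalizer.trans' le_sup_right) (e.le.trans le_sup_right)
    (comm_le_of_bot (comm_bot_symm o.cA)))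

theorem line_trans (hS : RS S) (hn : ∀ E ∈ S, NI S E) (l : LP S A B) {K : Subgroup G}
    (hK : ∀ F ∈ S, F ≤ normalizer ((A ⊔ B : Subgroup G) : Set G) → F ≤ K)
    (hK' : K ≤ normalizer ((A ⊔ B : Subgroup G) : Set G)) :
    ∃ T, ∀ C ∈ S, ∀ D ∈ S, C ≤ A ⊔ B → D ≤ A ⊔ B → C ≠ D → ∃ x ∈ K, cj x C = T ∧ cj x D = A := by
  obtain ⟨T, hT, F, hF, t1, l1, t2, rc, -, f1, f2, pts⟩ := hS.line_move hn l
  obtain ⟨T', hT', F', hF', s1, l2, s2, -, -, g1, g2, pts'⟩ := hS.line_move hn l1.symm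
  rw [sup_comm T A, t2] at g1 pts'
  refine ⟨T, ?_⟩
  have k1 : ∀ C ∈ S, C ≤ A ⊔ B → C ≠ T' → ∃ x ∈ K, cj x C = T := by
    intro C hC hl hne
    obtain ⟨f, hf, e⟩ := (pts' C hC hl).resolve_left hne
    exact ⟨f⁻¹, inv_mem (hK F' hF' g1 hf), by rw [e, cj_inv_cj]⟩
  have k2 : ∀ C ∈ S, C ≤ A ⊔ B → ∃ x ∈ K, cj x C = T := by
    intro C hC hl
    by_cases e : C = T'
    swap; · exact k1 C hC hl e
    obtain ⟨f, hf, e1⟩ := (pts C hC hl).resolve_left (e ▸ s1)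
    obtain ⟨f', hf', f1'⟩ := hS.ex hF
    have hne : cj f' C ≠ T' := by
      rw [← e, e1, cj_cj]
      intro e2
      rw [cj_eq_cj_iff, ← mul_assoc, ← (hS.cme hF hf' (inv_mem hf)).eq, inv_mul_cancel_right] at e2
      exact f1' (hS.rc_norm rc.symm hf' e2)
    obtain ⟨x, hx, e2⟩ := k1 _ (hS.cjm hC f') (cj_le_of_mem_normalizer (f1 hf') hl) hne
    exact ⟨x * f', mul_mem hx (hK F hF f1 hf'), by rw [← cj_cj, e2]⟩
  intro C hC D hD h1 h2 hne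
  obtain ⟨x, hx, e⟩ := k2 C hC h1
  obtain ⟨f, hf, e1⟩ := (pts _ (hS.cjm hD x) (cj_le_of_mem_normalizer (hK' hx) h2)).resolve_left
    (fun e' => hne (cj_inj.1 (e.trans e'.symm)))
  refine ⟨f⁻¹ * x, mul_mem (inv_mem (hK F hF f1 hf)) hx, ?_, ?_⟩
  · rw [← cj_cj, e, cj_of_comm f2 (inv_mem hf)]
  · rw [← cj_cj, e1, cj_inv_cj]

theorem line_two (hS : RS S) (hn : ∀ E ∈ S, NI S E) (l : LP S A B) {C' D' : Subgroup G}
    (hC : C ∈ S) (hD : D ∈ S) (h1 : C ≤ A ⊔ B) (h2 : D ≤ A ⊔ B) (hne : C ≠ D)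
    (hC' : C' ∈ S) (hD' : D' ∈ S) (h1' : C' ≤ A ⊔ B) (h2' : D' ≤ A ⊔ B) (hne' : C' ≠ D') :
    ∃ x ∈ ⨆ E ∈ normalizingMembers S (A ⊔ B), E, cj x C = C' ∧ cj x D = D' := by
  obtain ⟨T, h⟩ := hS.line_trans hn l (K := ⨆ E ∈ normalizingMembers S (A ⊔ B), E)
    (fun F hF h => le_iSup₂_of_le F ⟨hF, h⟩ le_rfl) (iSup₂_le fun E hE => hE.2)
  obtain ⟨x, hx, e1, e2⟩ := h C hC D hD h1 h2 hne
  obtain ⟨y, hy, e3, e4⟩ := h C' hC' D' hD' h1' h2' hne'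
  exact ⟨y⁻¹ * x, mul_mem (inv_mem hy) hx, by rw [← cj_cj, e1, ← e3, cj_inv_cj],
    by rw [← cj_cj, e2, ← e4, cj_inv_cj]⟩

/-- Every point of a line through `A` is a commutator partner producing `A`. -/
theorem exists_comm_eq (hS : RS S) (hn : ∀ E ∈ S, NI S E) (l : LP S A B) :
    ∃ F ∈ S, RC S B F ∧ ⁅B, F⁆ = A := by
  obtain ⟨T, hT, F, hF, t1, l1, t2, rc, e, -⟩ := hS.line_move hn l
  obtain ⟨x, -, e1, e2⟩ := hS.line_two hn l l.l hT le_sup_left (t2 ▸ le_sup_right) t1.symm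
    l.r l.l le_sup_right le_sup_left l.ne.symm
  refine ⟨cj x F, hS.cjm hF x, e1 ▸ hS.rc_cj l.l hF rc x, ?_⟩
  rw [← e1, ← cj_commutator, e, e2]

/-- reachability in the line graph -/
theorem er_cj (hS : RS S) (hc : Cl S) (hn : ∀ E ∈ S, NI S E) (hC : C ∈ S) (h : RC S C D)
    (hA : A ∈ S) (g : G) : Relation.ReflTransGen (LP S) A (cj g A) := by
  have k : ∀ A ∈ S, ∀ E ∈ S, RC S A E → ∀ e ∈ E, Relation.ReflTransGen (LP S) A (cj e A) :=
    fun A hA E hE h e he => .head (hS.lp_of_rc hA (hn A hA) h)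
      (.single (hS.lp_cj hA (hn A hA) h he).symm)
  refine hS.induct (fun A hA E hE e he => ?_) hA g
  rcases hS.tri hA hE with r | r | r
  · rw [cj_of_comm (comm_bot_symm r) he]
  · obtain ⟨P, l⟩ := hS.exists_lp hc hn hC h hA
    obtain ⟨T, F, o, -, -, l2⟩ := hS.exists_op hn l hE r
    exact .head l2 (.tail (k T o.mA E hE o.rc e he) (l2.conj hS e).symm)
  · exact k A hA E hE r e he

theorem gen_of_lp (hS : RS S) (hc : Cl S) (hn : ∀ E ∈ S, NI S E) (hC : C ∈ S) (h : RC S C D)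
    (hA : A ∈ S) (hB : B ∈ S) (r : RP A B) {H : Subgroup G} (h1 : ∀ T, LP S A T → T ≤ H)
    (h2 : B ≤ H) : H = ⊤ := by
  have hAH : A ≤ H := by
    obtain ⟨P, l⟩ := hS.exists_lp hc hn hC h hA
    obtain ⟨T, F, o, -, -, l2⟩ := hS.exists_op hn l hB r
    have hT := h1 T l2
    obtain ⟨f, hf, f1⟩ := hS.ex o.mC
    have rc := o.symm.rc.symm
    have e : ⁅A, F⁆ = T := by rw [commutator_comm, o.e2]
    have l3 : LP S A (cj f A) := l2.of_sup hS hA (hS.cjm hA f)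
      (fun e => f1 (hS.rc_norm rc.symm hf e.symm)) (by rw [rc.sup_cj hf f1, e])
    have hF : F ≤ H := o.e1 ▸ (commutator_le_sup _ _).trans (sup_le hT h2)
    rw [← cj_inv_cj f A]
    exact cj_le_of_mem (inv_mem (hF hf)) (h1 _ l3)
  have step : ∀ {P Q R : Subgroup G}, LP S P Q → P ≤ H → Q ≤ H → R ∈ S → R ≤ H → RP P R →
      ∃ T F, OP S T R F P ∧ F ≤ H ∧ P ⊔ T = P ⊔ Q := by
    intro P Q R l p q hR rH rr
    obtain ⟨T, F, o, -, e, -⟩ := hS.exists_op hn l hR rr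
    have hT : T ≤ H := le_sup_right.trans (e.le.trans (sup_le p q))
    exact ⟨T, F, o, o.e1 ▸ (commutator_le_sup _ _).trans (sup_le hT rH), e⟩
  have key : ∀ T, LP S A T → ∃ x ∈ H, T = cj x A := by
    intro T l
    have hT := h1 T l
    obtain ⟨T0, F, o, hF, e⟩ := step l hAH hT hB h2 r
    rcases hS.line_pts hn o l.r (e ▸ le_sup_right) with e1 | ⟨f, hf, e1⟩
    swap; · exact ⟨f, hF hf, e1⟩
    subst e1
    -- find a partner of `T` inside `H`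
    obtain ⟨T1, hT1, rc1, e1⟩ := hS.exists_comm_eq hn l
    have rc2 := rc1.symm
    have e2 : ⁅T1, T⁆ = A := by rw [commutator_comm, e1]
    have l1 : LP S A T1 := by have := (hS.lp_of_rc hT1 (hn _ hT1) rc2).symm; rwa [e2] at this
    obtain ⟨T2, E, o2, hE, e3⟩ := step l1 hAH (h1 _ l1) hB h2 r
    have e4 : ⁅T2, T⁆ = A := by
      have hne : T2 ≠ A := fun e' => RS.rc_not_rp (e' ▸ o2.rc) r
      rcases hS.line_mem hT1 (hn _ hT1) rc2 o2.mA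
        (by rw [e2, sup_comm, ← e3]; exact le_sup_right) with e' | ⟨t, ht, e'⟩
      · exact absurd (e'.trans e2) hne
      · rw [e', ← cj_eq_of_mem ht, ← cj_commutator, e2, cj_of_comm l.symm.cm ht]
    have o3 : OP S T2 T A E := ⟨hS, o2.mA, l.r, hA, o2.mC, e4, by rw [commutator_comm]; exact o2.e2⟩
    obtain ⟨T3, F', o4, hF', e5⟩ := step l.symm hT hAH o2.mC hE o3.rp
    obtain ⟨f, hf, f1⟩ := hS.ex o.mC
    have rc := o.symm.rc.symm
    have n1 : cj f A ≠ A := fun e => f1 (hS.rc_norm rc.symm hf e)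
    have p1 := hS.line_pts hn o4 hA (e5 ▸ le_sup_right)
    have p2 := hS.line_pts hn o4 (hS.cjm hA f) (by
      rw [e5, sup_comm, ← o.e2]; exact cj_le_sup hf)
    rcases p1 with p1 | ⟨u, hu, p1⟩
    · rcases p2 with p2 | ⟨u, hu, p2⟩
      · exact absurd (p2.trans p1.symm) n1
      · exact ⟨u⁻¹ * f, mul_mem (inv_mem (hF' hu)) (hF hf), by rw [← cj_cj, p2, cj_inv_cj]⟩
    · exact ⟨u⁻¹, inv_mem (hF' hu), by rw [p1, cj_inv_cj]⟩
  have all : ∀ E, Relation.ReflTransGen (LP S) A E → ∃ x ∈ H, E = cj x A := by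
    intro E hE
    induction hE with
    | refl => exact ⟨1, one_mem _, (cj_one _).symm⟩
    | tail _ l ih =>
      obtain ⟨x, hx, rfl⟩ := ih
      have := l.conj hS x⁻¹
      rw [cj_inv_cj] at this
      obtain ⟨y, hy, e⟩ := key _ this
      exact ⟨x * y, mul_mem hx hy, by rw [← cj_cj, ← e, cj_cj_inv]⟩
  refine hS.le_of_forall fun E hE => ?_
  obtain ⟨g, rfl⟩ := hc A hA E hE
  obtain ⟨x, hx, e⟩ := all _ (hS.er_cj hc hn hC h hA g)
  rw [e]; exact cj_le_of_mem hx hAH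

theorem block_comm (hS : RS S) (hc : Cl S) (hn : ∀ E ∈ S, NI S E) (hC : C ∈ S) (h : RC S C D)
    {Δ : Set (Subgroup G)} (h1 : Δ ⊆ S) (h2 : Δ ≠ S)
    (h3 : ∀ E ∈ S, ∀ e ∈ E, ∀ A ∈ Δ, cj e A ∈ Δ → ∀ B ∈ Δ, cj e B ∈ Δ) (hA : A ∈ Δ) (hB : B ∈ Δ) :
    ⁅A, B⁆ = ⊥ := by
  let H : Subgroup G :=
    { carrier := {g | ∀ B, B ∈ Δ ↔ cj g B ∈ Δ}
      one_mem' := fun B => by rw [cj_one]
      mul_mem' := fun {x y} hx hy B => by rw [← cj_cj, ← hx, ← hy]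
      inv_mem' := fun {x} hx B => by rw [hx (cj x⁻¹ B), cj_cj_inv] }
  have k : ∀ E ∈ S, ∀ A ∈ Δ, ⁅E, A⁆ = ⊥ → E ≤ H := by
    intro E hE A hA c e he B
    refine ⟨h3 E hE e he A hA (by rwa [cj_of_comm c he]) B, fun hB => ?_⟩
    have := h3 E hE _ (inv_mem he) A hA (by rwa [cj_of_comm c (inv_mem he)]) _ hB
    rwa [cj_inv_cj] at this
  have nrp : ∀ A ∈ Δ, ∀ B ∈ Δ, ¬ RP A B := by
    intro A hA B hB r
    have := hS.gen_of_lp hc hn hC h (h1 hA) (h1 hB) r (H := H)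
      (fun T l => k T l.r A hA l.symm.cm) (k B (h1 hB) B hB (hS.cm (h1 hB)))
    apply h2 (Set.Subset.antisymm h1 fun E hE => ?_)
    obtain ⟨g, rfl⟩ := hc A (h1 hA) E hE
    have hg : g ∈ H := this ▸ mem_top g
    exact (hg A).1 hA
  rcases hS.tri (h1 hA) (h1 hB) with r | r | r
  · exact r
  · exact absurd r (nrp A hA B hB)
  · obtain ⟨E, hE, r1, c⟩ := hS.exists_rp_comm hn (h1 hA) (h1 hB) r
    obtain ⟨e, he, e1⟩ := r1.exB
    exact absurd (r1.rp_cj_right he e1) (nrp A hA _ ((k E hE B hB (comm_bot_symm c) he A).1 hA))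

theorem cl_of_conn (h : IsConnectedFamily (FAdj S) S) : Cl S :=
  fun A hA B hB => FR.conj_ex (h A hA B hB)

theorem ni_of_conn (h : IsConnectedFamily (FAdj S) S) (h2 : ∃ A ∈ S, ∃ B ∈ S, A ≠ B) :
    ∀ E ∈ S, NI S E := by
  obtain ⟨A, hA, B, hB, hne⟩ := h2
  intro E hE
  by_cases e : A = E
  · exact FR.ni (h E hE B hB) (e ▸ hne.symm)
  · exact FR.ni (h E hE A hA) e

theorem eq_top_of_le (hS : RS S) (hc : Cl S) {N : Subgroup G} [N.Normal] (hA : A ∈ S) (h : A ≤ N) :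
    N = ⊤ := by
  refine hS.le_of_forall fun E hE => ?_
  obtain ⟨g, rfl⟩ := hc A hA E hE
  exact cj_le_of_mem_normalizer (by rw [normalizer_eq_top]; trivial) h

theorem qs_top (hS : RS S) (hc : Cl S) (hn : ∀ E ∈ S, NI S E) (h0 : S.Nonempty)
    (h2 : ∀ A ∈ S, ∀ C ∈ S, (∀ B ∈ S, ⁅A, B⁆ = ⊥ ↔ ⁅C, B⁆ = ⊥) → A = C)
    (h3 : (∃ C ∈ S, ∃ D, RC S C D) ∨ ∀ A ∈ S, ∀ B ∈ S, RP A B → ⁅A ⊔ B, A ⊔ B⁆ = A ⊔ B) :
    QS (⊤ : Subgroup G) := by
  obtain ⟨A0, hA0⟩ := h0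
  obtain ⟨B0, hB0, r0⟩ := hn A0 hA0
  have hp : ⁅(⊤ : Subgroup G), (⊤ : Subgroup G)⁆ = ⊤ := by
    rcases h3 with ⟨C, hC, D, h⟩ | h3
    · exact hS.eq_top_of_le hc h.1 (commutator_mono le_top le_top)
    · exact hS.eq_top_of_le hc hA0 (le_sup_left.trans
        ((h3 A0 hA0 B0 hB0 r0).ge.trans (commutator_mono le_top le_top)))
  refine ⟨hp, fun e => r0.neL (eq_bot_iff.2 (e ▸ le_top)), fun N _ hN => ?_⟩
  haveI : N.Normal := normal_of_top_le hN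
  by_cases hN1 : N = ⊤
  · exact Or.inl hN1
  right
  have le1 : ∀ (A : Subgroup G), ∀ n ∈ N, cj n A ≤ N ⊔ A :=
    fun A n hn => cj_le_of_mem (mem_sup_left hn) le_sup_right
  have c1 : ∀ A ∈ S, ∀ n ∈ N, ⁅A, cj n A⁆ = ⊥ := by
    intro A hA n hn'
    have nab : ∀ {P Q : Subgroup G}, P ≤ N ⊔ A → Q ≤ N ⊔ A → ⁅P, Q⁆ ≤ N := by
      intro P Q hP hQ
      have nn : ∀ {P : Subgroup G}, P ≤ normalizer (N : Set G) := fun {P} => le_top.trans hN
      exact (commutator_mono hP hQ).trans (commutator_sup_le nn nn (commutator_le_left _ _)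
        (commutator_sup_le' nn nn (commutator_le_right _ _) (comm_le_of_bot (hS.cm hA))))
    rcases h3 with ⟨C, hC, D, h⟩ | h3
    · refine hS.block_comm hc hn hC h (Δ := {B | ∃ n ∈ N, B = cj n A}) ?_ ?_ ?_
        ⟨1, one_mem _, (cj_one _).symm⟩ ⟨n, hn', rfl⟩
      · rintro _ ⟨m, -, rfl⟩; exact hS.cjm hA m
      · intro e
        apply hN1
        have : N ⊔ A = ⊤ := hS.le_of_forall fun E hE => by
          obtain ⟨m, hm, rfl⟩ : E ∈ {B | ∃ n ∈ N, B = cj n A} := e ▸ hE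
          exact le1 A m hm
        rw [eq_top_iff, ← hp]
        exact nab this.ge this.ge
      · rintro E - e - _ ⟨m, hm, rfl⟩ ⟨m', hm', e1⟩ _ ⟨k, hk, rfl⟩
        refine ⟨e * (k * m⁻¹) * e⁻¹ * m', mul_mem (‹N.Normal›.conj_mem _ (mul_mem hk (inv_mem hm)) e)
          hm', ?_⟩
        rw [← cj_cj _ m', ← e1, cj_cj, cj_cj, cj_cj]
        congr 1; group
    · rcases hS.tri hA (hS.cjm hA n) with r | r | r
      · exact r
      · exact absurd (hS.eq_top_of_le hc hA (le_sup_left.trans ((h3 _ hA _ (hS.cjm hA n) r).ge.trans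
          (nab (sup_le le_sup_right (le1 A n hn')) (sup_le le_sup_right (le1 A n hn')))))) hN1
      · exact absurd (hS.eq_top_of_le hc r.1 (nab le_sup_right (le1 A n hn'))) hN1
  have c2 : ∀ A ∈ S, ∀ n ∈ N, ∀ D ∈ S, ⁅A, D⁆ = ⊥ → ⁅cj n A, D⁆ = ⊥ := by
    intro A hA n hn' D hD c
    rcases hS.tri (hS.cjm hA n) hD with r | r | r
    · exact r
    · exfalso
      obtain ⟨d, hd, d1⟩ := r.exB
      apply (r.rp_cj_right hd d1).not_comm
      have := c1 _ (hS.cjm hA n) (d * n * d⁻¹ * n⁻¹)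
        (mul_mem (‹N.Normal›.conj_mem _ hn' d) (inv_mem hn'))
      rwa [cj_cj, inv_mul_cancel_right, ← cj_cj (d * n), cj_of_comm (comm_bot_symm c) (inv_mem hd),
        ← cj_cj] at this
    · have nn : ∀ {P : Subgroup G}, P ≤ normalizer (N : Set G) := fun {P} => le_top.trans hN
      exact absurd (hS.eq_top_of_le hc r.1 ((commutator_mono (le1 A n hn') le_rfl).trans
        (commutator_sup_le nn nn (commutator_le_left _ _) (comm_le_of_bot c)))) hN1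
  have c3 : ∀ A ∈ S, N ≤ normalizer (A : Set G) := by
    intro A hA n hn'
    rw [← cj_eq_iff]
    refine (h2 A hA _ (hS.cjm hA n) fun B hB => ⟨c2 A hA n hn' B hB, fun c => ?_⟩).symm
    have := c2 _ (hS.cjm hA n) _ (inv_mem hn') B hB c
    rwa [cj_inv_cj] at this
  rw [comm_bot_iff', eq_top_iff.symm]
  refine hS.le_of_forall fun A hA => ?_
  obtain ⟨B, hB, r⟩ := hn A hA
  rw [← comm_bot_iff', eq_bot_iff, ← r.infL]
  exact le_inf (commutator_le_right_of (c3 A hA)) ((commutator_le_left _ _).trans (c3 B hB))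

end RS

end CfsgH1
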