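import Cfsg.Agent.H1.QP3
import Cfsg.Agent.H1.RS7

/-! Unipotent groups of units. -/

set_option autoImplicit false
set_option linter.unusedSectionVars false

namespace CfsgH1

open Submodule CfsgH9

variable {k : Type*} [Field k] {𝔸 : Type*} [Ring 𝔸] [Algebra k 𝔸]
  {A B G H P Q : Subgroup 𝔸ˣ} {S T T' : Submodule k 𝔸} {g : 𝔸ˣ}

variable (k) in
/-- the span of the elements `g - 1` -/
def JJ (H : Subgroup 𝔸ˣ) : Submodule k 𝔸 := span k {x | ∃ g ∈ H, x = (g : 𝔸) - 1}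

variable (k) in
/-- unipotent group of units -/
def Up (H : Subgroup 𝔸ˣ) : Prop := ∃ n, JJ k H ^ n = ⊥

theorem mem_JJ (hg : g ∈ H) : (g : 𝔸) - 1 ∈ JJ k H := subset_span ⟨g, hg, rfl⟩

theorem JJ_le : JJ k H ≤ T ↔ ∀ g ∈ H, (g : 𝔸) - 1 ∈ T := by
  rw [JJ, span_le]
  exact ⟨fun h g hg => h ⟨g, hg, rfl⟩, by rintro h _ ⟨g, hg, rfl⟩; exact h g hg⟩

theorem JJ_mono (h : A ≤ B) : JJ k A ≤ JJ k B := JJ_le.2 fun _ hg => mem_JJ (h hg)

theorem JJ_mul_le (H : Subgroup 𝔸ˣ) : JJ k H * JJ k H ≤ JJ k H := by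
  conv_lhs => rw [JJ, span_mul_span]
  rw [span_le]
  rintro _ ⟨_, ⟨g, hg, rfl⟩, _, ⟨h, hh, rfl⟩, rfl⟩
  have : ((g : 𝔸) - 1) * (h - 1) = (((g * h : 𝔸ˣ) : 𝔸) - 1) - (g - 1) - (h - 1) := by
    rw [Units.val_mul]; noncomm_ring
  simp only [this]
  exact sub_mem (sub_mem (mem_JJ (mul_mem hg hh)) (mem_JJ hg)) (mem_JJ hh)

/-- the group `1 + T` -/
def oa (T : Submodule k 𝔸) (hT : T * T ≤ T) : Subgroup 𝔸ˣ where
  carrier := {g | (g : 𝔸) - 1 ∈ T ∧ ((g⁻¹ : 𝔸ˣ) : 𝔸) - 1 ∈ T}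
  one_mem' := by simp
  inv_mem' := fun h => ⟨h.2, by simpa using h.1⟩
  mul_mem' := by
    have : ∀ x y : 𝔸, x - 1 ∈ T → y - 1 ∈ T → x * y - 1 ∈ T := fun x y hx hy => by
      rw [show x * y - 1 = (x - 1) * (y - 1) + (x - 1) + (y - 1) by noncomm_ring]
      exact add_mem (add_mem (hT (mul_mem_mul hx hy)) hx) hy
    rintro a b ⟨a1, a2⟩ ⟨b1, b2⟩
    exact ⟨this _ _ a1 b1, by rw [mul_inv_rev, Units.val_mul]; exact this _ _ b2 a2⟩

theorem le_oa (hT : T * T ≤ T) : H ≤ oa T hT ↔ JJ k H ≤ T := by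
  rw [JJ_le]
  exact ⟨fun h g hg => (h hg).1, fun h g hg => ⟨h g hg, h _ (inv_mem hg)⟩⟩

theorem JJ_sup_le (hT : T * T ≤ T) (h1 : JJ k A ≤ T) (h2 : JJ k B ≤ T) : JJ k (A ⊔ B) ≤ T :=
  (le_oa hT).1 (sup_le ((le_oa hT).2 h1) ((le_oa hT).2 h2))

theorem JJ_biSup_le (hT : T * T ≤ T) {W : Set (Subgroup 𝔸ˣ)} (h : ∀ A ∈ W, JJ k A ≤ T) :
    JJ k (⨆ A ∈ W, A) ≤ T :=
  (le_oa hT).1 (iSup₂_le fun A hA => (le_oa hT).2 (h A hA))

theorem JJ_closure_le (hT : T * T ≤ T) {s : Set 𝔸ˣ}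
    (h : ∀ g ∈ s, (g : 𝔸) - 1 ∈ T ∧ ((g⁻¹ : 𝔸ˣ) : 𝔸) - 1 ∈ T) : JJ k (Subgroup.closure s) ≤ T :=
  (le_oa hT).1 ((Subgroup.closure_le _).2 h)

theorem up_of_le (h : JJ k H ≤ T) {n : ℕ} (hn : T ^ n = ⊥) : Up k H :=
  ⟨n, le_bot_iff.1 (hn ▸ pow_le_pow_left' h n)⟩

theorem Up.mono (h : Up k B) (e : A ≤ B) : Up k A := by
  obtain ⟨n, hn⟩ := h
  exact up_of_le (JJ_mono e) hn

theorem list_lift {α β : Type _} (f : α → β) (l : List α) :
    (l >>= fun a => pure (f a)) = l.map f := by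
  induction l with
  | nil => rfl
  | cons a l ih => simpa using ih

theorem up_iff {M : Type*} [AddCommGroup M] [Module k M] {H : Subgroup (Module.End k M)ˣ} :
    Cfsg.IsUnipotentOn H ↔ Up k H := by
  refine exists_congr fun n => ?_
  rw [JJ, span_pow, span_eq_bot]
  constructor
  · intro h x hx
    obtain ⟨f, rfl⟩ := Set.mem_pow.1 hx
    choose g hg e using fun i => (f i).2
    have := h (List.ofFn g) (by simpa [List.mem_ofFn] using hg) (by simp)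
    rw [list_lift, List.map_ofFn, List.map_ofFn] at this
    rw [← this]
    congr 2
    ext1 i
    exact e i
  · intro h l hl e
    subst e
    refine h _ (Set.mem_pow.2 ⟨fun i => ⟨(l.get i : Module.End k M) - 1, _, hl _ (l.get_mem i), rfl⟩, ?_⟩)
    congr 1
    conv_rhs => rw [← List.ofFn_get l, list_lift, List.map_ofFn, List.map_ofFn]
    rfl

theorem up_sup_of_norm (hP : Up k P) (hQ : Up k Q) (h : ∀ q ∈ Q, cj q P ≤ P) : Up k (P ⊔ Q) := by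
  obtain ⟨n, hn⟩ := hP
  obtain ⟨m, hm⟩ := hQ
  set S := JJ k P
  set T := JJ k Q
  set B : Submodule k 𝔸 := 1 ⊔ T with hB
  have SS : S * S ≤ S := JJ_mul_le P
  have TT : T * T ≤ T := JJ_mul_le Q
  have TB : T ≤ B := le_sup_right
  have B1 : 1 ≤ B := le_sup_left
  have BB : B * B ≤ B := by
    rw [hB, Submodule.mul_sup, Submodule.sup_mul, Submodule.sup_mul]
    simp only [mul_one, one_mul]
    exact sup_le le_rfl (sup_le le_sup_right (TT.trans le_sup_right))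
  have SI : S ≤ S * B := by simpa using mul_le_mul' (le_refl S) B1
  have BS : B * S ≤ S * B := by
    rw [hB, Submodule.sup_mul, one_mul]
    refine sup_le SI ?_
    refine (le_of_eq (span_mul_span k _ _)).trans (span_le.2 ?_)
    rintro _ ⟨_, ⟨q, hq, rfl⟩, _, ⟨p, hp, rfl⟩, rfl⟩
    have : ((q : 𝔸) - 1) * (p - 1) = (((q * p * q⁻¹ : 𝔸ˣ) : 𝔸) - 1) * (1 + (q - 1)) - (p - 1) := by
      rw [add_sub_cancel, sub_mul (_ : 𝔸) 1 (q : 𝔸), ← Units.val_mul, inv_mul_cancel_right,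
        Units.val_mul]
      noncomm_ring
    simp only [this]
    exact sub_mem (mul_mem_mul (mem_JJ (h q hq (conj_mem_cj q hp)))
      (add_mem (B1 (one_le.1 le_rfl)) (TB (mem_JJ hq)))) (SI (mem_JJ hp))
  have IB : S * B * B ≤ S * B := by rw [mul_assoc]; exact mul_le_mul' le_rfl BB
  have BI : B * (S * B) ≤ S * B := by
    rw [← mul_assoc]; exact (mul_le_mul' BS le_rfl).trans IB
  have II : S * B * (S * B) ≤ S * B := by
    rw [mul_assoc]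
    refine (mul_le_mul' le_rfl BI).trans ?_
    rw [← mul_assoc]; exact mul_le_mul' SS le_rfl
  have Ip : ∀ j, (S * B) ^ j ≤ S ^ j * B := fun j => by
    induction j with
    | zero => simpa using B1
    | succ j ih =>
      rw [pow_succ, pow_succ]
      refine (mul_le_mul' ih le_rfl).trans ?_
      rw [mul_assoc, mul_assoc]
      exact mul_le_mul' le_rfl BI
  have TBp : ∀ j, T ^ j ≤ B := fun j => by
    induction j with
    | zero => simpa using B1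
    | succ j ih => rw [pow_succ]; exact (mul_le_mul' ih TB).trans BB
  have Up : ∀ j, (S * B ⊔ T) ^ j ≤ S * B ⊔ T ^ j := fun j => by
    induction j with
    | zero => simp
    | succ j ih =>
      rw [pow_succ, pow_succ]
      refine (mul_le_mul' ih le_rfl).trans ?_
      rw [Submodule.mul_sup, Submodule.sup_mul, Submodule.sup_mul]
      exact sup_le (sup_le (II.trans le_sup_left)
        (((mul_le_mul' (TBp j) le_rfl).trans BI).trans le_sup_left))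
        (sup_le (((mul_le_mul' le_rfl TB).trans IB).trans le_sup_left) le_sup_right)
  have UU : (S * B ⊔ T) * (S * B ⊔ T) ≤ S * B ⊔ T := by
    have := Up 2
    rw [pow_two, pow_two] at this
    exact this.trans (sup_le_sup_left TT _)
  refine up_of_le (n := m * n) (JJ_sup_le UU (SI.trans le_sup_left) le_sup_right) ?_
  rw [pow_mul, eq_bot_iff]
  refine (pow_le_pow_left' (Up m) n).trans ?_
  rw [hm, sup_bot_eq]
  exact (Ip n).trans (by rw [hn, bot_mul])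

theorem JJ_cj_le (h1 : T * T' ≤ T') (h2 : T' * T ≤ T') (hg : (g : 𝔸) - 1 ∈ T)
    (hg' : ((g⁻¹ : 𝔸ˣ) : 𝔸) - 1 ∈ T) (h : JJ k A ≤ T') : JJ k (cj g A) ≤ T' := by
  rw [JJ_le]
  rintro _ ⟨a, ha, rfl⟩
  have ha' := h (mem_JJ ha)
  have e : (((MulAut.conj g).toMonoidHom a : 𝔸ˣ) : 𝔸) - 1 =
      (1 + (g - 1)) * (a - 1) * (1 + ((g⁻¹ : 𝔸ˣ) - 1)) := by
    simp [mul_sub, sub_mul]
  have l : (1 + ((g : 𝔸) - 1)) * (a - 1) ∈ T' := by
    rw [add_mul, one_mul]; exact add_mem ha' (h1 (mul_mem_mul hg ha'))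
  rw [e, mul_add, mul_one]
  exact add_mem l (h2 (mul_mem_mul l hg'))

section main
variable {W : Set (Subgroup 𝔸ˣ)}

/-- the members of `W` inside `1 + T` -/
def WT (W : Set (Subgroup 𝔸ˣ)) (T : Submodule k 𝔸) : Set (Subgroup 𝔸ˣ) := {A ∈ W | JJ k A ≤ T}

theorem exists_norm (hc : ∀ A ∈ W, ∀ B ∈ W, ∀ b ∈ B, cj b A ∈ W) {D : Submodule k 𝔸}
    (hT : T * T ≤ T) {n : ℕ} (hn : T ^ n = ⊥) (hD : D * D ≤ D) (hDT : D ≤ T)
    (hne : ¬ WT W T ⊆ WT W D) :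
    ∃ A ∈ WT W T, A ∉ WT W D ∧ ∀ a ∈ A, ∀ B ∈ WT W D, cj a B ∈ WT W D := by
  have pw : ∀ j, T ^ (j + 1) ≤ T := fun j => by
    induction j with
    | zero => simp
    | succ j ih => rw [pow_succ]; exact (mul_le_mul' ih le_rfl).trans hT
  have hj : ∃ j, ¬ WT W (D ⊔ T ^ (j + 1)) ⊆ WT W D ∧ WT W (D ⊔ T ^ (j + 1 + 1)) ⊆ WT W D := by
    by_contra hcon
    push Not at hcon
    have : ∀ j, ¬ WT W (D ⊔ T ^ (j + 1)) ⊆ WT W D := fun j => by
      induction j with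
      | zero => simpa [sup_eq_right.2 hDT] using hne
      | succ j ih => exact hcon j ih
    apply this n
    rw [pow_succ, hn, bot_mul, sup_bot_eq]
  obtain ⟨j, h1, h2⟩ := hj
  obtain ⟨A, hA, hA'⟩ := Set.not_subset.1 h1
  refine ⟨A, ⟨hA.1, hA.2.trans (sup_le hDT (pw j))⟩, hA', fun a ha B hB => h2 ⟨hc _ hB.1 _ hA.1 _ ha, ?_⟩⟩
  have f1 : T ^ (j + 1 + 1) * T ≤ T ^ (j + 1 + 1) := by
    rw [pow_succ T (j + 1), mul_assoc]; exact mul_le_mul' le_rfl hT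
  have f2 : T * T ^ (j + 1 + 1) ≤ T ^ (j + 1 + 1) := by
    rw [pow_succ' T (j + 1), ← mul_assoc]; exact mul_le_mul' hT le_rfl
  refine JJ_cj_le (T := D ⊔ T ^ (j + 1)) ?_ ?_ (hA.2 (mem_JJ ha)) (hA.2 (mem_JJ (inv_mem ha)))
    (hB.2.trans le_sup_left)
  · rw [Submodule.mul_sup, Submodule.sup_mul, Submodule.sup_mul]
    refine sup_le (sup_le (hD.trans le_sup_left) (le_sup_of_le_right ?_))
      (sup_le (le_sup_of_le_right ?_) (le_sup_of_le_right ?_))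
    · rw [pow_succ T (j + 1)]; exact mul_le_mul' le_rfl hDT
    · exact (mul_le_mul' hDT le_rfl).trans f2
    · exact (mul_le_mul' (pw j) le_rfl).trans f2
  · rw [Submodule.mul_sup, Submodule.sup_mul, Submodule.sup_mul]
    refine sup_le (sup_le (hD.trans le_sup_left) (le_sup_of_le_right ?_))
      (sup_le (le_sup_of_le_right ?_) (le_sup_of_le_right ?_))
    · exact (mul_le_mul' le_rfl hDT).trans f1
    · rw [pow_succ' T (j + 1)]; exact mul_le_mul' hDT le_rfl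
    · exact (mul_le_mul' le_rfl (pw j)).trans f1

theorem cj_biSup_le {Γ : Set (Subgroup 𝔸ˣ)} (h : ∀ B ∈ Γ, cj g B ∈ Γ) :
    cj g (⨆ B ∈ Γ, B) ≤ ⨆ B ∈ Γ, B := by
  simp only [cj, Subgroup.map_iSup]
  exact iSup₂_le fun B hB => le_iSup₂_of_le (f := fun B (_ : B ∈ Γ) => B) _ (h B hB) le_rfl

theorem le_bs {Γ : Set (Subgroup 𝔸ˣ)} (h : A ∈ Γ) : A ≤ ⨆ B ∈ Γ, B :=
  le_iSup₂_of_le (f := fun B (_ : B ∈ Γ) => B) _ h le_rfl

theorem up_union [Module.Finite k 𝔸] (hp : ∀ A ∈ W, ∀ B ∈ W, Up k (A ⊔ B))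
    (hc : ∀ A ∈ W, ∀ B ∈ W, ∀ b ∈ B, cj b A ∈ W) (m : ℕ) : ∀ P Q : Subgroup 𝔸ˣ, Up k P → Up k Q →
      Module.finrank k 𝔸 - Module.finrank k (JJ k (⨆ A ∈ WT W (JJ k P) ∩ WT W (JJ k Q), A)) = m →
      Up k (⨆ A ∈ WT W (JJ k P) ∪ WT W (JJ k Q), A) := by
  induction m using Nat.strong_induction_on with
  | _ m ih =>
  intro P Q hP hQ hm
  set Γ := WT W (JJ k P) ∩ WT W (JJ k Q) with hΓ
  set D := ⨆ A ∈ Γ, A with hD
  have DP : JJ k D ≤ JJ k P := JJ_biSup_le (JJ_mul_le P) fun A hA => hA.1.2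
  have DQ : JJ k D ≤ JJ k Q := JJ_biSup_le (JJ_mul_le Q) fun A hA => hA.2.2
  have e : WT W (JJ k D) = Γ := Set.Subset.antisymm
    (fun A hA => ⟨⟨hA.1, hA.2.trans DP⟩, hA.1, hA.2.trans DQ⟩)
    fun A hA => ⟨hA.1.1, JJ_mono (le_bs hA)⟩
  obtain ⟨n1, hn1⟩ := id hP
  obtain ⟨n2, hn2⟩ := id hQ
  by_cases c1 : WT W (JJ k P) ⊆ WT W (JJ k D)
  · refine up_of_le (JJ_biSup_le (JJ_mul_le Q) ?_) hn2
    rintro A (hA | hA)
    exacts [(c1 hA).2.trans DQ, hA.2]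
  by_cases c2 : WT W (JJ k Q) ⊆ WT W (JJ k D)
  · refine up_of_le (JJ_biSup_le (JJ_mul_le P) ?_) hn1
    rintro A (hA | hA)
    exacts [hA.2, (c2 hA).2.trans DP]
  obtain ⟨A1, a1, a1', a1n⟩ := exists_norm hc (JJ_mul_le P) hn1 (JJ_mul_le D) DP c1
  obtain ⟨A2, a2, a2', a2n⟩ := exists_norm hc (JJ_mul_le Q) hn2 (JJ_mul_le D) DQ c2
  rw [e] at a1n a2n
  have nm : ∀ A : Subgroup 𝔸ˣ, (∀ a ∈ A, ∀ B ∈ Γ, cj a B ∈ Γ) → A ≤ Subgroup.normalizer (D : Set 𝔸ˣ) :=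
    fun A h => le_normalizer_iff_cj.2 fun a ha => cj_biSup_le (h a ha)
  have u3 : Up k (D ⊔ (A1 ⊔ A2)) := up_sup_of_norm (up_of_le DP hn1) (hp _ a1.1 _ a2.1)
    (le_normalizer_iff_cj.1 (sup_le (nm _ a1n) (nm _ a2n)))
  have step : ∀ (P' Q' A : Subgroup 𝔸ˣ), Up k P' → Up k Q' → JJ k D ≤ JJ k P' → JJ k D ≤ JJ k Q' →
      A ∈ WT W (JJ k P') → A ∈ WT W (JJ k Q') → A ∉ WT W (JJ k D) →
      Up k (⨆ A ∈ WT W (JJ k P') ∪ WT W (JJ k Q'), A) := by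
    intro P' Q' A hP' hQ' d1 d2 b1 b2 b3
    refine ih _ ?_ P' Q' hP' hQ' rfl
    have : JJ k D < JJ k (⨆ A ∈ WT W (JJ k P') ∩ WT W (JJ k Q'), A) := by
      refine lt_of_le_of_ne (JJ_biSup_le (JJ_mul_le _) fun B hB => JJ_mono (le_bs ?_)) fun h => b3 ?_
      · rw [← e] at hB
        exact ⟨⟨hB.1, hB.2.trans d1⟩, hB.1, hB.2.trans d2⟩
      · exact ⟨b1.1, h ▸ JJ_mono (le_bs ⟨b1, b2⟩)⟩
    have h1 := Submodule.finrank_lt_finrank_of_lt this
    have h2 := Submodule.finrank_le (JJ k (⨆ A ∈ WT W (JJ k P') ∩ WT W (JJ k Q'), A))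
    omega
  have u4 := step P _ A1 hP u3 DP (JJ_mono le_sup_left) a1
    ⟨a1.1, JJ_mono (le_sup_of_le_right le_sup_left)⟩ a1'
  have u5 := step _ Q A2 u4 hQ
    (JJ_biSup_le (JJ_mul_le _) fun B hB => JJ_mono (le_bs (Or.inl hB.1))) DQ
    ⟨a2.1, JJ_mono (le_bs (Or.inr ⟨a2.1, JJ_mono (le_sup_of_le_right le_sup_right)⟩))⟩ a2 a2'
  refine u5.mono (iSup₂_le ?_)
  rintro B (hB | hB)
  · exact le_bs (Or.inl ⟨hB.1, JJ_mono (le_bs (Or.inl hB))⟩)
  · exact le_bs (Or.inr hB)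

theorem up_bot : Up k (⊥ : Subgroup 𝔸ˣ) :=
  ⟨1, by rw [pow_one, eq_bot_iff, JJ_le]; simp⟩

/-- A conjugation invariant family of pairwise unipotent subgroups generates a unipotent group. -/
theorem up_biSup [Module.Finite k 𝔸] (hp : ∀ A ∈ W, ∀ B ∈ W, Up k (A ⊔ B))
    (hc : ∀ A ∈ W, ∀ B ∈ W, ∀ b ∈ B, cj b A ∈ W) : Up k (⨆ A ∈ W, A) := by
  have : ∀ m, ∀ P : Subgroup 𝔸ˣ, Up k P → P ≤ ⨆ A ∈ WT W (JJ k P), A →
      Module.finrank k 𝔸 - Module.finrank k (JJ k P) = m → Up k (⨆ A ∈ W, A) := by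
    intro m
    induction m using Nat.strong_induction_on with
    | _ m ih =>
    intro P hP hl hm
    by_cases h : ∀ A ∈ W, JJ k A ≤ JJ k P
    · obtain ⟨n, hn⟩ := hP
      exact up_of_le (JJ_biSup_le (JJ_mul_le P) h) hn
    push Not at h
    obtain ⟨A, hA, hA'⟩ := h
    have u := up_union hp hc _ P A hP (by simpa using hp A hA A hA) rfl
    refine ih _ ?_ _ u (iSup₂_le fun B hB => le_bs ⟨hB.elim (·.1) (·.1), JJ_mono (le_bs hB)⟩) rfl
    have : JJ k P < JJ k (⨆ B ∈ WT W (JJ k P) ∪ WT W (JJ k A), B) :=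
      lt_of_le_of_ne (JJ_mono (hl.trans (iSup₂_le fun B hB => le_bs (Or.inl hB))))
        fun h => hA' (h ▸ JJ_mono (le_bs (Or.inr ⟨hA, le_rfl⟩)))
    have h1 := Submodule.finrank_lt_finrank_of_lt this
    have h2 := Submodule.finrank_le (JJ k (⨆ B ∈ WT W (JJ k P) ∪ WT W (JJ k A), B))
    omega
  exact this _ ⊥ up_bot bot_le rfl

end main

variable (k) in
/-- no non-trivial unipotent normal subgroup -/
def NU (G : Subgroup 𝔸ˣ) : Prop := ∀ N ≤ G, (∀ g ∈ G, cj g N ≤ N) → Up k N → N = ⊥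

theorem NU.of_family [Module.Finite k 𝔸] (h : NU k G) {W : Set (Subgroup 𝔸ˣ)} (hl : ∀ A ∈ W, A ≤ G)
    (hp : ∀ A ∈ W, ∀ B ∈ W, Up k (A ⊔ B)) (hc : ∀ A ∈ W, ∀ g ∈ G, cj g A ∈ W) (hA : A ∈ W) :
    A = ⊥ := by
  have := h _ (iSup₂_le hl) (fun g hg => cj_biSup_le fun B hB => hc B hB g hg)
    (up_biSup hp fun A hA B hB b hb => hc A hA b (hl B hB hb))
  exact le_bot_iff.1 (this ▸ le_bs hA)

theorem NU.normal [Module.Finite k 𝔸] (h : NU k G) (hH : H ≤ G) (hn : ∀ g ∈ G, cj g H ≤ H) :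
    NU k H := by
  intro N hN n u
  refine h.of_family (W := {A | A ≤ H ∧ (∀ g ∈ H, cj g A ≤ A) ∧ Up k A})
    (fun A hA => hA.1.trans hH) (fun A hA B hB => up_sup_of_norm hA.2.2 hB.2.2
      fun q hq => hA.2.1 q (hB.1 hq)) ?_ ⟨hN, n, u⟩
  rintro A ⟨a1, a2, n, hn'⟩ g hg
  refine ⟨(cj_mono g a1).trans (hn g hg), fun x hx => ?_, n, ?_⟩
  · have : g⁻¹ * x * g ∈ H := by simpa using hn _ (inv_mem hg) (conj_mem_cj _ hx)
    rw [cj_cj, show x * g = g * (g⁻¹ * x * g) by group, ← cj_cj]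
    exact cj_mono g (a2 _ this)
  · let f : 𝔸 →ₐ[k] 𝔸 :=
      { toFun := fun x => g * x * (g⁻¹ : 𝔸ˣ)
        map_one' := by simp
        map_mul' := fun x y => by simp [mul_assoc]
        map_zero' := by simp
        map_add' := fun x y => by simp [mul_add, add_mul]
        commutes' := fun c => by simp [Algebra.algebraMap_eq_smul_one] }
    have : JJ k (cj g A) ≤ (JJ k A).map f.toLinearMap := by
      rw [JJ_le]
      rintro _ ⟨a, ha, rfl⟩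
      exact ⟨_, mem_JJ ha, by simp [f, mul_sub, sub_mul]⟩
    rw [eq_bot_iff]
    refine (pow_le_pow_left' this n).trans ?_
    rw [← Submodule.map_pow, hn', Submodule.map_bot]

theorem nu_of_irr {M : Type*} [AddCommGroup M] [Module k M] {G : Subgroup (Module.End k M)ˣ}
    (h : Cfsg.IsIrreducibleFor G) : NU k G := by
  rintro N hN hn ⟨n, hu⟩
  obtain ⟨⟨m, hm⟩, h⟩ := h
  rcases h (Cfsg.commutatorSubmodule N) (fun g hg w hw => by
    have : (Cfsg.commutatorSubmodule N).map (g : M →ₗ[k] M) ≤ Cfsg.commutatorSubmodule N := by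
      simp only [Cfsg.commutatorSubmodule, Submodule.map_iSup]
      refine iSup₂_le fun x hx => le_iSup₂_of_le _ (hn g hg (conj_mem_cj g hx)) ?_
      rintro _ ⟨_, ⟨v, rfl⟩, rfl⟩
      exact ⟨(g : M →ₗ[k] M) v, by simp [← Module.End.mul_apply]⟩
    exact this ⟨w, hw, rfl⟩) with e | e
  · rw [eq_bot_iff]
    intro x hx
    have : LinearMap.range ((x : M →ₗ[k] M) - 1) ≤ ⊥ :=
      e ▸ le_iSup₂_of_le (f := fun (g : (Module.End k M)ˣ) (_ : g ∈ N) =>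
        LinearMap.range ((g : M →ₗ[k] M) - 1)) x hx le_rfl
    rw [le_bot_iff, LinearMap.range_eq_bot, sub_eq_zero] at this
    exact Units.ext this
  · have : ∀ j, ⊤ ≤ ⨆ y ∈ JJ k N ^ j, LinearMap.range y := fun j => by
      induction j with
      | zero =>
        exact le_iSup₂_of_le 1 (by rw [pow_zero]; exact one_le.1 le_rfl)
          (by simp [Module.End.one_eq_id])
      | succ j ih =>
        refine ih.trans (iSup₂_le fun y hy => ?_)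
        rw [LinearMap.range_eq_map, ← e]
        simp only [Cfsg.commutatorSubmodule, Submodule.map_iSup]
        refine iSup₂_le fun x hx => le_iSup₂_of_le _ (mul_mem_mul hy (mem_JJ hx)) ?_
        rw [Module.End.mul_eq_comp, LinearMap.range_comp]
    have := this n
    rw [hu] at this
    simp only [mem_bot, iSup_iSup_eq_left, LinearMap.range_zero] at this
    exact absurd (this mem_top) hm

end CfsgH1
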