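import Cfsg.Agent.H1.QP4

/-! Quadratic elements of minimal rank. -/

set_option autoImplicit false
set_option linter.unusedSectionVars false

namespace CfsgH1

open Polynomial LinearMap Module CfsgH9

universe u

variable {k : Type u} [Field k] {M : Type*} [AddCommGroup M] [Module k M] [FiniteDimensional k M]
  {G : Subgroup (End k M)ˣ} {α β γ δ α' β' x y a b : End k M} {g : (End k M)ˣ}

/-- rank -/
noncomputable def rk (x : End k M) : ℕ := finrank k (range x)

theorem rk_le_of_range (h : range x ≤ range y) : rk x ≤ rk y := Submodule.finrank_mono h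

theorem rk_add_ker (x : End k M) : rk x + finrank k (ker x) = finrank k M :=
  finrank_range_add_finrank_ker x

theorem rk_le_of_ker (h : ker y ≤ ker x) : rk x ≤ rk y := by
  have := Submodule.finrank_mono h
  have := rk_add_ker x
  have := rk_add_ker y
  omega

theorem range_eq_of (h : range x ≤ range y) (e : rk y ≤ rk x) : range x = range y :=
  Submodule.eq_of_le_of_finrank_le h e

theorem ker_eq_of (h : ker y ≤ ker x) (e : rk y ≤ rk x) : ker y = ker x := by
  refine Submodule.eq_of_le_of_finrank_le h ?_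
  have := rk_add_ker x
  have := rk_add_ker y
  omega

theorem mul0_of_range (h : range x ≤ range y) (e : a * y = 0) : a * x = 0 :=
  range_le_ker_iff.1 (h.trans (range_le_ker_iff.2 e))

theorem mul0_of_ker (h : ker y ≤ ker x) (e : y * a = 0) : x * a = 0 :=
  range_le_ker_iff.1 ((range_le_ker_iff.2 e).trans h)

theorem range_mul_le (x y : End k M) : range (x * y) ≤ range x := range_comp_le_range y x

theorem ker_le_mul (x y : End k M) : ker y ≤ ker (x * y) := ker_le_ker_comp y x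

theorem range_le_ker (h : x * y = 0) : range y ≤ ker x := range_le_ker_iff.2 h

theorem rk_mul_add (x y : End k M) : rk (x * y) + finrank k (range y ⊓ ker x : Submodule k M) = rk y := by
  have := finrank_range_add_finrank_ker (x.domRestrict (range y))
  rw [range_domRestrict, ker_domRestrict, ← Submodule.finrank_map_subtype_eq,
    Submodule.map_comap_subtype, ← range_comp] at this
  exact this

theorem rk_eq_zero (h : rk x = 0) : x = 0 := by
  rwa [rk, Submodule.finrank_eq_zero, range_eq_bot] at h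

theorem sq3 (h : α * α = 0) (x : End k M) : α * (α * x) = 0 := by rw [← mul_assoc, h, zero_mul]

/-- quadratic of minimal rank -/
structure Mn (G : Subgroup (End k M)ˣ) (α : End k M) : Prop where
  sq : α * α = 0
  fm : Fm k G α
  ne : α ≠ 0
  min : ∀ β, β * β = 0 → Fm k G β → β ≠ 0 → rk α ≤ rk β

theorem Mn.of_le (h : Mn G α) (b2 : β * β = 0) (f : Fm k G β) (n : β ≠ 0) (e : rk β ≤ rk α) :
    Mn G β := ⟨b2, f, n, fun γ c2 f' n' => e.trans (h.min γ c2 f' n')⟩

theorem Mn.rk_eq (h : Mn G α) (h' : Mn G β) : rk α = rk β :=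
  le_antisymm (h.min _ h'.sq h'.fm h'.ne) (h'.min _ h.sq h.fm h.ne)

theorem Mn.conj (h : Mn G α) (ha : a ∈ Gm G) (hb : b ∈ Gm G) (e : a * b = 1) (e' : b * a = 1) :
    Mn G (a * α * b) := by
  refine h.of_le (conj_sq h.sq e') (h.fm.conj ha hb e) (fun h0 => h.ne ?_)
    ((rk_le_of_range (range_mul_le _ _)).trans (rk_le_of_ker (ker_le_mul _ _)))
  have : b * (a * α * b) * a = α := by
    rw [show b * (a * α * b) * a = b * a * α * (b * a) by noncomm_ring, e']; simp
  rw [← this, h0]; simp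

theorem Mn.conj' (h : Mn G α) (hg : g ∈ G) : Mn G (g * α * (g⁻¹ : (End k M)ˣ)) :=
  h.conj (coe_mem_Gm.2 hg) (coe_mem_Gm.2 (inv_mem hg)) (by simp) (by simp)

theorem Mn.neg (h : Mn G α) : Mn G (-α) :=
  h.of_le (by simpa using h.sq) h.fm.neg (by simpa using h.ne)
    (rk_le_of_range (range_neg α).le)

/-- the space of quadratic elements dominated by `α` -/
def EE (G : Subgroup (End k M)ˣ) (α : End k M) : Submodule k (End k M) where
  carrier := {γ | Fm k G γ ∧ range γ ≤ range α ∧ ker α ≤ ker γ ∧ α * γ = 0}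
  zero_mem' := ⟨Fm.zero, by simp, by simp, by simp⟩
  add_mem' := by
    rintro a b ⟨a1, a2, a3, a4⟩ ⟨b1, b2, b3, b4⟩
    refine ⟨a1.add b1 (mul0_of_ker a3 b4), ?_, fun m hm => ?_, by rw [mul_add, a4, b4, add_zero]⟩
    · rintro _ ⟨m, rfl⟩
      exact add_mem (a2 ⟨m, rfl⟩) (b2 ⟨m, rfl⟩)
    · have := a3 hm
      have := b3 hm
      simp_all
  smul_mem' := by
    rintro c a ⟨a1, a2, a3, a4⟩
    refine ⟨a1.smul c, (range_smul_le_range _ _).trans a2, a3.trans (ker_le_ker_smul _ _), ?_⟩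
    rw [mul_smul_comm, a4, smul_zero]

theorem mem_EE (a2 : α * α = 0) (f : Fm k G γ) (h1 : range γ ≤ range α) (h2 : ker α ≤ ker γ) :
    γ ∈ EE G α := ⟨f, h1, h2, mul0_of_range h1 a2⟩

theorem self_mem_EE (a2 : α * α = 0) (f : Fm k G α) : α ∈ EE G α := mem_EE a2 f le_rfl le_rfl

theorem Mn.self (h : Mn G α) : α ∈ EE G α := self_mem_EE h.sq h.fm

theorem EE_mul (h : γ ∈ EE G α) (h' : δ ∈ EE G α) : γ * δ = 0 := mul0_of_ker h.2.2.1 h'.2.2.2

theorem EE_mul_bot (G : Subgroup (End k M)ˣ) (α : End k M) : EE G α * EE G α = ⊥ :=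
  le_bot_iff.1 (Submodule.mul_le.2 fun _ h _ h' => EE_mul h h')

theorem EE_le (h : γ ∈ EE G α) : EE G γ ≤ EE G α := fun _ h' =>
  ⟨h'.1, h'.2.1.trans h.2.1, h.2.2.1.trans h'.2.2.1, mul0_of_range h'.2.1 h.2.2.2⟩

theorem EE_neg : EE G (-α) = EE G α := by
  ext; simp [EE]

theorem Mn.of_mem (h : Mn G α) (hγ : γ ∈ EE G α) (n : γ ≠ 0) : Mn G γ :=
  h.of_le (EE_mul hγ hγ) hγ.1 n (rk_le_of_range hγ.2.1)

theorem Mn.range_eq (h : Mn G α) (hγ : γ ∈ EE G α) (n : γ ≠ 0) : range γ = range α :=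
  range_eq_of hγ.2.1 (h.rk_eq (h.of_mem hγ n)).le

theorem Mn.ker_eq (h : Mn G α) (hγ : γ ∈ EE G α) (n : γ ≠ 0) : ker γ = ker α :=
  (ker_eq_of hγ.2.2.1 (h.rk_eq (h.of_mem hγ n)).le).symm

theorem Mn.mem_symm (h : Mn G α) (hγ : γ ∈ EE G α) (n : γ ≠ 0) : α ∈ EE G γ :=
  mem_EE (EE_mul hγ hγ) h.fm (h.range_eq hγ n).ge (h.ker_eq hγ n).le

theorem Mn.EE_eq (h : Mn G α) (hγ : γ ∈ EE G α) (n : γ ≠ 0) : EE G γ = EE G α :=
  le_antisymm (EE_le hγ) (EE_le (h.mem_symm hγ n))

theorem EE_conj (h : γ ∈ EE G α) (ha : a ∈ Gm G) (hb : b ∈ Gm G) (e : a * b = 1) (e' : b * a = 1) :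
    a * γ * b ∈ EE G (a * α * b) := by
  have ba : ∀ m, b (a m) = m := fun m => by rw [← End.mul_apply, e']; rfl
  refine ⟨h.1.conj ha hb e, ?_, fun m hm => ?_, ?_⟩
  · rintro _ ⟨m, rfl⟩
    obtain ⟨m', hm'⟩ := h.2.1 ⟨b m, rfl⟩
    exact ⟨a m', by simp [ba, hm']⟩
  · have : α (b m) = 0 := by
      have := congrArg b (mem_ker.1 hm)
      simpa [ba] using this
    simp [mem_ker.1 (h.2.2.1 this)]
  · rw [show a * α * b * (a * γ * b) = a * (α * (b * a) * γ) * b by noncomm_ring, e', mul_one,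
      h.2.2.2]; simp

/-- the unit `1 + γ` -/
def un (γ : End k M) (h : γ * γ = 0) : (End k M)ˣ :=
  ⟨1 + γ, 1 - γ, one_add_mul_one_sub h, one_sub_mul_one_add h⟩

theorem un_val (h : γ * γ = 0) : (un γ h : End k M) = 1 + γ := rfl
theorem un_inv (h : γ * γ = 0) : ((un γ h)⁻¹ : (End k M)ˣ) = 1 - γ := rfl
theorem un_sub (h : γ * γ = 0) : (un γ h : End k M) - 1 = γ := by simp [un_val]

theorem Fm.un_mem (f : Fm k G γ) (h : γ * γ = 0) : un γ h ∈ G := coe_mem_Gm.1 f.one_add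

theorem inv_val (h : ((g : End k M) - 1) * (g - 1) = 0) :
    ((g⁻¹ : (End k M)ˣ) : End k M) = 1 - (g - 1) := by
  rw [show g = un _ h from Units.ext (by simp [un_val])]
  simp [un_inv, un_val]

theorem ne_one_iff : g ≠ 1 ↔ (g : End k M) - 1 ≠ 0 := by
  rw [ne_eq, ne_eq, sub_eq_zero, Units.val_eq_one]

/-- the root subgroup -/
def Eg (G : Subgroup (End k M)ˣ) (α : End k M) : Subgroup (End k M)ˣ :=
  oa (EE G α) (by rw [EE_mul_bot]; exact bot_le)

theorem mem_Eg : g ∈ Eg G α ↔ (g : End k M) - 1 ∈ EE G α := by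
  refine ⟨fun h => h.1, fun h => ⟨h, ?_⟩⟩
  rw [inv_val (EE_mul h h), sub_sub_cancel_left]
  exact neg_mem h

theorem un_mem_Eg (h : γ ∈ EE G α) : un γ (EE_mul h h) ∈ Eg G α := by
  rwa [mem_Eg, un_sub]

theorem Eg_le : Eg G α ≤ G := fun g hg => coe_mem_Gm.1 (by simpa using (mem_Eg.1 hg).1.one_add)

theorem JJ_Eg : JJ k (Eg G α) = EE G α :=
  le_antisymm (JJ_le.2 fun _ => mem_Eg.1) fun γ h => by
    simpa [un_sub] using mem_JJ (k := k) (un_mem_Eg h)

theorem Eg_congr (h : EE G α = EE G β) : Eg G α = Eg G β := by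
  ext; rw [mem_Eg, mem_Eg, h]

theorem commute_of_sub {g h : (End k M)ˣ}
    (e : ((g : End k M) - 1) * (h - 1) = (h - 1) * (g - 1)) : g * h = h * g := by
  apply Units.ext
  rw [Units.val_mul, Units.val_mul]
  calc (g : End k M) * h = (g - 1) * (h - 1) + g + h - 1 := by noncomm_ring
    _ = h * g := by rw [e]; noncomm_ring

theorem Eg_comm : IsMulCommutative (Eg G α) := isComm_of fun _ ha _ hb =>
  commute_of_sub (by rw [EE_mul (mem_Eg.1 ha) (mem_Eg.1 hb), EE_mul (mem_Eg.1 hb) (mem_Eg.1 ha)])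

theorem conj_sub_one (g h : (End k M)ˣ) :
    ((g * h * g⁻¹ : (End k M)ˣ) : End k M) - 1 = g * (h - 1) * (g⁻¹ : (End k M)ˣ) := by
  simp [mul_sub, sub_mul]

theorem cj_Eg (hg : g ∈ G) : cj g (Eg G α) = Eg G (g * α * (g⁻¹ : (End k M)ˣ)) := by
  have : ∀ (g : (End k M)ˣ) (α : End k M), g ∈ G →
      cj g (Eg G α) ≤ Eg G (g * α * (g⁻¹ : (End k M)ˣ)) := by
    rintro g α hg _ ⟨x, hx, rfl⟩
    refine mem_Eg.2 ?_
    rw [show (MulAut.conj g).toMonoidHom x = g * x * g⁻¹ from rfl, conj_sub_one]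
    exact EE_conj (mem_Eg.1 hx) (coe_mem_Gm.2 hg) (coe_mem_Gm.2 (inv_mem hg)) (by simp) (by simp)
  refine le_antisymm (this g α hg) ?_
  rw [← cj_le_cj (g := g⁻¹), cj_inv_cj]
  convert this _ _ (inv_mem hg) using 2
  simp [mul_assoc]

section dich
variable (k2 : (2 : k) ≠ 0) (k3 : Nat.card k ≠ 3)
include k2

theorem Mn.nil_case (h : Mn G α) (n : ℕ) : ∀ β : End k M, β * β = 0 → Fm k G β →
    (α * β + β * α) ^ n * α = 0 → α * β * α = 0 := by
  induction n using Nat.strong_induction_on with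
  | _ n ih =>
  intro β b2 f hn
  rcases n with _ | _ | n
  · exact absurd (by simpa using hn) h.ne
  · rwa [zero_add, pow_one, z_mul_left h.sq] at hn
  have := ih (n + 1) (by omega) ((1 + β) * α * (1 - β)) (conj_sq h.sq (one_sub_mul_one_add b2))
    (h.fm.conj f.one_add f.one_sub (one_add_mul_one_sub b2)) (by
      rw [z_conj h.sq b2, neg_pow, ← pow_two, ← pow_mul, show 2 * (n + 1) = n + (n + 1 + 1) by ring,
        pow_add (α * β + β * α) n, mul_assoc, mul_assoc, hn, mul_zero, mul_zero])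
  rw [← z_mul_left h.sq, z_conj h.sq b2, neg_mul, neg_eq_zero, mul_assoc, z_mul_left h.sq,
    mul_assoc α, ← mul_assoc, z_mul_left h.sq, ← mul_assoc] at this
  by_contra h0
  have e := ker_eq_of (ker_le_mul (α * β) α) (h.min _ (by
    simp only [mul_assoc, sq3 h.sq, mul_zero]) (fam_z k2 h.sq b2 h.fm f this) h0)
  exact h0 (by simpa only [mul_assoc] using
    (mul0_of_ker (a := β * α) e.ge (by simpa only [mul_assoc] using this)))

include k3

theorem Mn.dich (h : Mn G α) (b2 : β * β = 0) (f : Fm k G β) (h0 : α * β * α ≠ 0) :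
    ∃ (v : k[X]) (π : End k M), π = aeval (α * β + β * α) v * (α * β + β * α) ∧ π * π = π ∧
      π * α = α ∧ (∀ t : k[X], Fm k G (aeval (α * β + β * α) t * α)) ∧
      ∀ t : k[X], Fm k G (aeval (α * β + β * α) t * (π * β)) := by
  obtain ⟨e, g, hg, hz⟩ := exists_pow_mul (k := k) (α * β + β * α)
  have f1 := fam_poly k2 k3 h.sq b2 h.fm f hg hz
  have f2 := fam_poly k2 k3 b2 h.sq f h.fm hg (by rwa [add_comm])
  rw [add_comm] at f2
  have c1 := aeval_comm (k := k) (z_comm_left (β := β) h.sq)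
  set z := α * β + β * α with hzd
  have ne : aeval z ((1 : k[X]) * X ^ e) * α ≠ 0 := fun e' =>
    h0 (h.nil_case k2 e β b2 f (by simpa using e'))
  have r := range_eq_of (x := aeval z ((1 : k[X]) * X ^ e) * α) (y := α)
    (by rw [(c1 _).eq]; exact range_mul_le _ _) (h.min _ (by
      rw [mul_assoc, ← mul_assoc α, ← (c1 _).eq, mul_assoc, h.sq, mul_zero, mul_zero]) (f1 1) ne)
  have ga : aeval z g * α = 0 := mul0_of_range r.ge (by
    rw [← mul_assoc, ← map_mul, one_mul, mul_comm g, hz, zero_mul])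
  obtain ⟨u, w, huw⟩ : IsCoprime (X : k[X]) g :=
    (irreducible_X.coprime_iff_not_dvd).2 (by rwa [X_dvd_iff])
  obtain ⟨q, hq⟩ : g ∣ (u * X) ^ (e + 1) - 1 := by
    refine Dvd.dvd.trans ⟨-w, ?_⟩ (sub_one_dvd_pow_sub_one (u * X) (e + 1))
    linear_combination huw
  have e1 : aeval z (u ^ (e + 1) * X ^ e) * z = aeval z ((u * X) ^ (e + 1)) := by
    rw [show (u * X) ^ (e + 1) = u ^ (e + 1) * X ^ e * X by ring, map_mul _ _ X, aeval_X]
  have pa : aeval z ((u * X) ^ (e + 1)) * α = α := by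
    rw [eq_add_of_sub_eq hq, mul_comm g, map_add, map_mul, add_mul, mul_assoc, ga]; simp
  refine ⟨u ^ (e + 1) * X ^ e, _, e1.symm, ?_, pa, fun t => ?_, fun t => ?_⟩
  · rw [← sub_eq_zero, ← map_mul, ← map_sub, ← mul_sub_one, hq,
      show (u * X) ^ (e + 1) * (g * q) = X ^ e * g * (u ^ (e + 1) * X * q) by ring, map_mul, hz,
      zero_mul]
  · convert f1 (t * u ^ (e + 1) * X) using 1
    conv_lhs => rw [← pa, ← mul_assoc, ← map_mul]
    congr 2; ring
  · convert f2 (t * u ^ (e + 1) * X) using 1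
    rw [← mul_assoc, ← map_mul]
    congr 2; ring

end dich

end CfsgH1
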