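import Cfsg.Agent.H1.QP5

/-! Pairs of minimal quadratic elements. -/

set_option autoImplicit false
set_option linter.unusedSectionVars false

namespace CfsgH1

open Polynomial LinearMap Module CfsgH9
open scoped commutatorElement MatrixGroups

universe u

variable {k : Type u} [Field k] {M : Type*} [AddCommGroup M] [Module k M] [FiniteDimensional k M]
  {G : Subgroup (End k M)ˣ} {α β γ δ α' β' α'' x y a b : End k M} {g : (End k M)ˣ}

/-- dimension of the root subgroup -/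
noncomputable def dm (G : Subgroup (End k M)ˣ) (α : End k M) : ℕ := finrank k (EE G α)

theorem finrank_le_of_inj {V : Type*} [AddCommGroup V] [Module k V] [FiniteDimensional k V]
    {S T : Submodule k V} (φ : V →ₗ[k] V) (h : ∀ x ∈ S, φ x ∈ T) (hi : ∀ x ∈ S, φ x = 0 → x = 0) :
    finrank k S ≤ finrank k T ∧ (finrank k T ≤ finrank k S → ∀ y ∈ T, ∃ x ∈ S, φ x = y) := by
  have e : finrank k (S.map φ) = finrank k S := by
    rw [← range_domRestrict]
    exact finrank_range_of_inj ((injective_iff_map_eq_zero _).2 fun x hx => Subtype.ext (hi _ x.2 hx))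
  have l : S.map φ ≤ T := Submodule.map_le_iff_le_comap.2 h
  exact ⟨e ▸ Submodule.finrank_mono l, fun h' y hy =>
    (Submodule.eq_of_le_of_finrank_le l (e ▸ h')).ge hy⟩

theorem dm_conj (ha : a ∈ Gm G) (hb : b ∈ Gm G) (e : a * b = 1) (e' : b * a = 1) :
    dm G (a * α * b) = dm G α := by
  have : ∀ {a b α : End k M}, a ∈ Gm G → b ∈ Gm G → a * b = 1 → b * a = 1 →
      dm G α ≤ dm G (a * α * b) := fun {a b α} ha hb e e' =>
    (finrank_le_of_inj (mulLeftRight k (a, b)) (fun x hx => EE_conj hx ha hb e e') fun x _ h => by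
      have : b * (a * x * b) * a = x := by
        rw [show b * (a * x * b) * a = b * a * x * (b * a) by noncomm_ring, e']; simp
      rw [← this, show a * x * b = 0 from h]; simp).1
  refine le_antisymm ?_ (this ha hb e e')
  have t := this (α := a * α * b) hb ha e' e
  rwa [show b * (a * α * b) * a = b * a * α * (b * a) by noncomm_ring, e', one_mul, mul_one] at t

theorem sl2_rel (a2 : α * α = 0) (b2 : β * β = 0) (e1 : α * β * α = α) (e2 : β * α * β = β) :
    (1 + β) * α * (1 - β) = -((1 + α) * β * (1 - α)) := by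
  rw [mul_assoc] at e1 e2
  simp only [mul_add, add_mul, mul_sub, sub_mul, one_mul, mul_one, mul_assoc, e1, e2]
  abel

theorem mu_of_rel (a2 : α * α = 0) (b2 : β * β = 0) (e1 : α * β * α = α) (e2 : β * α * β = β) :
    MU (fun c : k => c • (α * β + β * α)) α β where
  add := fun s t => add_smul _ _ _
  mul := fun s t => by
    have : (α * β + β * α) * (α * β + β * α) = α * β + β * α := by
      rw [mul_add, ← mul_assoc, ← mul_assoc, z_mul_left a2, z_mul_right b2, e1, e2]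
    simp only [smul_mul_assoc, mul_smul_comm, this, smul_smul, mul_comm]
  one := one_smul _ _
  ca := fun s => by simp only [smul_mul_assoc, mul_smul_comm, (z_comm_left a2).eq]
  cb := fun s => by simp only [smul_mul_assoc, mul_smul_comm, (z_comm_right b2).eq]
  a2 := a2
  b2 := b2
  aba := e1
  bab := e2

theorem range_comm_le (α β : End k M) : range (α * β - β * α) ≤ range (α * β) ⊔ range (β * α) := by
  rintro _ ⟨m, rfl⟩
  exact sub_mem (Submodule.mem_sup_left ⟨m, rfl⟩) (Submodule.mem_sup_right ⟨m, rfl⟩)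

theorem range_mul_le_inf (h : β * α * β = 0) : range (α * β) ≤ range α ⊓ ker β :=
  le_inf (range_mul_le _ _) (range_le_ker (by rwa [← mul_assoc]))

theorem rk_comm_le (h : β * α * β = 0) : rk (α * β - β * α) ≤ rk α := by
  have h1 := rk_mul_add β α
  have h2 := Submodule.finrank_mono (range_comm_le α β)
  have h3 := Submodule.finrank_add_le_finrank_add_finrank (range (α * β)) (range (β * α))
  have h4 := Submodule.finrank_mono (range_mul_le_inf h)
  unfold rk at *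
  omega

variable (k2 : (2 : k) ≠ 0) (k3 : Nat.card k ≠ 3)
include k2 k3

theorem Mn.dichS (h : Mn G α) (h' : Mn G β) (h0 : α * β * α ≠ 0) :
    ∃ v : k[X], aeval (α * β + β * α) v * (α * β + β * α) * α = α ∧
      aeval (α * β + β * α) v * (α * β + β * α) * β = β ∧
      (∀ t : k[X], aeval (α * β + β * α) t * α ∈ EE G α) ∧
      ∀ t : k[X], aeval (α * β + β * α) t * β ∈ EE G β := by
  obtain ⟨v, π, e, pp, pa, f1, f2⟩ := h.dich k2 k3 h'.sq h'.fm h0
  have c1 := aeval_comm (k := k) (z_comm_left (β := β) h.sq)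
  have c2 := aeval_comm (k := k) (z_comm_right (α := α) h'.sq)
  have p1 : Commute π α := e ▸ (c1 v).mul_left (z_comm_left h.sq)
  have p2 : Commute π β := e ▸ (c2 v).mul_left (z_comm_right h'.sq)
  have m : π * β ∈ EE G β := mem_EE h'.sq (by simpa using f2 1)
    (by rw [p2.eq]; exact range_mul_le _ _) (ker_le_mul _ _)
  have ne : π * β ≠ 0 := fun e' => h0 (by
    rw [← pa, p1.eq, mul_assoc α, e']; simp)
  have pb : π * β = β := by
    have := mul0_of_range (a := 1 - π) (h'.range_eq m ne).ge (by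
      rw [sub_mul, one_mul, ← mul_assoc, pp, sub_self])
    rwa [sub_mul, one_mul, sub_eq_zero, eq_comm] at this
  rw [pb] at f2
  exact ⟨v, e ▸ pa, e ▸ pb,
    fun t => mem_EE h.sq (f1 t) (by rw [(c1 t).eq]; exact range_mul_le _ _) (ker_le_mul _ _),
    fun t => mem_EE h'.sq (f2 t) (by rw [(c2 t).eq]; exact range_mul_le _ _) (ker_le_mul _ _)⟩

theorem Mn.partner (h : Mn G α) (h' : Mn G β) (h0 : α * β * α ≠ 0) :
    ∃ β' ∈ EE G β, β' ≠ 0 ∧ α * β' * α = α ∧ β' * α * β' = β' := by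
  obtain ⟨v, pa, pb, -, f⟩ := h.dichS k2 k3 h' h0
  have c1 := aeval_comm (k := k) (z_comm_left (β := β) h.sq) v
  have c2 := aeval_comm (k := k) (z_comm_right (α := α) h'.sq) v
  have e1 : α * (aeval (α * β + β * α) v * β) * α = α := by
    rw [← mul_assoc α, ← c1.eq, mul_assoc _ α, mul_assoc, ← z_mul_left h.sq, ← mul_assoc, pa]
  refine ⟨_, f v, fun e => h.ne (by rw [← e1, e]; simp), e1, ?_⟩
  rw [mul_assoc, mul_assoc, ← mul_assoc α, ← c1.eq, mul_assoc _ α, ← mul_assoc β, ← c2.eq,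
    mul_assoc _ β, ← mul_assoc β, ← z_mul_right h'.sq, ← mul_assoc _ _ β, pb]

theorem Mn.ts_of_mem (h : Mn G α) (h' : Mn G β) (h0 : α * β * α ≠ 0) (ha : α' ∈ EE G α)
    (a0 : α' ≠ 0) (hb : β' ∈ EE G β) (b0 : β' ≠ 0) : α' * β' * α' ≠ 0 := by
  intro e
  obtain ⟨b, mb, n, e1, -⟩ := h.partner k2 k3 h' h0
  have e2 : α * (β' * α) = 0 := mul0_of_ker (h.ker_eq ha a0).le
    (by rw [← mul_assoc]; exact mul0_of_range (h.range_eq ha a0).ge e)
  have kk : ker (β' * α) ≤ ker α := fun m hm => by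
    have : b (α m) = 0 := mb.2.2.1 ((h'.ker_eq hb b0).le hm)
    rw [mem_ker, ← e1]; simp [this]
  have r := range_eq_of (range_mul_le β' α) (((h'.of_mem hb b0).rk_eq h).trans_le (rk_le_of_ker kk))
  have e3 := mul0_of_range (mb.2.1.trans ((h'.range_eq hb b0).ge.trans r.ge)) e2
  exact h.ne (by rw [← e1, e3, zero_mul])

theorem Mn.ts_symm (h : Mn G α) (h' : Mn G β) (h0 : α * β * α ≠ 0) : β * α * β ≠ 0 := by
  obtain ⟨b, mb, n, -, e⟩ := h.partner k2 k3 h' h0
  exact (h'.of_mem mb n).ts_of_mem k2 k3 h (by rwa [e]) (h'.mem_symm mb n) h'.ne h.self h.ne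

theorem Mn.tu_symm (h : Mn G α) (h' : Mn G β) (h0 : α * β * α = 0) : β * α * β = 0 := by
  by_contra e; exact h'.ts_symm k2 k3 h e h0

theorem Mn.tu_of_mem (h : Mn G α) (h' : Mn G β) (h0 : α * β * α = 0) (ha : α' ∈ EE G α)
    (hb : β' ∈ EE G β) (ha' : α'' ∈ EE G α) : α' * β' * α'' = 0 := by
  by_cases b0 : β' = 0
  · simp [b0]
  have : α * β' * α = 0 := by
    by_contra e
    exact h.ts_of_mem k2 k3 (h'.of_mem hb b0) e h.self h.ne (h'.mem_symm hb b0) h'.ne h0
  rw [mul_assoc]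
  exact mul0_of_ker ha.2.2.1 (by rw [← mul_assoc]; exact mul0_of_range ha'.2.1 this)

theorem Mn.exists_mt (h : Mn G α) (h' : Mn G β) (h0 : α * β * α ≠ 0) {a : (End k M)ˣ}
    (ha : a ∈ Eg G α) (a1 : a ≠ 1) :
    ∃ b, b ≠ 1 ∧ Mt (Eg G α) (Eg G β) a b ∧ b * a * b⁻¹ = a * b⁻¹ * a⁻¹ := by
  have m := mem_Eg.1 ha
  have n := ne_one_iff.1 a1
  obtain ⟨b, mb, nb, e1, e2⟩ := (h.of_mem m n).partner k2 k3 h'
    (h.ts_of_mem k2 k3 h' h0 m n h'.self h'.ne)
  have r := sl2_rel (EE_mul m m) (EE_mul mb mb) e1 e2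
  rw [add_sub_cancel, ← inv_val (EE_mul m m)] at r
  refine ⟨un b (EE_mul mb mb), ne_one_iff.2 (by rwa [un_sub]), ⟨ha, un_mem_Eg mb, ?_⟩, ?_⟩
  · rw [← Eg_congr (h.EE_eq m n), ← Eg_congr (h'.EE_eq mb nb), cj_Eg (mb.1.un_mem _),
      cj_Eg (Eg_le ha), un_val, un_inv, r]
    exact Eg_congr EE_neg
  · apply Units.ext
    rw [← sub_left_inj (a := (1 : End k M)), conj_sub_one, conj_sub_one, un_val, un_inv, r]
    simp

theorem Mn.rp (h : Mn G α) (h' : Mn G β) (h0 : α * β * α ≠ 0) : RP (Eg G α) (Eg G β) := by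
  refine RP.of (fun e => h0 ?_) (nilp_of_comm Eg_comm) (nilp_of_comm Eg_comm) (fun a ha a1 => ?_)
    fun a ha a1 => ?_
  · have := mem_Eg.1 (e ▸ un_mem_Eg h'.self)
    rw [un_sub] at this
    rw [this.2.2.2, zero_mul]
  · obtain ⟨b, b1, m, -⟩ := h.exists_mt k2 k3 h' h0 ha a1
    exact ⟨b, m.2.1, b1, m.2.2⟩
  · obtain ⟨b, b1, m, -⟩ := h'.exists_mt k2 k3 h (h.ts_symm k2 k3 h' h0) ha a1
    exact ⟨b, m.2.1, b1, m.2.2.symm⟩

theorem Mn.sp (h : Mn G α) (h' : Mn G β) (h0 : α * β * α ≠ 0) : Sp (Eg G α) (Eg G β) := by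
  have r := h.rp k2 k3 h' h0
  refine r.sp_of_rel fun a b m => ?_
  obtain ⟨b', -, m', e⟩ := h.exists_mt k2 k3 h' h0 m.1 (r.ne1 m)
  rwa [r.uniq m m']

theorem Mn.dm_ts (h : Mn G α) (h' : Mn G β) (h0 : α * β * α ≠ 0) : dm G α = dm G β := by
  obtain ⟨b, mb, nb, e1, e2⟩ := h.partner k2 k3 h' h0
  have b2 := EE_mul mb mb
  rw [← dm_conj mb.1.one_add mb.1.one_sub (one_add_mul_one_sub b2) (one_sub_mul_one_add b2),
    sl2_rel h.sq b2 e1 e2, dm, EE_neg, ← dm, dm_conj h.fm.one_add h.fm.one_sub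
      (one_add_mul_one_sub h.sq) (one_sub_mul_one_add h.sq), dm, h'.EE_eq mb nb, dm]

theorem three_lt_card : 3 < ENat.card k := by
  cases finite_or_infinite k
  · haveI := Fintype.ofFinite k
    have := five_le_card k2 k3
    rw [ENat.card_eq_coe_fintype_card]
    exact_mod_cast (by omega : 3 < Fintype.card k)
  · rw [ENat.card_eq_top_of_infinite]; exact ENat.coe_lt_top 3

theorem Mn.exists_hom (h : Mn G α) (h' : Mn G β) (h0 : α * β * α ≠ 0) :
    ∃ φ : SL(2, k) →* (End k M)ˣ, Function.Injective φ ∧ (φ (sU 1) : End k M) = 1 + α ∧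
      (Cfsg.upperUnipotentSL2 k).map φ ≤ Eg G α ∧ (Cfsg.lowerUnipotentSL2 k).map φ ≤ Eg G β := by
  obtain ⟨b, mb, nb, e1, e2⟩ := h.partner k2 k3 h' h0
  have mu := mu_of_rel h.sq (EE_mul mb mb) e1 e2
  have pa := mu.pa
  have pb := mu.pb
  simp only [one_smul] at pa pb
  refine ⟨mu.hom, mu.hom_inj fun s hs => ?_, ?_, ?_, ?_⟩
  · rw [smul_mul_assoc, pa] at hs
    exact (smul_eq_zero.1 hs).resolve_right h.ne
  · exact (mu.hom_U 1).trans (by rw [mu.pa])
  · rintro _ ⟨x, hx, rfl⟩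
    obtain ⟨t, rfl⟩ := mem_upper.1 hx
    rw [mem_Eg, show sU t = rU t from rfl, mu.hom_U, add_sub_cancel_left, smul_mul_assoc, pa]
    exact Submodule.smul_mem _ _ h.self
  · rintro _ ⟨x, hx, rfl⟩
    obtain ⟨t, rfl⟩ := mem_lower.1 hx
    rw [mem_Eg, show sL t = rL t from rfl, mu.hom_L, add_sub_cancel_left, smul_mul_assoc, pb]
    exact Submodule.smul_mem _ _ mb

theorem Mn.psl2 (h : Mn G α) (h' : Mn G β) (h0 : α * β * α ≠ 0) :
    ∃ A₀ B₀ : Subgroup (End k M)ˣ, A₀ ≤ Eg G α ∧ B₀ ≤ Eg G β ∧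
      ∃ (k₁ : Type u) (_ : Field k₁), 3 < ENat.card k₁ ∧ Cfsg.IsPSL2PairOver k₁ A₀ B₀ := by
  obtain ⟨φ, i, -, h1, h2⟩ := h.exists_hom k2 k3 h' h0
  refine ⟨_, _, h1, h2, k, inferInstance, three_lt_card k2 k3, φ, ?_, ?_, rfl, rfl⟩
  · rw [← Subgroup.map_sup, upper_sup_lower, MonoidHom.range_eq_map]
  · rw [(MonoidHom.ker_eq_bot_iff φ).2 i]; exact bot_le

theorem Mn.le_comm (h : Mn G α) (h' : Mn G β) (h0 : α * β * α ≠ 0) :
    Eg G α ≤ ⁅Eg G α ⊔ Eg G β, Eg G α ⊔ Eg G β⁆ := by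
  intro a ha
  by_cases a1 : a = 1
  · rw [a1]; exact one_mem _
  have m := mem_Eg.1 ha
  have n := ne_one_iff.1 a1
  obtain ⟨φ, -, e, h1, h2⟩ := (h.of_mem m n).exists_hom k2 k3 h'
    (h.ts_of_mem k2 k3 h' h0 m n h'.self h'.ne)
  rw [Eg_congr (h.EE_eq m n)] at h1
  have : a = φ (sU 1) := Units.ext (by rw [e]; simp)
  have l : (⊤ : Subgroup SL(2, k)).map φ ≤ Eg G α ⊔ Eg G β := by
    rw [← upper_sup_lower, Subgroup.map_sup]; exact sup_le_sup h1 h2
  refine Subgroup.commutator_mono l l ?_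
  rw [← Subgroup.map_commutator, this]
  exact ⟨_, (mem_comm_of_all (H := ⊤) k2 k3 (fun _ => trivial) (fun _ => trivial) (1 : k)).1, rfl⟩

theorem Mn.perfect (h : Mn G α) (h' : Mn G β) (h0 : α * β * α ≠ 0) :
    ⁅Eg G α ⊔ Eg G β, Eg G α ⊔ Eg G β⁆ = Eg G α ⊔ Eg G β :=
  le_antisymm (Subgroup.commutator_le_self _) (sup_le (h.le_comm k2 k3 h' h0)
    (by simpa only [sup_comm] using h'.le_comm k2 k3 h (h.ts_symm k2 k3 h' h0)))

theorem Mn.up (h : Mn G α) (h' : Mn G β) (h0 : α * β * α = 0) : Up k (Eg G α ⊔ Eg G β) := by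
  have aba : EE G α * EE G β * EE G α = ⊥ := by
    rw [eq_bot_iff, Submodule.mul_le]
    intro x hx y hy
    refine Submodule.mul_induction_on hx (fun a ha b hb => h.tu_of_mem k2 k3 h' h0 ha hb hy)
      fun x x' e e' => ?_
    rw [add_mul]; exact add_mem e e'
  have bab : EE G β * EE G α * EE G β = ⊥ := by
    rw [eq_bot_iff, Submodule.mul_le]
    intro x hx y hy
    refine Submodule.mul_induction_on hx
      (fun a ha b hb => h'.tu_of_mem k2 k3 h (h.tu_symm k2 k3 h' h0) ha hb hy) fun x x' e e' => ?_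
    rw [add_mul]; exact add_mem e e'
  have aa := EE_mul_bot G α
  have bb := EE_mul_bot G β
  set A := EE G α
  set B := EE G β
  have s3 : (A ⊔ B) * ((A ⊔ B) * (A ⊔ B)) = ⊥ := by
    have a3 : ∀ X, A * (A * X) = ⊥ := fun X => by rw [← mul_assoc, aa, Submodule.bot_mul]
    have b3 : ∀ X, B * (B * X) = ⊥ := fun X => by rw [← mul_assoc, bb, Submodule.bot_mul]
    rw [mul_assoc] at aba bab
    simp only [Submodule.mul_sup, Submodule.sup_mul, aa, bb, a3, b3, aba, bab, Submodule.mul_bot,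
      sup_bot_eq]
  set S := A ⊔ B
  have s4 : ∀ X, S * (S * (S * X)) = ⊥ := fun X => by
    rw [← mul_assoc S S X, ← mul_assoc S (S * S), s3, Submodule.bot_mul]
  refine up_of_le (T := S ⊔ S * S) (n := 3) (JJ_sup_le ?_ (JJ_Eg.trans_le (le_sup_of_le_left le_sup_left))
    (JJ_Eg.trans_le (le_sup_of_le_left le_sup_right))) ?_
  · simp only [Submodule.mul_sup, Submodule.sup_mul, mul_assoc, s3, s4, sup_bot_eq, le_sup_right,
      Submodule.mul_bot]
  · simp only [pow_succ, pow_zero, one_mul, Submodule.mul_sup, Submodule.sup_mul, mul_assoc, s3, s4,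
      sup_bot_eq, Submodule.mul_bot, Submodule.bot_mul]

end CfsgH1
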