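import Cfsg.Agent.H1.QP6

/-! Unipotent pairs of minimal quadratic elements. -/

set_option autoImplicit false
set_option linter.unusedSectionVars false

namespace CfsgH1

open Polynomial LinearMap Module CfsgH9
open scoped commutatorElement MatrixGroups

universe u

variable {k : Type u} [Field k] {M : Type*} [AddCommGroup M] [Module k M] [FiniteDimensional k M]
  {G : Subgroup (End k M)ˣ} {α β γ δ α' β' α'' x y : End k M} {a b c g : (End k M)ˣ}

theorem comm_val (a2 : ((a : End k M) - 1) * (a - 1) = 0) (b2 : ((b : End k M) - 1) * (b - 1) = 0)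
    (e1 : ((a : End k M) - 1) * (b - 1) * (a - 1) = 0)
    (e2 : ((b : End k M) - 1) * (a - 1) * (b - 1) = 0) :
    ((⁅a, b⁆ : (End k M)ˣ) : End k M) - 1 = (a - 1) * (b - 1) - (b - 1) * (a - 1) := by
  rw [commutatorElement_def, Units.val_mul, Units.val_mul, Units.val_mul, inv_val a2, inv_val b2]
  obtain ⟨α, ha⟩ : ∃ α, (a : End k M) = 1 + α := ⟨a - 1, by simp⟩
  obtain ⟨β, hb⟩ : ∃ β, (b : End k M) = 1 + β := ⟨b - 1, by simp⟩
  simp only [ha, hb, add_sub_cancel_left] at a2 b2 e1 e2 ⊢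
  have e3 : ∀ x, α * (β * (α * x)) = 0 := fun x => by rw [← mul_assoc, ← mul_assoc, e1, zero_mul]
  rw [mul_assoc] at e1 e2
  simp only [mul_add, add_mul, mul_sub, sub_mul, one_mul, mul_one, mul_assoc, a2, b2, sq3 a2, e1,
    e2, e3, mul_zero, zero_mul]
  abel

theorem fixed_Eg (a2 : α * α = 0) (f : Fm k G α) : Cfsg.fixedSubmodule (Eg G α) = ker α := by
  refine le_antisymm (iInf₂_le_of_le _ (un_mem_Eg (self_mem_EE a2 f)) (by rw [un_sub]))
    (le_iInf₂ fun g hg => (mem_Eg.1 hg).2.2.1)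

theorem comm_Eg (a2 : α * α = 0) (f : Fm k G α) : Cfsg.commutatorSubmodule (Eg G α) = range α := by
  refine le_antisymm (iSup₂_le fun g hg => (mem_Eg.1 hg).2.1)
    (le_iSup₂_of_le _ (un_mem_Eg (self_mem_EE a2 f)) (by rw [un_sub]))

theorem Mn.Eg_ne (h : Mn G α) : Eg G α ≠ ⊥ := fun e => h.ne (by
  have := un_mem_Eg h.self
  rw [e, Subgroup.mem_bot] at this
  rw [← un_sub (EE_mul h.self h.self), this]; simp)

/-- the set of root subgroups -/
def Sg (G : Subgroup (End k M)ˣ) : Set (Subgroup (End k M)ˣ) := {A | ∃ α, Mn G α ∧ A = Eg G α}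

theorem Mn.mem_Sg (h : Mn G α) : Eg G α ∈ Sg G := ⟨α, h, rfl⟩

/-- the algebra of the unipotent radical -/
def UU (γ : End k M) : Submodule k (End k M) where
  carrier := {x | γ * x = 0 ∧ x * γ = 0 ∧ ∀ m ∈ ker γ, x m ∈ range γ}
  zero_mem' := ⟨mul_zero _, zero_mul _, fun _ _ => zero_mem _⟩
  add_mem' := by
    rintro a b ⟨a1, a2, a3⟩ ⟨b1, b2, b3⟩
    exact ⟨by rw [mul_add, a1, b1, add_zero], by rw [add_mul, a2, b2, add_zero],
      fun m hm => add_mem (a3 m hm) (b3 m hm)⟩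
  smul_mem' := by
    rintro c a ⟨a1, a2, a3⟩
    exact ⟨by rw [mul_smul_comm, a1, smul_zero], by rw [smul_mul_assoc, a2, smul_zero],
      fun m hm => Submodule.smul_mem _ c (a3 m hm)⟩

theorem UU_mul (γ : End k M) : UU γ * UU γ ≤ UU γ := by
  rw [Submodule.mul_le]
  rintro a ⟨a1, a2, a3⟩ b ⟨b1, b2, b3⟩
  refine ⟨by rw [← mul_assoc, a1, zero_mul], by rw [mul_assoc, b2, mul_zero], fun m hm => ?_⟩
  rw [End.mul_apply, mem_ker.1 (range_le_ker a2 (b3 m hm))]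
  exact zero_mem _

theorem UU_neg : UU (-γ) = UU γ := by ext; simp [UU]

theorem Mn.ex_partner_aux (h : Mn G α) (hg : g ∈ G) (e : ∀ β, Mn G β → α * β * α = 0) (hβ : Mn G β) :
    g * α * (g⁻¹ : (End k M)ˣ) * β * (g * α * (g⁻¹ : (End k M)ˣ)) = 0 := by
  have := e _ (hβ.conj' (inv_mem hg))
  rw [inv_inv] at this
  rw [show g * α * (g⁻¹ : (End k M)ˣ) * β * (g * α * (g⁻¹ : (End k M)ˣ)) =
    g * (α * ((g⁻¹ : (End k M)ˣ) * β * g) * α) * (g⁻¹ : (End k M)ˣ) by noncomm_ring, this]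
  simp

variable (k2 : (2 : k) ≠ 0) (k3 : Nat.card k ≠ 3)
include k2 k3

theorem Mn.tu_struct (h : Mn G α) (h' : Mn G β) (h0 : α * β * α = 0) (n : α * β - β * α ≠ 0) :
    Mn G (α * β - β * α) ∧ range (α * β - β * α) = (range α ⊓ ker β) ⊔ (range β ⊓ ker α) ∧
      ker (α * β - β * α) = (ker β ⊔ range α) ⊓ (ker α ⊔ range β) ∧
      (range α ⊓ ker β) ⊓ (range β ⊓ ker α) = ⊥ ∧
      finrank k (range α ⊓ ker β : Submodule k M) + finrank k (range β ⊓ ker α : Submodule k M) =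
        rk α := by
  have h1 := h.tu_symm k2 k3 h' h0
  have sq : (α * β - β * α) * (α * β - β * α) = 0 := by
    have e3 : ∀ x, α * (β * (α * x)) = 0 := fun x => by rw [← mul_assoc, ← mul_assoc, h0, zero_mul]
    have e4 : ∀ x, β * (α * (β * x)) = 0 := fun x => by rw [← mul_assoc, ← mul_assoc, h1, zero_mul]
    simp only [mul_sub, sub_mul, mul_assoc, e3, e4, sq3 h.sq, sq3 h'.sq, mul_zero, sub_self]
  have fm := h.fm.comm h'.fm h.sq h'.sq h0 h1
  have m := h.of_le sq fm n (rk_comm_le h1)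
  have d1 := rk_mul_add α β
  have d2 := rk_mul_add β α
  have d3 := h.rk_eq h'
  have d4 := h.rk_eq m
  have l1 := range_mul_le_inf h1
  have l2 := range_mul_le_inf h0
  have d5 := Submodule.finrank_mono l1
  have d6 := Submodule.finrank_mono l2
  have d7 := Submodule.finrank_mono (range_comm_le α β)
  have d8 := Submodule.finrank_sup_add_finrank_inf_eq (range (α * β)) (range (β * α))
  unfold rk at *
  have r1 := Submodule.eq_of_le_of_finrank_le l1 (by omega)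
  have r2 := Submodule.eq_of_le_of_finrank_le l2 (by omega)
  have r3 := Submodule.eq_of_le_of_finrank_le (range_comm_le α β) (by omega)
  have r4 : range (α * β) ⊓ range (β * α) = ⊥ := Submodule.finrank_eq_zero.1 (by omega)
  have kk : ∀ {α β : End k M}, α * β * α = 0 → finrank k (range α) = finrank k (range β) →
      finrank k (range (α * β)) = finrank k (range α ⊓ ker β : Submodule k M) →
      ker β ⊔ range α = ker (α * β) := fun {α β} e e1 e2 => by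
    refine Submodule.eq_of_le_of_finrank_le (sup_le (ker_le_mul _ _) (range_le_ker e)) ?_
    have := Submodule.finrank_sup_add_finrank_inf_eq (ker β) (range α)
    rw [inf_comm] at this
    have := rk_add_ker β
    have := rk_add_ker (α * β)
    unfold rk at *
    omega
  refine ⟨m, by rw [r3, r1, r2], ?_, by rw [← r1, ← r2, r4], by omega⟩
  rw [kk h0 d3 (by rw [r1]), kk h1 d3.symm (by rw [r2])]
  refine le_antisymm (fun v hv => ?_) fun v hv => ?_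
  · have e : (α * β) v = (β * α) v := sub_eq_zero.1 hv
    have : (α * β) v ∈ range (α * β) ⊓ range (β * α) := ⟨⟨v, rfl⟩, ⟨v, e.symm⟩⟩
    rw [r4, Submodule.mem_bot] at this
    exact ⟨this, e.symm.trans this⟩
  · rw [mem_ker, LinearMap.sub_apply, mem_ker.1 hv.1, mem_ker.1 hv.2, sub_zero]

theorem Mn.tu_ne (h : Mn G α) (h' : Mn G β) (h0 : α * β * α = 0) (n : α * β - β * α ≠ 0)
    (ha : α' ∈ EE G α) (a0 : α' ≠ 0) (hb : β' ∈ EE G β) (b0 : β' ≠ 0) : α' * β' - β' * α' ≠ 0 := by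
  obtain ⟨-, -, -, i, d⟩ := h.tu_struct k2 k3 h' h0 n
  intro e
  rw [sub_eq_zero] at e
  have l1 := range_mul_le_inf (h'.tu_of_mem k2 k3 h (h.tu_symm k2 k3 h' h0) hb ha hb)
  have l2 := range_mul_le_inf (h.tu_of_mem k2 k3 h' h0 ha hb ha)
  have d1 := rk_mul_add α' β'
  have d2 := rk_mul_add β' α'
  have d3 := h.rk_eq (h.of_mem ha a0)
  have d4 := h.rk_eq (h'.of_mem hb b0)
  rw [h.range_eq ha a0, h'.ker_eq hb b0] at l1 d2
  rw [h'.range_eq hb b0, h.ker_eq ha a0] at l2 d1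
  have z : range (α' * β') = ⊥ := le_bot_iff.1 (i ▸ le_inf l1 (e ▸ l2))
  have z1 : rk (α' * β') = 0 := by rw [rk, z, finrank_bot]
  rw [← e] at d2
  exact h.ne (rk_eq_zero (by omega))

theorem Mn.comm_mem (h : Mn G α) (h' : Mn G β) (h0 : α * β * α = 0) (n : α * β - β * α ≠ 0)
    (ha : α' ∈ EE G α) (hb : β' ∈ EE G β) : α' * β' - β' * α' ∈ EE G (α * β - β * α) := by
  by_cases a0 : α' = 0
  · simp [a0]
  by_cases b0 : β' = 0
  · simp [b0]
  obtain ⟨m, r, kk, -⟩ := h.tu_struct k2 k3 h' h0 n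
  obtain ⟨m', r', kk', -⟩ := (h.of_mem ha a0).tu_struct k2 k3 (h'.of_mem hb b0)
    (h.tu_of_mem k2 k3 h' h0 ha hb ha) (h.tu_ne k2 k3 h' h0 n ha a0 hb b0)
  rw [h.range_eq ha a0, h'.ker_eq hb b0, h'.range_eq hb b0, h.ker_eq ha a0] at r' kk'
  exact mem_EE m.sq m'.fm (r'.trans r.symm).le (kk.trans kk'.symm).le

theorem Mn.mem_UU (h : Mn G α) (h' : Mn G β) (h0 : α * β * α = 0) (n : α * β - β * α ≠ 0)
    (ha : α' ∈ EE G α) : α' ∈ UU (α * β - β * α) := by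
  obtain ⟨m, r, kk, -⟩ := h.tu_struct k2 k3 h' h0 n
  have h1 := h.tu_symm k2 k3 h' h0
  refine ⟨?_, ?_, fun v hv => ?_⟩
  · rw [sub_mul, h.tu_of_mem k2 k3 h' h0 h.self h'.self ha, mul_assoc, EE_mul h.self ha]; simp
  · rw [mul_sub, ← mul_assoc, ← mul_assoc, h.tu_of_mem k2 k3 h' h0 ha h'.self h.self,
      EE_mul ha h.self]; simp
  · rw [kk] at hv
    obtain ⟨v1, hv1, _, ⟨v2, rfl⟩, rfl⟩ := Submodule.mem_sup.1 hv.2
    rw [map_add, mem_ker.1 (ha.2.2.1 hv1), zero_add, r]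
    refine Submodule.mem_sup_left ⟨ha.2.1 ⟨_, rfl⟩, ?_⟩
    exact range_le_ker (x := β * α') (h'.tu_of_mem k2 k3 h h1 h'.self ha h'.self) ⟨v2, rfl⟩

theorem Mn.mem_UU' (h : Mn G α) (h' : Mn G β) (h0 : α * β * α = 0) (n : α * β - β * α ≠ 0)
    (hb : β' ∈ EE G β) : β' ∈ UU (α * β - β * α) := by
  rw [← UU_neg, neg_sub]
  exact h'.mem_UU k2 k3 h (h.tu_symm k2 k3 h' h0) (by rw [← neg_sub]; exact neg_ne_zero.2 n) hb

theorem Mn.dm_tu (h : Mn G α) (h' : Mn G β) (h0 : α * β * α = 0) (n : α * β - β * α ≠ 0) :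
    dm G β ≤ dm G (α * β - β * α) ∧ (dm G (α * β - β * α) ≤ dm G β →
      ∀ y ∈ EE G (α * β - β * α), ∃ x ∈ EE G β, α * x - x * α = y) :=
  finrank_le_of_inj (mulLeft k α - mulRight k α)
    (fun _ hx => h.comm_mem k2 k3 h' h0 n h.self hx) fun x hx e => by
      by_contra x0
      exact h.tu_ne k2 k3 h' h0 n h.self h.ne hx x0 e

theorem Mn.ex_partner (hG : NU k G) (h : Mn G α) : ∃ β, Mn G β ∧ α * β * α ≠ 0 := by
  by_contra hc
  push Not at hc
  refine h.Eg_ne (hG.of_family (W := {A | ∃ α, Mn G α ∧ (∀ β, Mn G β → α * β * α = 0) ∧ A = Eg G α})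
    ?_ ?_ ?_ ⟨α, h, hc, rfl⟩)
  · rintro _ ⟨α, -, -, rfl⟩; exact Eg_le
  · rintro _ ⟨α, h, e, rfl⟩ _ ⟨β, h', -, rfl⟩
    exact h.up k2 k3 h' (e β h')
  · rintro _ ⟨α, h, e, rfl⟩ g hg
    exact ⟨_, h.conj' hg, fun β hβ => h.ex_partner_aux hg e hβ, cj_Eg hg⟩

theorem Mn.dm_tu' (hG : NU k G) (h : Mn G α) (h' : Mn G β) (h0 : α * β * α = 0)
    (n : α * β - β * α ≠ 0) : dm G (α * β - β * α) ≤ dm G α := by
  have m := (h.tu_struct k2 k3 h' h0 n).1
  have u := h.mem_UU k2 k3 h' h0 n h.self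
  generalize α * β - β * α = γ at *
  obtain ⟨δ0, d0, e0⟩ := m.ex_partner k2 k3 hG
  obtain ⟨δ, md, nd, e1, e2⟩ := m.partner k2 k3 d0 e0
  have d := d0.of_mem md nd
  rw [m.dm_ts k2 k3 d (by rw [e1]; exact m.ne)]
  by_cases t : α * δ * α = 0
  swap
  · exact (h.dm_ts k2 k3 d t).ge
  have t' := h.tu_symm k2 k3 d t
  have rho : (1 - γ * δ) * α * (1 - δ * γ) = 0 := by
    ext v
    have : (1 - δ * γ) v ∈ ker γ := range_le_ker (by rw [mul_sub, mul_one, ← mul_assoc, e1, sub_self])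
      ⟨v, rfl⟩
    exact range_le_ker (x := 1 - γ * δ) (by rw [sub_mul, one_mul, e1, sub_self]) (u.2.2 _ this)
  have key : (1 + γ) * ((1 - δ) * α * (1 + δ)) * (1 - γ) = α * δ - δ * α := by
    rw [← sub_eq_zero, ← rho]
    have ga := u.1
    have ag := u.2.1
    have ga3 : ∀ x, γ * (α * x) = 0 := fun x => by rw [← mul_assoc, ga, zero_mul]
    have t3 : ∀ x, δ * (α * (δ * x)) = 0 := fun x => by rw [← mul_assoc, ← mul_assoc, t', zero_mul]
    rw [mul_assoc] at t'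
    simp only [mul_add, add_mul, mul_sub, sub_mul, one_mul, mul_one, mul_assoc, ga, ag, ga3, t3, t',
      mul_zero, zero_mul]
    abel
  have c1 := one_add_mul_one_sub m.sq
  have c2 := one_sub_mul_one_add m.sq
  have c3 := one_add_mul_one_sub d.sq
  have c4 := one_sub_mul_one_add d.sq
  have n' := ((h.conj d.fm.one_sub d.fm.one_add c4 c3).conj m.fm.one_add m.fm.one_sub c1 c2).ne
  rw [← dm_conj (α := α) d.fm.one_sub d.fm.one_add c4 c3, 
    ← dm_conj (α := (1 - δ) * α * (1 + δ)) m.fm.one_add m.fm.one_sub c1 c2, key]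
  exact (h.dm_tu k2 k3 d t (key ▸ n')).1

theorem Mn.tu_surj (hG : NU k G) (h : Mn G α) (h' : Mn G β) (h0 : α * β * α = 0)
    (n : α * β - β * α ≠ 0) (hy : y ∈ EE G (α * β - β * α)) : ∃ x ∈ EE G β, α * x - x * α = y := by
  refine (h.dm_tu k2 k3 h' h0 n).2 ?_ y hy
  have := h'.dm_tu' k2 k3 hG h (h.tu_symm k2 k3 h' h0) (by rw [← neg_sub]; exact neg_ne_zero.2 n)
  rwa [← neg_sub, dm, EE_neg] at this

theorem Mn.comm_val (h : Mn G α) (h' : Mn G β) (h0 : α * β * α = 0) (ha : a ∈ Eg G α)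
    (hb : b ∈ Eg G β) :
    ((⁅a, b⁆ : (End k M)ˣ) : End k M) - 1 = (a - 1) * (b - 1) - (b - 1) * (a - 1) := by
  have ma := mem_Eg.1 ha
  have mb := mem_Eg.1 hb
  exact CfsgH1.comm_val (EE_mul ma ma) (EE_mul mb mb) (h.tu_of_mem k2 k3 h' h0 ma mb ma)
    (h'.tu_of_mem k2 k3 h (h.tu_symm k2 k3 h' h0) mb ma mb)

theorem Mn.surjR (hG : NU k G) (h : Mn G α) (h' : Mn G β) (h0 : α * β * α = 0)
    (n : α * β - β * α ≠ 0) (ha : a ∈ Eg G α) (a1 : a ≠ 1) (hc : c ∈ Eg G (α * β - β * α)) :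
    ∃ b ∈ Eg G β, ⁅a, b⁆ = c := by
  have ma := mem_Eg.1 ha
  have na := ne_one_iff.1 a1
  have n' := h.tu_ne k2 k3 h' h0 n ma na h'.self h'.ne
  rw [mem_Eg, ← (h.tu_struct k2 k3 h' h0 n).1.EE_eq (h.comm_mem k2 k3 h' h0 n ma h'.self) n'] at hc
  obtain ⟨x, hx, e⟩ := (h.of_mem ma na).tu_surj k2 k3 hG h'
    (h.tu_of_mem k2 k3 h' h0 ma h'.self ma) n' hc
  refine ⟨_, un_mem_Eg hx, Units.ext ?_⟩
  rw [← sub_left_inj (a := (1 : End k M)), h.comm_val k2 k3 h' h0 ha (un_mem_Eg hx), un_sub, e]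

theorem Mn.comm_eq (hG : NU k G) (h : Mn G α) (h' : Mn G β) (h0 : α * β * α = 0)
    (n : α * β - β * α ≠ 0) : ⁅Eg G α, Eg G β⁆ = Eg G (α * β - β * α) := by
  refine le_antisymm (Subgroup.commutator_le.2 fun a ha b hb => ?_) fun c hc => ?_
  · rw [mem_Eg, h.comm_val k2 k3 h' h0 ha hb]
    exact h.comm_mem k2 k3 h' h0 n (mem_Eg.1 ha) (mem_Eg.1 hb)
  · obtain ⟨b, hb, rfl⟩ := h.surjR k2 k3 hG h' h0 n (un_mem_Eg h.self)
      (ne_one_iff.2 (by rw [un_sub]; exact h.ne)) hc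
    exact Subgroup.commutator_mem_commutator (un_mem_Eg h.self) hb

theorem Mn.JJ_le_UU (h : Mn G α) (h' : Mn G β) (h0 : α * β * α = 0) (n : α * β - β * α ≠ 0) :
    JJ k (Eg G α ⊔ Eg G β) ≤ UU (α * β - β * α) :=
  JJ_sup_le (UU_mul _) (JJ_Eg.trans_le fun _ => h.mem_UU k2 k3 h' h0 n)
    (JJ_Eg.trans_le fun _ => h.mem_UU' k2 k3 h' h0 n)

theorem Mn.central (h : Mn G α) (h' : Mn G β) (h0 : α * β * α = 0) (n : α * β - β * α ≠ 0)
    (hc : c ∈ Eg G (α * β - β * α)) (hg : g ∈ Eg G α ⊔ Eg G β) : Commute c g := by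
  have u := h.JJ_le_UU k2 k3 h' h0 n (mem_JJ hg)
  have m := mem_Eg.1 hc
  exact commute_of_sub (by rw [mul0_of_ker m.2.2.1 u.1, mul0_of_range m.2.1 u.2.1])

theorem Mn.rc (hG : NU k G) (h : Mn G α) (h' : Mn G β) (h0 : α * β * α = 0)
    (n : α * β - β * α ≠ 0) {S : Set (Subgroup (End k M)ˣ)} (hS : Eg G (α * β - β * α) ∈ S) :
    RC S (Eg G α) (Eg G β) := by
  have e := h.comm_eq k2 k3 hG h' h0 n
  refine RC.of (e ▸ hS) (fun c hc x hx => h.central k2 k3 h' h0 n (e ▸ hc) hx)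
    (fun a ha a1 c hc => h.surjR k2 k3 hG h' h0 n ha a1 (e ▸ hc)) fun b hb b1 c hc => ?_
  obtain ⟨a, ha, e'⟩ := h'.surjR k2 k3 hG h (h.tu_symm k2 k3 h' h0)
    (by rw [← neg_sub]; exact neg_ne_zero.2 n) hb b1 (c := c⁻¹) (by
      rw [← neg_sub, Eg_congr EE_neg, ← e]; exact inv_mem hc)
  exact ⟨a, ha, by rw [← commutatorElement_inv, e', inv_inv]⟩

theorem Mn.core (hG : NU k G) (h : Mn G α) (h' : Mn G β) (h0 : α * β * α = 0)
    (n : α * β - β * α ≠ 0) (hg : g ∈ Eg G α ⊔ Eg G β) :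
    g ∈ Cfsg.quadraticUnipotentCore G ⁅Eg G α, Eg G β⁆ := by
  have m := (h.tu_struct k2 k3 h' h0 n).1
  have u := h.JJ_le_UU k2 k3 h' h0 n (mem_JJ hg)
  rw [h.comm_eq k2 k3 hG h' h0 n]
  refine ⟨sup_le Eg_le Eg_le hg, Subgroup.centralizer_le_normalizer _ fun c hc =>
    h.central k2 k3 h' h0 n hc hg, fun v => ?_, fun v hv => ?_, fun v hv => ?_⟩
  · rw [fixed_Eg m.sq m.fm]; exact range_le_ker u.1 ⟨v, rfl⟩
  · rw [fixed_Eg m.sq m.fm] at hv
    rw [comm_Eg m.sq m.fm]; exact u.2.2 v hv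
  · rw [comm_Eg m.sq m.fm] at hv
    exact sub_eq_zero.1 (range_le_ker u.2.1 hv)

theorem Mn.comm_bot (h : Mn G α) (h' : Mn G β) (n : α * β = β * α) : ⁅Eg G α, Eg G β⁆ = ⊥ := by
  have h0 : α * β * α = 0 := by rw [mul_assoc, ← n, sq3 h.sq]
  refine comm_bot_iff_forall.2 fun a ha b hb => commute_of_sub ?_
  have ma := mem_Eg.1 ha
  have mb := mem_Eg.1 hb
  by_contra e
  have a0 : (a : End k M) - 1 ≠ 0 := fun e' => e (by simp [e'])
  have b0 : (b : End k M) - 1 ≠ 0 := fun e' => e (by simp [e'])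
  exact (h.of_mem ma a0).tu_ne k2 k3 (h'.of_mem mb b0) (h.tu_of_mem k2 k3 h' h0 ma mb ma)
    (sub_ne_zero.2 e) (h.mem_symm ma a0) h.ne (h'.mem_symm mb b0) h'.ne (sub_eq_zero.2 n)

omit k2 k3 in
theorem Mn.comm_of_bot (h : Mn G α) (h' : Mn G β) (e : ⁅Eg G α, Eg G β⁆ = ⊥) : α * β = β * α := by
  have := congrArg Units.val (cm_of e (un_mem_Eg h.self) (un_mem_Eg h'.self)).eq
  simp only [Units.val_mul, un_val] at this
  calc α * β = (1 + α) * (1 + β) - 1 - α - β := by noncomm_ring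
    _ = β * α := by rw [this]; noncomm_ring

theorem Mn.ts_of_rp (h : Mn G α) (h' : Mn G β) (r : RP (Eg G α) (Eg G β)) : α * β * α ≠ 0 := by
  intro h0
  by_cases n : α * β - β * α = 0
  · exact r.not_comm (h.comm_bot k2 k3 h' (sub_eq_zero.1 n))
  refine r.not_nilp (nilp_of_chain _ (fun i => if i = 0 then ⊥ else if i = 1 then
    Eg G (α * β - β * α) else Eg G α ⊔ Eg G β) rfl (fun i => ?_) 2 le_rfl)
  rcases i with _ | _ | i
  · exact (comm_bot_iff_forall.2 fun c hc g hg => h.central k2 k3 h' h0 n hc hg).le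
  · simp only [zero_add, Nat.reduceAdd, OfNat.ofNat_ne_zero, ↓reduceIte, OfNat.ofNat_ne_one,
      one_ne_zero]
    rw [comm_sup_self (isComm_iff.1 Eg_comm) (isComm_iff.1 Eg_comm)]
    refine Subgroup.commutator_le.2 fun a ha b hb => ?_
    rw [mem_Eg, h.comm_val k2 k3 h' h0 ha hb]
    exact h.comm_mem k2 k3 h' h0 n (mem_Eg.1 ha) (mem_Eg.1 hb)
  · simpa using Subgroup.commutator_le_self _

end CfsgH1
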