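import Cfsg.Agent.H1.QP7

/-! Quadratic pairs: translation of the definitions, rank one pairs. -/

set_option autoImplicit false
set_option linter.unusedSectionVars false

namespace CfsgH1

open Polynomial LinearMap Module CfsgH9 Cfsg
open scoped commutatorElement MatrixGroups

universe u

section transfer
variable {Γ Γ' : Type*} [Group Γ] [Group Γ'] {f : Γ →* Γ'} {A B : Subgroup Γ}

theorem RP.of_map (hf : Function.Injective f) (h : RP (A.map f) (B.map f)) : RP A B := by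
  have nil : ∀ A : Subgroup Γ, Group.IsNilpotent (A.map f) → Group.IsNilpotent A := fun A h =>
    nilpotent_of_mulEquiv (A.equivMapOfInjective f hf).symm
  refine RP.of (fun e => h.ne (by rw [e])) (nil _ h.nilpotent_left) (nil _ h.nilpotent_right)
    (fun a ha a1 => ?_) fun b hb b1 => ?_
  · obtain ⟨_, ⟨b, hb, rfl⟩, b1, e⟩ := h.exL ⟨a, ha, rfl⟩ (by simpa [map_eq_one_iff f hf])
    exact ⟨b, hb, fun e' => b1 (by simp [e']), Subgroup.map_injective hf (by rwa [map_cj, map_cj])⟩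
  · obtain ⟨_, ⟨a, ha, rfl⟩, a1, e⟩ := h.exR ⟨b, hb, rfl⟩ (by simpa [map_eq_one_iff f hf])
    exact ⟨a, ha, fun e' => a1 (by simp [e']), Subgroup.map_injective hf (by rwa [map_cj, map_cj])⟩

theorem RC.of_map (hf : Function.Injective f) {S : Set (Subgroup Γ)} {S' : Set (Subgroup Γ')}
    (h : RC S' (A.map f) (B.map f)) (hS : ⁅A, B⁆ ∈ S) : RC S A B := by
  have m : ∀ c ∈ ⁅A, B⁆, f c ∈ ⁅A.map f, B.map f⁆ := fun c hc => by
    rw [← Subgroup.map_commutator]; exact ⟨c, hc, rfl⟩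
  refine RC.of hS (fun c hc x hx => hf ?_) (fun a ha a1 c hc => ?_) fun b hb b1 c hc => ?_
  · rw [map_mul, map_mul]
    exact h.cen (m c hc) (by rw [← Subgroup.map_sup]; exact ⟨x, hx, rfl⟩)
  · obtain ⟨_, ⟨b, hb, rfl⟩, e⟩ := h.surjR ⟨a, ha, rfl⟩ (by simpa [map_eq_one_iff f hf]) (m c hc)
    exact ⟨b, hb, hf (by rwa [map_commutatorElement])⟩
  · obtain ⟨_, ⟨a, ha, rfl⟩, e⟩ := h.surjL ⟨b, hb, rfl⟩ (by simpa [map_eq_one_iff f hf]) (m c hc)
    exact ⟨a, ha, hf (by rwa [map_commutatorElement])⟩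

theorem rs_subgroupOf {S : Set (Subgroup Γ)} (h1 : ∀ A ∈ S, IsMulCommutative A)
    (h2 : ∀ A ∈ S, A ≠ ⊥) (h3 : ∀ A ∈ S, ∀ g ∈ ⨆ B ∈ S, B, cj g A ∈ S)
    (h4 : ∀ A ∈ S, ∀ B ∈ S, ⁅A, B⁆ = ⊥ ∨ RP A B ∨ RC S A B) :
    RS ((fun A : Subgroup Γ => A.subgroupOf (⨆ B ∈ S, B)) '' S) := by
  set H := ⨆ B ∈ S, B
  have l : ∀ A ∈ S, A ≤ H := fun A hA => le_iSup₂_of_le (f := fun B (_ : B ∈ S) => B) _ hA le_rfl
  have m : ∀ A ∈ S, (A.subgroupOf H).map H.subtype = A := fun A hA =>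
    Subgroup.map_subgroupOf_eq_of_le (l A hA)
  have inj := Subgroup.map_injective H.subtype_injective
  refine ⟨?_, ?_, ?_, ?_, ?_⟩
  · rintro _ ⟨A, hA, rfl⟩
    exact isComm_of fun a ha b hb => Subtype.ext (comm_of_mem (h1 A hA) ha hb)
  · rintro _ ⟨A, hA, rfl⟩ e
    exact h2 A hA (by rw [← m A hA, show A.subgroupOf H = ⊥ from e, Subgroup.map_bot])
  · apply inj
    rw [← MonoidHom.range_eq_map, Subgroup.range_subtype, iSup_image]
    simp only [Subgroup.map_iSup]
    exact biSup_congr m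
  · rintro _ ⟨A, hA, rfl⟩ g
    exact ⟨_, h3 A hA g g.2, inj (by rw [m _ (h3 A hA g g.2), map_cj, m A hA]; rfl)⟩
  · rintro _ ⟨A, hA, rfl⟩ _ ⟨B, hB, rfl⟩
    rcases h4 A hA B hB with h | h | h
    · exact Or.inl (inj (by rw [Subgroup.map_commutator, m A hA, m B hB, h, Subgroup.map_bot]))
    · exact Or.inr (Or.inl (RP.of_map H.subtype_injective (by rwa [m A hA, m B hB])))
    · refine Or.inr (Or.inr (RC.of_map (S' := S) H.subtype_injective (by rwa [m A hA, m B hB])
        ⟨_, h.mem, inj ?_⟩))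
      rw [Subgroup.map_commutator, m A hA, m B hB, m _ h.mem]

end transfer

variable {k : Type u} [Field k] {M : Type*} [AddCommGroup M] [Module k M] [FiniteDimensional k M]
  {G : Subgroup (End k M)ˣ} {α β γ δ α' β' α'' x y : End k M} {a b c g σ τ : (End k M)ˣ}

theorem two_ne_of (h : ringChar k ≠ 2) : (2 : k) ≠ 0 := Ring.two_ne_zero h

theorem fam_iff (h : ((σ : End k M) - 1) * (σ - 1) = 0) :
    scalarFamily σ ⊆ G ↔ Fm k G ((σ : End k M) - 1) := by
  constructor
  · intro hs c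
    have : (c • ((σ : End k M) - 1)) * (c • ((σ : End k M) - 1)) = 0 := by
      rw [smul_mul_assoc, mul_smul_comm, h]; simp
    exact ⟨un _ this, hs ⟨c, rfl⟩, rfl⟩
  · rintro hf τ ⟨c, e⟩
    exact coe_mem_Gm.1 (e ▸ hf c)

theorem mem_quad : σ ∈ quadraticElements G ↔ ((σ : End k M) - 1) * (σ - 1) = 0 ∧
    (σ : End k M) - 1 ≠ 0 ∧ Fm k G ((σ : End k M) - 1) :=
  ⟨fun ⟨_, ⟨h1, h2⟩, h3⟩ => ⟨h1, h2, (fam_iff h1).1 h3⟩, fun ⟨h1, h2, h3⟩ =>
    ⟨coe_mem_Gm.1 (by simpa using h3.one_add), ⟨h1, h2⟩, (fam_iff h1).2 h3⟩⟩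

theorem un_mem_quad (h : γ * γ = 0) (n : γ ≠ 0) (f : Fm k G γ) : un γ h ∈ quadraticElements G := by
  rw [mem_quad, un_sub]; exact ⟨h, n, f⟩

theorem mem_minq : σ ∈ minimalQuadraticElements G ↔ Mn G ((σ : End k M) - 1) := by
  constructor
  · rintro ⟨h, h'⟩
    obtain ⟨h1, h2, h3⟩ := mem_quad.1 h
    refine ⟨h1, h3, h2, fun β b2 f n => ?_⟩
    have := h' _ (un_mem_quad b2 n f)
    rwa [commutatorRank, commutatorRank, un_sub] at this
  · intro h
    refine ⟨mem_quad.2 ⟨h.sq, h.ne, h.fm⟩, fun τ hτ => ?_⟩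
    obtain ⟨h1, h2, h3⟩ := mem_quad.1 hτ
    exact h.min _ h1 h3 h2

theorem Eg_eq_class (h : Mn G ((σ : End k M) - 1)) :
    (Eg G ((σ : End k M) - 1) : Set (End k M)ˣ) = sameActionClass G σ ∪ {1} := by
  ext τ
  constructor
  · intro hτ
    by_cases t : τ = 1
    · exact Or.inr t
    have m := mem_Eg.1 hτ
    have n := ne_one_iff.1 t
    exact Or.inl ⟨mem_minq.2 (h.of_mem m n), h.ker_eq m n, h.range_eq m n⟩
  · rintro (⟨h1, h2, h3⟩ | rfl)
    · exact mem_Eg.2 (mem_EE h.sq (mem_minq.1 h1).fm h3.le h2.ge)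
    · exact one_mem _

theorem same_eq (h : Mn G ((σ : End k M) - 1)) :
    sameActionSubgroup G σ = Eg G ((σ : End k M) - 1) := by
  refine le_antisymm ((Subgroup.closure_le _).2 ?_) fun τ hτ => ?_
  · rw [Eg_eq_class h]; exact Set.subset_union_left
  · rcases (Eg_eq_class h).le hτ with h' | rfl
    exacts [Subgroup.subset_closure h', one_mem _]

theorem qrs_eq : quadraticRootSubgroups G = Sg G := by
  ext A
  constructor
  · rintro ⟨σ, h, rfl⟩
    exact ⟨_, mem_minq.1 h, same_eq (mem_minq.1 h)⟩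
  · rintro ⟨α, h, rfl⟩
    have : Mn G ((un α h.sq : End k M) - 1) := by rwa [un_sub]
    exact ⟨un α h.sq, mem_minq.2 this, by rw [same_eq this, un_sub]⟩

theorem Eg_pow {p : ℕ} (hp : ringChar k = p) (hg : g ∈ Eg G α) : g ^ p = 1 := by
  have m := mem_Eg.1 hg
  have : ∀ n : ℕ, ((g ^ n : (End k M)ˣ) : End k M) = 1 + (n : k) • ((g : End k M) - 1) := fun n => by
    induction n with
    | zero => simp
    | succ n ih =>
      rw [pow_succ, Units.val_mul, ih]
      nth_rewrite 2 [show (g : End k M) = 1 + (g - 1) by simp]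
      rw [add_mul, mul_add, mul_add, smul_mul_assoc, smul_mul_assoc, EE_mul m m]
      simp only [Nat.cast_add, Nat.cast_one, add_smul, one_smul, mul_one, one_mul, smul_zero]
      abel
  apply Units.ext
  rw [this, ← hp, ringChar.Nat.cast_ringChar]; simp

theorem mem_fixed {H : Subgroup (End k M)ˣ} {v : M} :
    v ∈ Cfsg.fixedSubmodule H ↔ ∀ g ∈ H, (g : End k M) v = v := by
  simp [Cfsg.fixedSubmodule, Submodule.mem_iInf, sub_eq_zero]

variable (k2 : (2 : k) ≠ 0) (k3 : Nat.card k ≠ 3)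
include k2 k3

theorem Mn.invol (h : Mn G α) (h' : Mn G β) (h0 : α * β * α ≠ 0) :
    (∃! i : (End k M)ˣ, i ∈ Eg G α ⊔ Eg G β ∧ i ≠ 1 ∧ i * i = 1 ∧
      (∀ x ∈ Eg G α ⊔ Eg G β, i * x = x * i) ∧
      (∀ m ∈ commutatorSubmodule (Eg G α ⊔ Eg G β), (i : End k M) m = -m) ∧
      (∀ m ∈ fixedSubmodule (Eg G α ⊔ Eg G β), (i : End k M) m = m)) ∧
    IsCompl (fixedSubmodule (Eg G α ⊔ Eg G β)) (commutatorSubmodule (Eg G α ⊔ Eg G β)) := by
  obtain ⟨b, mb, nb, e1, e2⟩ := h.partner k2 k3 h' h0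
  have b2 := EE_mul mb mb
  have mu := mu_of_rel h.sq b2 e1 e2
  have pa := mu.pa
  have pb := mu.pb
  have pp := mu.mul 1 1
  simp only [one_smul, mul_one] at pa pb pp
  have ap := (z_comm_left (β := b) h.sq).eq.symm.trans pa
  have bp := (z_comm_right (α := α) b2).eq.symm.trans pb
  set π := α * b + b * α with hπ
  let T : Submodule k (End k M) :=
    { carrier := {x | (1 - π) * x = 0 ∧ x * (1 - π) = 0}
      zero_mem' := by simp
      add_mem' := fun h1 h2 => ⟨by rw [mul_add, h1.1, h2.1, add_zero],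
        by rw [add_mul, h1.2, h2.2, add_zero]⟩
      smul_mem' := fun c _ h => ⟨by rw [mul_smul_comm, h.1, smul_zero],
        by rw [smul_mul_assoc, h.2, smul_zero]⟩ }
  have TT : T * T ≤ T := Submodule.mul_le.2 fun x hx y hy =>
    ⟨by rw [← mul_assoc, hx.1, zero_mul], by rw [mul_assoc, hy.2, mul_zero]⟩
  have eT : ∀ γ, π * γ = γ → γ * π = γ → EE G γ ≤ T := fun γ h1 h2 x hx =>
    ⟨mul0_of_range hx.2.1 (by rw [sub_mul, one_mul, h1, sub_self]),
      mul0_of_ker hx.2.2.1 (by rw [mul_sub, mul_one, h2, sub_self])⟩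
  have J : JJ k (Eg G α ⊔ Eg G β) ≤ T := JJ_sup_le TT (JJ_Eg.trans_le (eT _ pa ap))
    (JJ_Eg.trans_le (h'.EE_eq mb nb ▸ eT _ pb bp))
  have ua : un α h.sq ∈ Eg G α ⊔ Eg G β := Subgroup.mem_sup_left (un_mem_Eg h.self)
  have ub : un b b2 ∈ Eg G α ⊔ Eg G β := Subgroup.mem_sup_right (un_mem_Eg mb)
  have ip : IsIdempotentElem π := pp.symm
  have c : commutatorSubmodule (Eg G α ⊔ Eg G β) = range π := by
    refine le_antisymm (iSup₂_le fun g hg => ?_) ?_
    · have := (J (mem_JJ hg)).1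
      rw [sub_mul, one_mul, sub_eq_zero] at this
      rw [this]; exact range_mul_le _ _
    · rintro _ ⟨v, rfl⟩
      refine add_mem ?_ ?_
      · exact Submodule.mem_iSup_of_mem _ (Submodule.mem_iSup_of_mem ua ⟨b v, by rw [un_sub]; rfl⟩)
      · exact Submodule.mem_iSup_of_mem _ (Submodule.mem_iSup_of_mem ub ⟨α v, by rw [un_sub]; rfl⟩)
  have f : fixedSubmodule (Eg G α ⊔ Eg G β) = ker π := by
    refine le_antisymm (fun v hv => ?_) (le_iInf₂ fun g hg => ?_)
    · have h1 := mem_fixed.1 hv _ ua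
      have h2 := mem_fixed.1 hv _ ub
      simp only [un_val, LinearMap.add_apply, End.one_apply, add_eq_left] at h1 h2
      simp [hπ, h1, h2]
    · have := (J (mem_JJ hg)).2
      rw [mul_sub, mul_one, sub_eq_zero] at this
      rw [this]; exact ker_le_mul _ _
  have iv : (mu.hom (-1) : End k M) = 1 - π - π := by simpa using mu.hom_neg_one
  rw [c, f]
  refine ⟨⟨mu.hom (-1), ⟨?_, ?_, by rw [← map_mul]; simp, fun x hx => ?_, ?_, ?_⟩, ?_⟩,
    ip.isCompl.symm⟩
  · have : (⊤ : Subgroup SL(2, k)) ≤ (Eg G α ⊔ Eg G β).comap mu.hom := by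
      refine (sl2_le_of (fun t => Subgroup.mem_comap.2 (Subgroup.mem_sup_left ?_))
        fun t => Subgroup.mem_comap.2 (Subgroup.mem_sup_right ?_)).ge
      · rw [mem_Eg, show sU t = rU t from rfl, mu.hom_U, add_sub_cancel_left, smul_mul_assoc, pa]
        exact Submodule.smul_mem _ _ h.self
      · rw [mem_Eg, show sL t = rL t from rfl, mu.hom_L, add_sub_cancel_left, smul_mul_assoc, pb]
        exact Submodule.smul_mem _ _ mb
    exact this trivial
  · intro e
    rw [e, Units.val_one] at iv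
    have : (2 : k) • α = 0 := by
      have := congrArg (· * α) iv
      simp only [sub_mul, one_mul, pa, sub_self, zero_sub] at this
      rw [two_smul, ← eq_neg_iff_add_eq_zero]; exact this
    exact h.ne ((smul_eq_zero.1 this).resolve_left k2)
  · obtain ⟨h1, h2⟩ := J (mem_JJ hx)
    rw [sub_mul, one_mul, sub_eq_zero] at h1
    rw [mul_sub, mul_one, sub_eq_zero] at h2
    have : π * x = x * π := by
      have := h1.symm.trans h2
      rw [mul_sub, sub_mul, mul_one, one_mul] at this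
      exact sub_left_inj.1 this
    apply Units.ext
    rw [Units.val_mul, Units.val_mul, iv]
    simp only [sub_mul, mul_sub, this, one_mul, mul_one]
  · intro v hv
    rw [iv]; simp [ip.mem_range_iff.1 hv]
  · intro v hv
    rw [iv]; simp [mem_ker.1 hv]
  · rintro j ⟨-, -, -, -, j1, j2⟩
    apply Units.ext
    ext v
    have := j2 (v - π v) (by rw [mem_ker, map_sub, ← End.mul_apply, ← pp, sub_self])
    rw [map_sub, j1 _ ⟨v, rfl⟩] at this
    rw [iv]
    simp only [LinearMap.sub_apply, End.one_apply]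
    rw [← this]; abel

theorem Mn.iso_sl2 (h : Mn G α) (h' : Mn G β) (h0 : α * β * α ≠ 0) (ha : (σ : End k M) - 1 = α)
    (hb : (τ : End k M) - 1 = β) :
    ∃ (K : Type u) (_ : Field K) (_ : Algebra k K) (lam : K), IsAlgebraic k lam ∧
      IntermediateField.adjoin k ({lam} : Set K) = ⊤ ∧
      Nonempty (Subgroup.closure (scalarFamily σ ∪ scalarFamily τ) ≃* SL(2, K)) := by
  obtain ⟨v, pa, pb, f1, f2⟩ := h.dichS k2 k3 h' h0
  have c1 := aeval_comm (k := k) (z_comm_left (β := β) h.sq)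
  have c2 := aeval_comm (k := k) (z_comm_right (α := α) h'.sq)
  have za := z_mul_left (β := β) h.sq
  have zb := z_mul_right (α := α) h'.sq
  have zd : α * β + β * α = α * β + β * α := rfl
  have zc : ∀ p : k[X], Commute (aeval (α * β + β * α) p) (α * β + β * α) :=
    aeval_comm (Commute.refl _)
  generalize hz : α * β + β * α = z at pa pb f1 f2 c1 c2 za zb zc
  let I : Ideal k[X] :=
    { carrier := {t | aeval z t * α = 0}
      zero_mem' := by simp
      add_mem' := fun h1 h2 => by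
        rw [Set.mem_setOf_eq, map_add, add_mul, h1, h2, add_zero]
      smul_mem' := fun c x h => by
        rw [Set.mem_setOf_eq, smul_eq_mul, map_mul, mul_assoc, h, mul_zero] }
  have ip : I.IsPrime := ⟨fun e => h.ne (by
      have : aeval z (1 : k[X]) * α = 0 := (e.ge trivial : (1 : k[X]) ∈ I)
      simpa using this),
    fun {s t} hst => by
      by_contra hc
      push Not at hc
      refine hc.1 (mul0_of_range (h.range_eq (f1 t) hc.2).ge ?_)
      rw [← mul_assoc, ← map_mul]; exact hst⟩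
  have i0 : I ≠ ⊥ := fun e => minpoly.ne_zero (Algebra.IsIntegral.isIntegral (R := k) z)
    (e.le (show minpoly k z ∈ I by change _ = _; rw [minpoly.aeval, zero_mul]))
  haveI im : I.IsMaximal := IsPrime.to_maximal_ideal i0
  letI : Field (k[X] ⧸ I) := Ideal.Quotient.field I
  have Iz : ∀ t ∈ I, aeval z t * z = 0 := fun t ht => by
    rw [← hz, mul_add, ← mul_assoc, ← mul_assoc, hz, (c2 t).eq, mul_assoc β, ht]; simp
  let π := aeval z v * z
  have Ip : ∀ t ∈ I, aeval z t * π = 0 := fun t ht => by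
    rw [← mul_assoc, ← map_mul, mul_comm t, map_mul, mul_assoc, Iz t ht, mul_zero]
  let l : k[X] ⧸ I → End k M := fun s => aeval z (Quotient.out s) * π
  have hl : ∀ t, l (Ideal.Quotient.mk I t) = aeval z t * π := fun t => by
    rw [← sub_eq_zero, ← sub_mul, ← map_sub]
    exact Ip _ (Ideal.Quotient.eq.1 (Ideal.Quotient.mk_out _))
  have pz : π * z = z := by
    conv_lhs => rw [← hz, mul_add, ← mul_assoc, ← mul_assoc, pa, pb]
    exact hz
  have cp : ∀ t : k[X], Commute (aeval z t) π := fun t =>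
    ((Commute.all t v).map (aeval z)).mul_right (zc t)
  have pp : π * π = π := by
    change π * (aeval z v * z) = aeval z v * z
    rw [← mul_assoc, ← (cp v).eq, mul_assoc, pz]
  have p1 : Commute π α := (c1 v).mul_left (hz ▸ z_comm_left h.sq)
  have p2 : Commute π β := (c2 v).mul_left (hz ▸ z_comm_right h'.sq)
  have mu : MU l α (aeval z v * β) := by
    refine ⟨fun s t => ?_, fun s t => ?_, ?_, fun s => ((c1 _).mul_left p1).eq, fun s => ?_, h.sq,
      EE_mul (f2 v) (f2 v), ?_, ?_⟩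
    · obtain ⟨s, rfl⟩ := Ideal.Quotient.mk_surjective s
      obtain ⟨t, rfl⟩ := Ideal.Quotient.mk_surjective t
      rw [← map_add, hl, hl, hl, map_add, add_mul]
    · obtain ⟨s, rfl⟩ := Ideal.Quotient.mk_surjective s
      obtain ⟨t, rfl⟩ := Ideal.Quotient.mk_surjective t
      rw [← map_mul, hl, hl, hl, map_mul, mul_assoc, mul_assoc, ← mul_assoc π, ← (cp t).eq,
        mul_assoc, pp]
    · rw [← map_one (Ideal.Quotient.mk I), hl, map_one, one_mul, ← mul_assoc, ← (c1 v).eq, mul_assoc,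
        mul_assoc, ← mul_add, hz]
    · exact ((((Commute.all _ v).map (aeval z)).mul_right (c2 _)).mul_left
        ((cp v).symm.mul_right p2)).eq
    · rw [← mul_assoc, ← (c1 v).eq, mul_assoc _ α, mul_assoc, ← za, ← mul_assoc, pa]
    · rw [mul_assoc, mul_assoc, ← mul_assoc α, ← (c1 v).eq, mul_assoc _ α, ← mul_assoc β,
        ← (c2 v).eq, mul_assoc _ β, ← mul_assoc β, ← zb, ← mul_assoc _ z, pb]
  have inj := mu.hom_inj fun s hs => by
    obtain ⟨s, rfl⟩ := Ideal.Quotient.mk_surjective s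
    rw [hl, mul_assoc, pa] at hs
    exact Ideal.Quotient.eq_zero_iff_mem.2 hs
  have ev : ∀ p : k[X], aeval (Ideal.Quotient.mk I X) p = Ideal.Quotient.mk I p := fun p => by
    simpa using aeval_algHom_apply (Ideal.Quotient.mkₐ k I) X p
  have hi : IsIntegral k (Ideal.Quotient.mk I X) :=
    ⟨minpoly k z, minpoly.monic (Algebra.IsIntegral.isIntegral z), by
      change aeval (Ideal.Quotient.mk I X) _ = 0
      rw [ev, Ideal.Quotient.eq_zero_iff_mem]
      change _ = _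
      rw [minpoly.aeval, zero_mul]⟩
  have ht : ∀ t : k[X] ⧸ I, t ∈ Algebra.adjoin k {Ideal.Quotient.mk I X} := fun t => by
    obtain ⟨t, rfl⟩ := Ideal.Quotient.mk_surjective t
    rw [← ev t]; exact aeval_mem_adjoin_singleton k (Ideal.Quotient.mk I X)
  have hU : ∀ c : k, (mu.hom (sU (algebraMap k _ c)) : End k M) = 1 + c • α := fun c => by
    refine (mu.hom_U _).trans ?_
    rw [show algebraMap k (k[X] ⧸ I) c = Ideal.Quotient.mk I (C c) from rfl, hl, mul_assoc, pa,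
      aeval_C, ← Algebra.smul_def]
  have hL : ∀ c : k, (mu.hom (sL (algebraMap k _ c * Ideal.Quotient.mk I X)) : End k M) =
      1 + c • β := fun c => by
    refine (mu.hom_L _).trans ?_
    rw [show algebraMap k (k[X] ⧸ I) c = Ideal.Quotient.mk I (C c) from rfl, ← map_mul, hl, map_mul,
      aeval_C, aeval_X, ← Algebra.smul_def, smul_mul_assoc, smul_mul_assoc, mul_assoc, ← mul_assoc π,
      ← (cp v).eq, mul_assoc _ π, pb, ← mul_assoc, ← (zc v).eq, pb]
  have e : mu.hom.range = Subgroup.closure (scalarFamily σ ∪ scalarFamily τ) := by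
    refine le_antisymm ?_ ((Subgroup.closure_le _).2 ?_)
    · rw [MonoidHom.range_eq_map, Subgroup.map_le_iff_le_comap]
      refine (sl2_gen k2 k3 (lam := Ideal.Quotient.mk I X) (fun c => ?_) (fun c => ?_)
        (fun e => h0 ?_) hi ht).ge
      · exact Subgroup.subset_closure (Or.inl ⟨c, by rw [hU, ha]⟩)
      · exact Subgroup.subset_closure (Or.inr ⟨c, by rw [hL, hb]⟩)
      · have : aeval z (X : k[X]) * α = 0 := Ideal.Quotient.eq_zero_iff_mem.1 e
        rwa [aeval_X, za] at this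
    · rintro g (⟨c, e⟩ | ⟨c, e⟩)
      · exact ⟨_, Units.ext ((hU c).trans (by rw [e, ha]))⟩
      · exact ⟨_, Units.ext ((hL c).trans (by rw [e, hb]))⟩
  refine ⟨k[X] ⧸ I, inferInstance, inferInstance, Ideal.Quotient.mk I X, hi.isAlgebraic,
    eq_top_iff.2 fun t _ => IntermediateField.algebra_adjoin_le_adjoin _ _ (ht t),
    ⟨(MulEquiv.subgroupCongr e.symm).trans (MonoidHom.ofInjective inj).symm⟩⟩

theorem Mn.tri (hG : NU k G) (h : Mn G α) (h' : Mn G β) {S : Set (Subgroup (End k M)ˣ)}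
    (hS : α * β * α = 0 → α * β - β * α ≠ 0 → Eg G (α * β - β * α) ∈ S) :
    ⁅Eg G α, Eg G β⁆ = ⊥ ∨ RP (Eg G α) (Eg G β) ∨ RC S (Eg G α) (Eg G β) := by
  by_cases h0 : α * β * α = 0
  · by_cases n : α * β - β * α = 0
    · exact Or.inl (h.comm_bot k2 k3 h' (sub_eq_zero.1 n))
    · exact Or.inr (Or.inr (h.rc k2 k3 hG h' h0 n (hS h0 n)))
  · exact Or.inr (Or.inl (h.rp k2 k3 h' h0))

theorem rs_Sg (hG : NU k G) :
    RS ((fun A : Subgroup (End k M)ˣ => A.subgroupOf (⨆ B ∈ Sg G, B)) '' Sg G) := by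
  refine rs_subgroupOf ?_ ?_ ?_ ?_
  · rintro _ ⟨α, -, rfl⟩; exact Eg_comm
  · rintro _ ⟨α, h, rfl⟩; exact h.Eg_ne
  · rintro _ ⟨α, h, rfl⟩ g hg
    have : g ∈ G := iSup₂_le (f := fun B (_ : B ∈ Sg G) => B)
      (by rintro _ ⟨β, -, rfl⟩; exact Eg_le) hg
    exact ⟨_, h.conj' this, cj_Eg this⟩
  · rintro _ ⟨α, h, rfl⟩ _ ⟨β, h', rfl⟩
    exact h.tri k2 k3 hG h' fun h0 n => (h.tu_struct k2 k3 h' h0 n).1.mem_Sg

theorem Mn.tu_of_up (hG : NU k G) (h : Mn G α) (h' : Mn G β) (u : Up k (Eg G α ⊔ Eg G β)) :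
    α * β * α = 0 := by
  by_contra h0
  obtain ⟨b, mb, nb, e1, e2⟩ := h.partner k2 k3 h' h0
  obtain ⟨n, hn⟩ := u
  have m : α * b ∈ JJ k (Eg G α ⊔ Eg G β) := JJ_mul_le _ (Submodule.mul_mem_mul
    (JJ_mono le_sup_left (JJ_Eg.ge h.self)) (JJ_mono le_sup_right (JJ_Eg.ge mb)))
  have := Submodule.pow_mem_pow _ m n
  rw [hn, Submodule.mem_bot] at this
  have p : ∀ j, (α * b) ^ j * α = α := fun j => by
    induction j with
    | zero => simp
    | succ j ih => rw [pow_succ, mul_assoc, e1, ih]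
  exact h.ne (by rw [← p n, this, zero_mul])

end CfsgH1
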