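import Cfsg.Agent.H1.QP8

/-! Quadratic pairs: components and the central product decomposition. -/

set_option autoImplicit false
set_option linter.unusedSectionVars false

namespace CfsgH1

open Polynomial LinearMap Module CfsgH9 Cfsg
open scoped commutatorElement MatrixGroups

universe u

variable {k : Type u} [Field k] {M : Type*} [AddCommGroup M] [Module k M] [FiniteDimensional k M]
  {G H : Subgroup (End k M)ˣ} {α β γ δ α' β' α'' x y : End k M} {a b c g σ τ : (End k M)ˣ}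

/-- connected in the graph of rank one pairs -/
def Cn (G : Subgroup (End k M)ˣ) : End k M → End k M → Prop :=
  Relation.ReflTransGen fun x y => Mn G x ∧ Mn G y ∧ x * y * x ≠ 0

/-- a component -/
def Pt (G : Subgroup (End k M)ˣ) (α : End k M) : Set (Subgroup (End k M)ˣ) :=
  {A | ∃ β, Cn G α β ∧ A = Eg G β}

/-- the group generated by a component -/
def Gc (G : Subgroup (End k M)ˣ) (α : End k M) : Subgroup (End k M)ˣ := ⨆ A ∈ Pt G α, A

/-- the group generated by all root subgroups -/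
def G0 (G : Subgroup (End k M)ˣ) : Subgroup (End k M)ˣ := ⨆ A ∈ Sg G, A

/-- commutes with the minimal elements -/
def Zc (G : Subgroup (End k M)ˣ) (α : End k M) : Prop := ∀ γ, Mn G γ → α * γ = γ * α

theorem Cn.refl : Cn G α α := Relation.ReflTransGen.refl

theorem Cn.trans (h : Cn G α β) (h' : Cn G β γ) : Cn G α γ := Relation.ReflTransGen.trans h h'

theorem Cn.mn (h : Cn G α β) (m : Mn G α) : Mn G β := by
  induction h with
  | refl => exact m
  | tail _ h _ => exact h.2.1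

theorem Cn.step (h : Mn G α) (h' : Mn G β) (e : α * β * α ≠ 0) : Cn G α β :=
  Relation.ReflTransGen.single ⟨h, h', e⟩

theorem Cn.le_Gc (h : Cn G α β) : Eg G β ≤ Gc G α := le_bs (Γ := Pt G α) ⟨β, h, rfl⟩

theorem Gc_le (h : ∀ β, Cn G α β → Eg G β ≤ H) : Gc G α ≤ H :=
  iSup₂_le (by rintro _ ⟨β, h', rfl⟩; exact h β h')

theorem Mn.le_G0 (h : Mn G α) : Eg G α ≤ G0 G := le_bs h.mem_Sg

theorem G0_le (h : ∀ β, Mn G β → Eg G β ≤ H) : G0 G ≤ H :=
  iSup₂_le (by rintro _ ⟨β, h', rfl⟩; exact h β h')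

theorem G0_le_self : G0 G ≤ G := G0_le fun _ _ => Eg_le

theorem Mn.Gc_le_G0 (h : Mn G α) : Gc G α ≤ G0 G := Gc_le fun _ h' => (h'.mn h).le_G0

theorem nu_G0 (hG : NU k G) : NU k (G0 G) :=
  hG.normal G0_le_self fun g hg => cj_biSup_le (by
    rintro _ ⟨β, h, rfl⟩; exact ⟨_, h.conj' hg, cj_Eg hg⟩)

theorem fm_Eg (h : γ ∈ EE G α) : Fm k (Eg G α) γ := fun c =>
  ⟨_, un_mem_Eg (Submodule.smul_mem _ c h), rfl⟩

theorem EE_mono (h : G ≤ H) : EE G α ≤ EE H α := fun _ m => ⟨m.1.mono h, m.2⟩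

theorem mem_EE_of (h : γ ∈ EE G α) (f : Fm k H γ) : γ ∈ EE H α := ⟨f, h.2⟩

theorem Fm.mem (h : Fm k G ((g : End k M) - 1)) : g ∈ G := coe_mem_Gm.1 (by simpa using h.one_add)

theorem fm_of_un (h : γ * γ = 0) (e : ∀ (c : k) (g : (End k M)ˣ), (g : End k M) = 1 + c • γ → g ∈ H) :
    Fm k H γ := fun c =>
  ⟨un (c • γ) (by rw [smul_mul_assoc, mul_smul_comm, h]; simp), e c _ rfl, rfl⟩

theorem comm_of_mem_cent (h : ⁅G, H⁆ = ⊥) (f : Fm k G α) (hy : y ∈ Gm H) : α * y = y * α := by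
  obtain ⟨g, hg, e⟩ := f.one_add
  obtain ⟨b, hb, rfl⟩ := hy
  have := congrArg Units.val (cm_of h hg hb).eq
  rw [Units.val_mul, Units.val_mul, show (g : End k M) = 1 + α from e] at this
  simpa [add_mul, mul_add] using this

/-- the elements commuting with all minimal elements -/
def ZG (G : Subgroup (End k M)ˣ) : Subgroup (End k M)ˣ where
  carrier := {g | Zc G g}
  one_mem' := fun _ _ => by simp
  mul_mem' := fun {a b} ha hb γ h => by
    rw [Units.val_mul, mul_assoc, hb γ h, ← mul_assoc, ha γ h, mul_assoc]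
  inv_mem' := fun {a} ha γ h => (Commute.units_inv_left (ha γ h)).eq

theorem Zc.mem_ZG (h : Zc G α) {c : k} (e : (g : End k M) = 1 + c • α) : g ∈ ZG G := fun γ m => by
  rw [e, add_mul, mul_add, smul_mul_assoc, mul_smul_comm, h γ m]; simp

theorem ZG_comm : ⁅ZG G, G0 G⁆ = ⊥ := by
  rw [comm_bot_iff']
  refine G0_le fun β h b hb a ha => ?_
  by_cases b1 : b = 1
  · simp [b1]
  have := ha _ (h.of_mem (mem_Eg.1 hb) (ne_one_iff.1 b1))
  apply Units.ext
  simpa [mul_sub, sub_mul] using this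

variable (k2 : (2 : k) ≠ 0) (k3 : Nat.card k ≠ 3)
include k2 k3

theorem Cn.symm (h : Cn G α β) : Cn G β α :=
  rtg_symm (fun _ _ h => ⟨h.2.1, h.1, h.1.ts_symm k2 k3 h.2.1 h.2.2⟩) h

theorem Cn.Pt_eq (h : Cn G α β) : Pt G α = Pt G β := by
  ext A
  exact ⟨fun ⟨γ, h', e⟩ => ⟨γ, (h.symm k2 k3).trans h', e⟩, fun ⟨γ, h', e⟩ => ⟨γ, h.trans h', e⟩⟩

variable (hG : NU k G)
include hG

theorem Mn.cn_of_mem (h : Mn G α) (m : γ ∈ EE G α) (n : γ ≠ 0) : Cn G α γ := by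
  obtain ⟨β, h', e⟩ := h.ex_partner k2 k3 hG
  exact (Cn.step h h' e).trans (Cn.step h' (h.of_mem m n)
    (h'.ts_of_mem k2 k3 h (h.ts_symm k2 k3 h' e) h'.self h'.ne m n))

theorem Mn.cn_of_eq (h : Mn G α) (h' : Mn G β) (e : Eg G α = Eg G β) : Cn G α β :=
  h.cn_of_mem k2 k3 hG (by rw [← JJ_Eg, e, JJ_Eg]; exact h'.self) h'.ne

theorem Mn.cn_comm (h : Mn G α) (h' : Mn G β) (h0 : α * β * α = 0) (n : α * β - β * α ≠ 0) :
    Cn G α (α * β - β * α) := by
  have m := (h.tu_struct k2 k3 h' h0 n).1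
  have s : Mn G (α + (α * β - β * α)) := by
    convert h.conj h'.fm.one_sub h'.fm.one_add (one_sub_mul_one_add h'.sq)
      (one_add_mul_one_sub h'.sq) using 1
    simp only [sub_mul, mul_add, one_mul, mul_one, h.tu_symm k2 k3 h' h0]
    abel
  generalize α * β - β * α = γ at *
  obtain ⟨δ, d, e⟩ := h.ex_partner k2 k3 hG
  obtain ⟨δ', d', e'⟩ := m.ex_partner k2 k3 hG
  by_cases c1 : δ * γ * δ = 0
  swap
  · exact (Cn.step h d e).trans (Cn.step d m c1)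
  by_cases c2 : δ' * α * δ' = 0
  swap
  · exact ((Cn.step d' h c2).symm k2 k3).trans ((Cn.step m d' e').symm k2 k3)
  refine (Cn.step h d e).trans ((Cn.step d s ?_).trans (((Cn.step d' s ?_).symm k2 k3).trans
    ((Cn.step m d' e').symm k2 k3)))
  · rw [mul_add, add_mul, c1, add_zero]; exact h.ts_symm k2 k3 d e
  · rw [mul_add, add_mul, c2, zero_add]; exact m.ts_symm k2 k3 d' e'

theorem Mn.cn_of_ne (h : Mn G α) (h' : Mn G β) (n : α * β ≠ β * α) : Cn G α β := by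
  by_cases h0 : α * β * α = 0
  swap
  · exact Cn.step h h' h0
  have n1 := sub_ne_zero.2 n
  have n2 := sub_ne_zero.2 n.symm
  refine (h.cn_comm k2 k3 hG h' h0 n1).trans (Relation.ReflTransGen.trans ?_
    ((h'.cn_comm k2 k3 hG h (h.tu_symm k2 k3 h' h0) n2).symm k2 k3))
  have m := (h.tu_struct k2 k3 h' h0 n1).1
  exact m.cn_of_mem k2 k3 hG (by rw [← neg_sub (α * β)]; exact neg_mem m.self) n2

theorem Mn.cn_conj (h : Mn G α) (hg : g ∈ G0 G) : Cn G α (g * α * (g⁻¹ : (End k M)ˣ)) := by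
  let K : Subgroup (End k M)ˣ :=
    { carrier := {g | g ∈ G ∧ ∀ α, Mn G α → Cn G α (g * α * (g⁻¹ : (End k M)ˣ))}
      one_mem' := ⟨one_mem _, fun α _ => by simpa using Cn.refl⟩
      mul_mem' := fun {a b} ha hb => ⟨mul_mem ha.1 hb.1, fun α h => by
        simpa [mul_assoc] using (hb.2 α h).trans (ha.2 _ (h.conj' hb.1))⟩
      inv_mem' := fun {a} ha => ⟨inv_mem ha.1, fun α h => by
        simpa [mul_assoc] using (ha.2 _ (h.conj' (inv_mem ha.1))).symm k2 k3⟩ }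
  refine (G0_le (H := K) (fun β h' b hb => ⟨Eg_le hb, fun α h => ?_⟩) hg).2 α h
  by_cases e : α * b = b * α
  · rw [← e]; simpa using Cn.refl
  have m := h'.of_mem (mem_Eg.1 hb) (fun e' => e (by rw [sub_eq_zero.1 e']; simp))
  refine (h.cn_of_ne k2 k3 hG m fun e' => e ?_).trans
    (((h.conj' (Eg_le hb)).cn_of_ne k2 k3 hG m fun e' => e ?_).symm k2 k3)
  · simpa [mul_sub, sub_mul] using e'
  · have : (b : End k M) * α = b * (b * α * (b⁻¹ : (End k M)ˣ)) := by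
      simpa [mul_sub, sub_mul] using e'
    have := congrArg (fun x => ((b⁻¹ : (End k M)ˣ) : End k M) * x * b) this
    simpa [mul_assoc] using this

theorem Mn.cj_mem_Pt (h : Mn G α) {A : Subgroup (End k M)ˣ} (hA : A ∈ Pt G α) (hg : g ∈ G0 G) :
    cj g A ∈ Pt G α := by
  obtain ⟨β, c, rfl⟩ := hA
  exact ⟨_, c.trans ((c.mn h).cn_conj k2 k3 hG hg), cj_Eg (G0_le_self hg)⟩

theorem Mn.nu_Gc (h : Mn G α) : NU k (Gc G α) :=
  (nu_G0 hG).normal h.Gc_le_G0 fun _ hg => cj_biSup_le fun _ hA => h.cj_mem_Pt k2 k3 hG hA hg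

theorem Mn.Gc_comm (h : Mn G α) (h' : Mn G β) (n : ¬ Cn G α β) : ⁅Gc G α, Gc G β⁆ = ⊥ := by
  rw [comm_bot_iff]
  refine Gc_le fun x hx => comm_bot_iff.1 (comm_bot_iff'.2 (Gc_le fun y hy => comm_bot_iff'.1 ?_))
  refine (hx.mn h).comm_bot k2 k3 (hy.mn h') ?_
  by_contra e
  exact n (hx.trans (((hx.mn h).cn_of_ne k2 k3 hG (hy.mn h') e).trans (hy.symm k2 k3)))

omit hG in
theorem Cn.exists_cj (c : Cn G α β) : ∃ g ∈ Gc G α, Eg G β = cj g (Eg G α) := by
  induction c with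
  | refl => exact ⟨1, one_mem _, (cj_one _).symm⟩
  | tail c h ih =>
    obtain ⟨g, hg, e⟩ := ih
    obtain ⟨x, hx, e'⟩ := (h.1.rp k2 k3 h.2.1 h.2.2).right_mem
    exact ⟨x * g, mul_mem (sup_le (Cn.le_Gc c) (Cn.le_Gc (c.tail h)) hx) hg, by
      rw [e', e]; exact cj_cj _ _ _⟩

theorem Mn.qs (h : Mn G α) : QS (Gc G α) := by
  refine ⟨le_antisymm (Subgroup.commutator_le_self _) (Gc_le fun β c => ?_),
    fun e => h.Eg_ne (le_bot_iff.1 (e ▸ Cn.le_Gc Relation.ReflTransGen.refl)), fun N hN hn => ?_⟩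
  · obtain ⟨δ, d, e⟩ := (c.mn h).ex_partner k2 k3 hG
    have := sup_le c.le_Gc (Cn.le_Gc (c.trans (Cn.step (c.mn h) d e)))
    exact ((c.mn h).le_comm k2 k3 d e).trans (Subgroup.commutator_mono this this)
  rw [or_iff_not_imp_left]
  intro hne
  have hN0 := hN.trans h.Gc_le_G0
  have c1 : ∀ β, Cn G α β → ¬ Eg G β ≤ N := fun β c l => hne (le_antisymm hN (Gc_le fun γ c' => by
    obtain ⟨g, hg, e⟩ := ((c.symm k2 k3).trans c').exists_cj k2 k3
    rw [Gc, ← c.Pt_eq k2 k3] at hg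
    rw [e]; exact cj_le_of_mem_normalizer (hn hg) l))
  have c2 : ∀ A ∈ Pt G α, ∀ n ∈ N, ⁅A, cj n A⁆ = ⊥ := by
    intro A hA n hn'
    obtain ⟨γ, c', e'⟩ := h.cj_mem_Pt k2 k3 hG hA (hN0 hn')
    obtain ⟨β, c, rfl⟩ := hA
    have l : ⁅Eg G β, Eg G γ⁆ ≤ N := by
      rw [← e', Subgroup.commutator_le]
      rintro a ha _ ⟨b, hb, rfl⟩
      have cab := comm_of_mem Eg_comm ha hb
      have : ⁅a, (MulAut.conj n).toMonoidHom b⁆ =
          a * (n * (b * n⁻¹ * b⁻¹)) * a⁻¹ * (n * (b * n⁻¹ * b⁻¹))⁻¹ := by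
        have e : b * a⁻¹ * b⁻¹ = a⁻¹ := by
          rw [mul_inv_eq_iff_eq_mul, mul_inv_eq_iff_eq_mul, mul_assoc, ← cab, inv_mul_cancel_left]
        rw [← e]
        change a * (n * b * n⁻¹) * a⁻¹ * (n * b * n⁻¹)⁻¹ = _
        group
      have m : n * (b * n⁻¹ * b⁻¹) ∈ N :=
        mul_mem hn' ((Subgroup.mem_normalizer_iff.1 (hn (c.le_Gc hb)) _).1 (inv_mem hn'))
      rw [this]
      exact mul_mem ((Subgroup.mem_normalizer_iff.1 (hn (c.le_Gc ha)) _).1 m) (inv_mem m)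
    rw [e']
    by_cases h0 : β * γ * β = 0
    · by_cases n0 : β * γ - γ * β = 0
      · exact (c.mn h).comm_bot k2 k3 (c'.mn h) (sub_eq_zero.1 n0)
      · rw [(c.mn h).comm_eq k2 k3 hG (c'.mn h) h0 n0] at l
        exact absurd l (c1 _ (c.trans ((c.mn h).cn_comm k2 k3 hG (c'.mn h) h0 n0)))
    · have := (c.mn h).le_comm k2 k3 (c'.mn h) h0
      rw [comm_sup_self (isComm_iff.1 Eg_comm) (isComm_iff.1 Eg_comm)] at this
      exact absurd (this.trans l) (c1 _ c)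
  have c3 : ∀ A ∈ Pt G α, Up k ⁅N, A⁆ := by
    intro A hA
    have cc : ∀ n ∈ N, ∀ n' ∈ N, ⁅cj n A, cj n' A⁆ = ⊥ := fun n hn n' hn' => by
      have := c2 _ (h.cj_mem_Pt k2 k3 hG hA (hN0 hn)) _ (mul_mem hn' (inv_mem hn))
      rwa [cj_cj, inv_mul_cancel_right] at this
    refine (up_biSup (W := {B | ∃ n ∈ N, B = cj n A}) ?_ ?_).mono
      (Subgroup.commutator_le.2 fun n hn a ha => mul_mem (le_bs (Γ := {B | ∃ n ∈ N, B = cj n A})
        ⟨n, hn, rfl⟩ (conj_mem_cj n ha)) (inv_mem (le_bs (Γ := {B | ∃ n ∈ N, B = cj n A})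
        ⟨1, one_mem _, (cj_one _).symm⟩ ha)))
    · rintro _ ⟨n, hn, rfl⟩ _ ⟨n', hn', rfl⟩
      have := cc n hn n' hn'
      obtain ⟨β, c, e⟩ := h.cj_mem_Pt k2 k3 hG hA (hN0 hn)
      obtain ⟨γ, c', e'⟩ := h.cj_mem_Pt k2 k3 hG hA (hN0 hn')
      rw [e, e'] at this ⊢
      refine (c.mn h).up k2 k3 (c'.mn h) ?_
      rw [mul_assoc, ← (c.mn h).comm_of_bot (c'.mn h) this, sq3 (c.mn h).sq]
    · rintro _ ⟨n, hn, rfl⟩ _ ⟨n', hn', rfl⟩ b hb
      exact ⟨n, hn, cj_of_comm (cc n' hn' n hn) hb⟩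
  rw [comm_bot_iff']
  refine Gc_le fun β c => comm_bot_iff'.1 ((h.nu_Gc k2 k3 hG).of_family
    (W := {B | ∃ A ∈ Pt G α, B = ⁅N, A⁆}) ?_ ?_ ?_ ⟨_, ⟨β, c, rfl⟩, rfl⟩)
  · rintro _ ⟨A, hA, rfl⟩
    exact (Subgroup.commutator_le_sup _ _).trans (sup_le hN (le_bs hA))
  · rintro _ ⟨A, hA, rfl⟩ _ ⟨B, hB, rfl⟩
    refine up_sup_of_norm (c3 A hA) (c3 B hB) fun q hq => cj_le_of_mem_normalizer
      (Subgroup.normalizer_commutator_ge_left N A ?_) le_rfl
    exact Subgroup.le_normalizer_iff_commutator_le_left.1 ((le_bs hB).trans hn) hq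
  · rintro _ ⟨A, hA, rfl⟩ g hg
    exact ⟨_, h.cj_mem_Pt k2 k3 hG hA (h.Gc_le_G0 hg), by
      rw [cj_commutator, cj_eq_of_mem_normalizer (hn hg)]⟩

theorem exists_reps : ∃ (r : ℕ) (a : Fin r → End k M), (∀ i, Mn G (a i)) ∧
    (∀ i j, Cn G (a i) (a j) → i = j) ∧ ∀ β, Mn G β → ∃ i, Cn G (a i) β := by
  let s : Setoid {α // Mn G α} := ⟨fun x y => Cn G x y,
    fun _ => Relation.ReflTransGen.refl, fun h => h.symm k2 k3, fun h h' => h.trans h'⟩
  have inj : ∀ i j : Quotient s, Cn G i.out.1 j.out.1 → i = j := fun i j h => by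
    rw [← i.out_eq, ← j.out_eq]; exact Quotient.sound h
  have li : LinearIndependent k fun i : Quotient s => i.out.1 := by
    rw [linearIndependent_iff']
    intro t c e i hi
    obtain ⟨β, h', n⟩ := i.out.2.ex_partner k2 k3 hG
    have := congrArg (fun x => β * x * β) e
    simp only [Finset.mul_sum, Finset.sum_mul, mul_smul_comm, smul_mul_assoc, mul_zero,
      zero_mul] at this
    rw [Finset.sum_eq_single_of_mem i hi fun j _ hj => ?_] at this
    · exact (smul_eq_zero.1 this).resolve_right (i.out.2.ts_symm k2 k3 h' n)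
    · have : j.out.1 * β = β * j.out.1 := by
        by_contra e'
        exact hj (inj _ _ ((j.out.2.cn_of_ne k2 k3 hG h' e').trans
          ((Cn.step i.out.2 h' n).symm k2 k3)))
      rw [← this, mul_assoc, h'.sq]; simp
  haveI := li.finite
  let e := (Finite.equivFin (Quotient s)).symm
  refine ⟨_, fun i => (e i).out.1, fun i => (e i).out.2, fun i j h => e.injective (inj _ _ h),
    fun β h => ⟨e.symm (Quotient.mk s ⟨β, h⟩), ?_⟩⟩
  simp only [e.apply_symm_apply]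
  exact Quotient.mk_out (s := s) ⟨β, h⟩

theorem Mn.rs_Pt (h : Mn G α) : IsRootSubgroupClass
    ((fun A : Subgroup (End k M)ˣ => A.subgroupOf (⨆ B ∈ Pt G α, B)) '' Pt G α) := by
  refine ⟨rs_subgroupOf ?_ ?_ ?_ ?_, ⟨_, _, ⟨α, Relation.ReflTransGen.refl, rfl⟩, rfl⟩, ?_⟩
  · rintro _ ⟨α, -, rfl⟩; exact Eg_comm
  · rintro _ ⟨β, c, rfl⟩; exact (c.mn h).Eg_ne
  · exact fun A hA g hg => h.cj_mem_Pt k2 k3 hG hA (h.Gc_le_G0 hg)
  · rintro _ ⟨β, c, rfl⟩ _ ⟨γ, c', rfl⟩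
    exact (c.mn h).tri k2 k3 hG (c'.mn h) fun h0 n =>
      ⟨_, c.trans ((c.mn h).cn_comm k2 k3 hG (c'.mn h) h0 n), rfl⟩
  · rintro _ ⟨_, ⟨β, c, rfl⟩, rfl⟩ _ ⟨_, ⟨γ, c', rfl⟩, rfl⟩
    obtain ⟨g, hg, e⟩ := ((c.symm k2 k3).trans c').exists_cj k2 k3
    rw [Gc, ← c.Pt_eq k2 k3] at hg
    refine ⟨⟨g, hg⟩, Subgroup.map_injective (Subgroup.subtype_injective _) ?_⟩
    rw [map_cj]
    exact (Subgroup.map_subgroupOf_eq_of_le c'.le_Gc).trans
      (e.trans (congrArg _ (Subgroup.map_subgroupOf_eq_of_le c.le_Gc).symm))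

theorem zc_of (a2 : α * α = 0) (f : Fm k G α) (h : ∀ γ, Mn G γ → γ * α * γ = 0) : Zc G α := by
  let Z : Submodule k (End k M) :=
    { carrier := {x | ∀ γ, Mn G γ → γ * x * γ = 0}
      zero_mem' := fun _ _ => by simp
      add_mem' := fun h1 h2 γ m => by rw [mul_add, add_mul, h1 γ m, h2 γ m, add_zero]
      smul_mem' := fun c _ h γ m => by rw [mul_smul_comm, smul_mul_assoc, h γ m, smul_zero] }
  have cz : ∀ β x, β * β = 0 → Fm k G β → x ∈ Z → (1 + β) * x * (1 - β) ∈ Z := by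
    intro β x b2 fb hx γ m
    have := hx _ (m.conj fb.one_sub fb.one_add (one_sub_mul_one_add b2) (one_add_mul_one_sub b2))
    have e := one_add_mul_one_sub b2
    calc γ * ((1 + β) * x * (1 - β)) * γ = (1 + β) * (1 - β) * γ * ((1 + β) * x * (1 - β)) * γ *
          ((1 + β) * (1 - β)) := by rw [e, one_mul, mul_one]
      _ = (1 + β) * ((1 - β) * γ * (1 + β) * x * ((1 - β) * γ * (1 + β))) * (1 - β) := by
          simp only [mul_assoc]
      _ = 0 := by rw [this]; simp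
  have nz : ∀ x ∈ Z, ¬ Mn G x := fun x hx m => by
    obtain ⟨β, m', e⟩ := m.ex_partner k2 k3 hG
    exact m.ts_symm k2 k3 m' e (hx β m')
  intro γ m
  have e1 := h γ m
  have t : γ * α - α * γ ∈ Z := by
    convert sub_mem (cz γ α m.sq m.fm h) h using 1
    simp only [add_mul, mul_sub, one_mul, mul_one, e1]
    abel
  have e2 : α * γ * α = 0 := by
    by_contra n
    refine nz _ ?_ (m.of_le (by simp only [mul_assoc, sq3 a2, mul_zero])
      (fam_z k2 a2 m.sq f m.fm (by rw [mul_assoc α, mul_assoc α, e1]; simp)) n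
      ((rk_le_of_range (range_mul_le _ _)).trans (rk_le_of_ker (ker_le_mul _ _))))
    convert Z.smul_mem (2 : k)⁻¹ (sub_mem (cz α _ a2 f t) t) using 1
    rw [eq_inv_smul_iff₀ k2, two_smul]
    simp only [add_mul, mul_sub, sub_mul, one_mul, mul_one, mul_assoc, a2, sq3 a2, mul_zero,
      zero_mul]
    abel
  by_contra n
  refine nz _ t (m.of_le ?_ (m.fm.comm f m.sq a2 e1 e2) (sub_ne_zero.2 (Ne.symm n)) (rk_comm_le e2))
  have e3 : ∀ x, α * (γ * (α * x)) = 0 := fun x => by rw [← mul_assoc, ← mul_assoc, e2, zero_mul]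
  have e4 : ∀ x, γ * (α * (γ * x)) = 0 := fun x => by rw [← mul_assoc, ← mul_assoc, e1, zero_mul]
  simp only [mul_sub, sub_mul, mul_assoc, e3, e4, sq3 a2, sq3 m.sq, mul_zero, sub_self]

theorem decomp (n : ℕ) : ∀ α : End k M, α * α = 0 → Fm k G α → rk α = n →
    α ∈ Submodule.span k {γ | γ ∈ EE G α ∧ (Mn G γ ∨ Zc G γ)} := by
  induction n using Nat.strong_induction_on with
  | _ n ih =>
  intro α a2 f hn
  by_cases h : ∀ γ, Mn G γ → γ * α * γ = 0
  · exact Submodule.subset_span ⟨self_mem_EE a2 f, Or.inr (zc_of k2 k3 hG a2 f h)⟩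
  push Not at h
  obtain ⟨γ, m, e⟩ := h
  obtain ⟨v, π, hπ, pp, pa, -, f2⟩ := m.dich k2 k3 a2 f e
  have c1 := aeval_comm (k := k) (z_comm_right (α := γ) a2) v
  have p1 : Commute π α := hπ ▸ c1.mul_left (z_comm_right a2)
  have m1 : π * α ∈ EE G α := mem_EE a2 (by simpa using f2 1)
    (by rw [p1.eq]; exact range_mul_le _ _) (ker_le_mul _ _)
  have n1 : π * α ≠ 0 := fun e' => e (by
    have p2 : Commute π γ := hπ ▸ (aeval_comm (z_comm_left m.sq) v).mul_left (z_comm_left m.sq)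
    rw [← pa, p2.eq, mul_assoc γ, e']; simp)
  have m2 : α - π * α ∈ EE G α := sub_mem (self_mem_EE a2 f) m1
  have r : rk (α - π * α) < rk α := by
    refine lt_of_le_of_ne (rk_le_of_range m2.2.1) fun e' => n1 ?_
    exact mul0_of_range (range_eq_of m2.2.1 e'.ge).ge (by rw [mul_sub, ← mul_assoc, pp, sub_self])
  have := ih _ (hn ▸ r) _ (EE_mul m2 m2) m2.1 rfl
  have s1 : π * α ∈ Submodule.span k {γ | γ ∈ EE G α ∧ (Mn G γ ∨ Zc G γ)} :=
    Submodule.subset_span ⟨m1, Or.inl (m.of_le (EE_mul m1 m1) m1.1 n1 (by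
      rw [hπ, mul_assoc, z_mul_right a2, ← mul_assoc, ← mul_assoc]
      exact (rk_le_of_range (range_mul_le _ _)).trans (rk_le_of_ker (ker_le_mul _ _))))⟩
  have s2 : α - π * α ∈ Submodule.span k {γ | γ ∈ EE G α ∧ (Mn G γ ∨ Zc G γ)} :=
    Submodule.span_mono (fun x hx => And.intro (EE_le m2 hx.1) hx.2) this
  simpa using add_mem s1 s2

theorem fm_of_decomp (a2 : α * α = 0) (f : Fm k G α) (h1 : G0 G ≤ H)
    (h2 : ∀ γ, γ * γ = 0 → Fm k G γ → Zc G γ → Fm k H γ) : Fm k H α := by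
  have : Submodule.span k {γ | γ ∈ EE G α ∧ (Mn G γ ∨ Zc G γ)} ≤ EE H α := by
    rw [Submodule.span_le]
    rintro γ ⟨m, h | h⟩
    · exact mem_EE_of m ((fm_Eg h.self).mono (h.le_G0.trans h1))
    · exact mem_EE_of m (h2 γ (EE_mul m m) m.1 h)
  exact (this (decomp k2 k3 hG _ α a2 f rfl)).1

/-- the subgroup generated by the quadratic elements commuting with the minimal ones -/
def C1 (G : Subgroup (End k M)ˣ) : Subgroup (End k M)ˣ :=
  Subgroup.closure {σ | σ ∈ quadraticElements G ∧ Zc G ((σ : End k M) - 1)}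

omit k2 k3 hG in
theorem fm_C1 (c2 : γ * γ = 0) (f : Fm k G γ) (h : Zc G γ) : Fm k (C1 G) γ := by
  refine fm_of_un c2 fun c g e => ?_
  by_cases g1 : g = 1
  · rw [g1]; exact one_mem _
  have e' : (g : End k M) - 1 = c • γ := by rw [e, add_sub_cancel_left]
  refine Subgroup.subset_closure ⟨mem_quad.2 ⟨?_, ne_one_iff.1 g1, e' ▸ f.smul c⟩, fun δ m => ?_⟩
  · rw [e', smul_mul_assoc, mul_smul_comm, c2]; simp
  · rw [e', smul_mul_assoc, mul_smul_comm, h δ m]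

omit k2 k3 hG in
theorem C1_le : C1 G ≤ G ⊓ ZG G := (Subgroup.closure_le _).2 fun σ h =>
  ⟨h.1.1, h.2.mem_ZG (c := (1 : k)) (by simp)⟩

omit k2 k3 hG in
theorem C1_norm (hg : g ∈ G) : cj g (C1 G) ≤ C1 G := by
  rw [cj, C1, MonoidHom.map_closure]
  refine Subgroup.closure_mono ?_
  rintro _ ⟨σ, ⟨h1, h2⟩, rfl⟩
  obtain ⟨q1, q2, q3⟩ := mem_quad.1 h1
  have e : (((MulAut.conj g).toMonoidHom σ : (End k M)ˣ) : End k M) - 1 =
    g * (σ - 1) * (g⁻¹ : (End k M)ˣ) := conj_sub_one g σ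
  refine ⟨mem_quad.2 ?_, fun γ m => ?_⟩
  · rw [e]
    exact ⟨conj_sq q1 (by simp), by simpa using q2, q3.conj' hg⟩
  · have := congrArg (fun x => (g : End k M) * x * (g⁻¹ : (End k M)ˣ)) (h2 _ (m.conj' (inv_mem hg)))
    rw [e]
    simpa [mul_assoc] using this

omit k2 k3 hG in
theorem closure_quad_le : Subgroup.closure (quadraticElements G) ≤ G :=
  (Subgroup.closure_le _).2 fun _ h => h.1

omit k2 k3 hG in
theorem quad_mono (h : G ≤ H) : quadraticElements G ⊆ quadraticElements H :=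
  fun _ m => ⟨h m.1, m.2.1, m.2.2.trans h⟩

omit k2 k3 hG in
theorem Gc_gen : Subgroup.closure (quadraticElements (Gc G α)) = Gc G α := by
  refine le_antisymm closure_quad_le (Gc_le fun β c g hg => ?_)
  by_cases g1 : g = 1
  · rw [g1]; exact one_mem _
  have m := mem_Eg.1 hg
  exact Subgroup.subset_closure (mem_quad.2 ⟨EE_mul m m, ne_one_iff.1 g1, (fm_Eg m).mono c.le_Gc⟩)

omit hG in
theorem central_product (n : ℕ) : ∀ H : Subgroup (End k M)ˣ, NU k H →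
    (∀ β, β * β = 0 → Fm k H β → β ≠ 0 → finrank k M < rk β + n) →
    ∃ 𝒢 : Set (Subgroup (End k M)ˣ), 𝒢.Finite ∧
      (∀ K ∈ 𝒢, K ≤ H ∧ QS K ∧ Subgroup.closure (quadraticElements K) = K) ∧
      (∀ K ∈ 𝒢, ∀ L ∈ 𝒢, K ≠ L → ⁅K, L⁆ = ⊥) ∧
      ∀ α, α * α = 0 → Fm k H α → α ∈ Submodule.span k {γ | γ ∈ EE H α ∧ ∃ K ∈ 𝒢, Fm k K γ} := by
  induction n with
  | zero =>
    refine fun H _ h => ⟨∅, Set.finite_empty, by simp, by simp, fun α a2 f => ?_⟩
    by_cases a0 : α = 0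
    · rw [a0]; exact zero_mem _
    exact absurd (h α a2 f a0) (not_lt.2 (Submodule.finrank_le _))
  | succ n ih =>
    intro H nu h
    obtain ⟨𝒢, fin, g1, g2, g3⟩ := ih (C1 H) (nu.normal (C1_le.trans inf_le_left) fun _ => C1_norm)
      fun β b2 f b0 => by
        have fH := f.mono (C1_le.trans inf_le_left)
        have nm : ¬ Mn H β := fun m => by
          obtain ⟨δ, d, e⟩ := m.ex_partner k2 k3 nu
          have := comm_of_mem_cent ZG_comm (f.mono (C1_le.trans inf_le_right))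
            ((fm_Eg d.self).mono d.le_G0).one_add
          rw [mul_add, add_mul, mul_one, one_mul, add_right_inj] at this
          exact e (by rw [mul_assoc, ← this, sq3 b2])
        by_contra hc
        refine nm ⟨b2, fH, b0, fun γ c2 f' c0 => ?_⟩
        have := h γ c2 f' c0
        omega
    obtain ⟨r, a, a1, -, a3⟩ := exists_reps k2 k3 nu
    have cK : ∀ α, Mn H α → ∀ K ∈ 𝒢, ⁅K, Gc H α⁆ = ⊥ := fun α m K hK =>
      comm_bot_mono ZG_comm ((g1 K hK).1.trans (C1_le.trans inf_le_right)) m.Gc_le_G0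
    refine ⟨Set.range (fun i => Gc H (a i)) ∪ 𝒢, (Set.finite_range _).union fin, ?_, ?_,
      fun α a2 f => ?_⟩
    · rintro K (⟨i, rfl⟩ | hK)
      · exact ⟨(a1 i).Gc_le_G0.trans G0_le_self, (a1 i).qs k2 k3 nu, Gc_gen⟩
      · exact ⟨(g1 K hK).1.trans (C1_le.trans inf_le_left), (g1 K hK).2⟩
    · rintro K (⟨i, rfl⟩ | hK) L (⟨j, rfl⟩ | hL) ne
      · exact (a1 i).Gc_comm k2 k3 nu (a1 j) fun c => ne (by simp only [Gc, c.Pt_eq k2 k3])
      · exact comm_bot_symm (cK _ (a1 i) _ hL)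
      · exact cK _ (a1 j) _ hK
      · exact g2 K hK L hL ne
    · refine Submodule.span_le.2 ?_ (decomp k2 k3 nu _ α a2 f rfl)
      rintro γ ⟨m, h | h⟩
      · obtain ⟨i, c⟩ := a3 γ h
        exact Submodule.subset_span ⟨m, _, Or.inl ⟨i, rfl⟩, (fm_Eg h.self).mono c.le_Gc⟩
      · refine Submodule.span_mono ?_ (g3 γ (EE_mul m m) (fm_C1 (EE_mul m m) m.1 h))
        rintro δ ⟨m', K, hK, f'⟩
        exact ⟨EE_le m (EE_mono (C1_le.trans inf_le_left) m'), K, Or.inr hK, f'⟩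

omit k2 k3 hG in
theorem eq_of_mul_zero (hi : IsIrreducibleFor G) {𝒢 : Set (Subgroup (End k M)ˣ)}
    (h1 : ∀ K ∈ 𝒢, ∀ L ∈ 𝒢, K ≠ L → ⁅K, L⁆ = ⊥) (h2 : G ≤ ⨆ K ∈ 𝒢, K) {K L : Subgroup (End k M)ˣ}
    (hK : K ∈ 𝒢) (hL : L ∈ 𝒢) (f : Fm k K γ) (f' : Fm k L δ) (n : δ ≠ 0) (e : γ * δ = 0)
    (ne : K ≠ L) : γ = 0 := by
  let W : Submodule k M := ⨆ g ∈ L, range ((g : End k M) * δ)
  have lw : ∀ g ∈ L, range ((g : End k M) * δ) ≤ W := fun g hg =>
    le_iSup₂_of_le (f := fun (g : (End k M)ˣ) (_ : g ∈ L) => range ((g : End k M) * δ)) g hg le_rfl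
  let P : Subgroup (End k M)ˣ :=
    { carrier := {x | W.map (x : End k M) ≤ W ∧ W.map ((x⁻¹ : (End k M)ˣ) : End k M) ≤ W}
      one_mem' := by simp [End.one_eq_id]
      mul_mem' := fun {a b} ha hb => by
        rw [Set.mem_setOf_eq, mul_inv_rev, Units.val_mul, Units.val_mul, End.mul_eq_comp,
          End.mul_eq_comp, Submodule.map_comp, Submodule.map_comp]
        exact ⟨(Submodule.map_mono hb.1).trans ha.1, (Submodule.map_mono ha.2).trans hb.2⟩
      inv_mem' := fun ha => ⟨ha.2, by simpa using ha.1⟩ }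
  have key : ∀ T ∈ 𝒢, ∀ x ∈ T, W.map (x : End k M) ≤ W := by
    intro T hT x hx
    simp only [W, Submodule.map_iSup]
    refine iSup₂_le fun g hg => ?_
    rw [← range_comp, ← End.mul_eq_comp, ← mul_assoc, ← Units.val_mul]
    by_cases e : L = T
    · exact lw _ (mul_mem (e ▸ hx) hg)
    · rw [← (cm_of (h1 L hL T hT e) hg hx).eq, Units.val_mul, mul_assoc,
        ← comm_of_mem_cent (h1 L hL T hT e) f' (coe_mem_Gm.2 hx), ← mul_assoc]
      exact (range_mul_le _ _).trans (lw g hg)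
  have hP : G ≤ P := h2.trans (iSup₂_le fun T hT x hx => ⟨key T hT x hx, key T hT _ (inv_mem hx)⟩)
  rcases hi.2 W (fun g hg w hw => (hP hg).1 ⟨w, hw, rfl⟩) with e' | e'
  · have := lw 1 (one_mem _)
    rw [e', le_bot_iff, range_eq_bot] at this
    exact absurd (by simpa using this) n
  · rw [← ker_eq_top, eq_top_iff, ← e']
    refine iSup₂_le fun g hg => range_le_ker ?_
    rw [← mul_assoc, comm_of_mem_cent (h1 K hK L hL ne) f (coe_mem_Gm.2 hg), mul_assoc, e, mul_zero]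

end CfsgH1
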