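import Cfsg.Agent.H1.Mi
import Cfsg.Agent.H1.St3

/-! The quartets of a dodecad. -/

set_option autoImplicit false
set_option maxRecDepth 100000

namespace CfsgH1.Qt

open Cfsg CfsgH7 CfsgH7.Gol CfsgH1.Mg CfsgH1.Mc CfsgH1.Mi MulAction
open scoped Pointwise

theorem mquar (c : M24) {d : Finset GolayPt} {Q : Finset (Finset GolayPt)} :
    c • Q ∈ quartets (c • d) ↔ Q ∈ quartets d := by
  have key : ∀ (c : M24) (d : Finset GolayPt) (Q : Finset (Finset GolayPt)), Q ∈ quartets d →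
      c • Q ∈ quartets (c • d) := by
    rintro c d Q ⟨h1, h2, h3⟩
    refine ⟨by rw [Finset.card_smul_finset, h1], fun t ht => ?_, fun t ht u hu h => ?_⟩
    · obtain ⟨t, ht', rfl⟩ := Finset.mem_smul_finset.1 ht
      rw [Finset.card_smul_finset, sub_smul]
      exact h2 t ht'
    · obtain ⟨t, ht', rfl⟩ := Finset.mem_smul_finset.1 ht
      obtain ⟨u, hu', rfl⟩ := Finset.mem_smul_finset.1 hu
      rw [← Finset.smul_finset_union, Un.mhex]
      exact h3 t ht' u hu' fun e => h (by rw [e])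
  exact ⟨fun h => by simpa using key c⁻¹ _ _ h, key c d Q⟩

/-- A necessary condition for two triples to unite to a hexad. -/
abbrev Hx (a : Nat) (v : Finset GolayPt) : Prop := v ⊆ S 0x5335f ∧ Disjoint (S a) v ∧ ∃ o ∈ octads, S a ∪ v ⊆ o

theorem hx_of {a : Nat} {v : Finset GolayPt} (ha : (S a).card = 3) (hv : v.card = 3)
    (h : S a ∪ v ∈ hexadsOn (S 0x5335f)) : Hx a v :=
  ⟨Finset.subset_union_right.trans (Un.hex_sub h), Finset.card_union_eq_card_add_card.1 (by rw [h.1, ha, hv]),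
    h.2.imp fun _ e => ⟨e.1, Finset.inter_subset_left.trans' e.2.ge⟩⟩

theorem rbT : Rb pt3 2024 (Nat.land (cntB P3 2024 (andn (ones 24) 0x5335f) 0) (Nat.land (cntB P3 2024 7 0)
    (orL (fun m => cntB P3 2024 (andn (ones 24) m) 0) [0x5a1007, 0x34200f, 0xc12017, 0x82402f, 0xb067, 0x44c087, 0xa800c7, 0x9810f, 0x104157, 0x215207, 0xc0237, 0x22387, 0x70447, 0x149f, 0x600527, 0x908607, 0x228817, 0x1108a7, 0x841907, 0x400a4f, 0x86c07]))) (Hx 7) :=
  (rb_sub rfl 2024 _).and ((rb_disj rfl 2024 _).and (rb_exOct rfl 2024 _ _ (oct_list _ _ (by decide +kernel))))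

theorem rbU : Rb pt3 2024 (Nat.land (cntB P3 2024 (andn (ones 24) 0x5335f) 0) (Nat.land (cntB P3 2024 0x150 0)
    (orL (fun m => cntB P3 2024 (andn (ones 24) m) 0) [0x4a5150, 0x8d0151, 0x3a152, 0x104157, 0x246158, 0x288174, 0x920178, 0x5481d0, 0x8031d4, 0x311350, 0x402371, 0x803da, 0x41055c, 0x41572, 0x2205d1, 0x80c750, 0xe00952, 0x9959, 0x149f0, 0x60b54, 0x182d50]))) (Hx 0x150) :=
  (rb_sub rfl 2024 _).and ((rb_disj rfl 2024 _).and (rb_exOct rfl 2024 _ _ (oct_list _ _ (by decide +kernel))))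

theorem pair_tr {d t u : Finset GolayPt} (hd : d ∈ dodecads) (ht : t.card = 3) (hu : u.card = 3)
    (h : t ∪ u ∈ hexadsOn d) : ∃ c : M24, c • S 0x5335f = d ∧ c • S 7 = t ∧ c • S 0x150 = u := by
  obtain ⟨c, rfl, rfl⟩ := dsets td3 (by decide) hd (Finset.subset_union_left.trans (Un.hex_sub h)) ht
  obtain ⟨u, rfl⟩ := ex_smul c u
  rw [← Finset.smul_finset_union, Un.mhex] at h
  rw [Finset.card_smul_finset] at hu
  obtain ⟨k, hk, rfl⟩ := F3.tr R3 memB1 rbT [0,1,0,1,0] 1120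
    (I.fpt_eq' (a := 0x150) (by decide +kernel)) (by decide +kernel) u hu (hx_of (by decide +kernel) hu h)
  exact ⟨c * k, by rw [mul_smul, mem_stabilizer_iff.1 hk.1], by rw [mul_smul, mem_stabilizer_iff.1 hk.2]; rfl,
    mul_smul _ _ _⟩

def CQ : List (List Nat) := [[0xff39513fbfddcdbedbb14d4e1f16f7b07fd7c29ec4f2db01802e02e, 0x864a640e4961a43050adae4898cb387c8245554fd716ffd46e2c07, 0x82088000202000204420116061084800082821020c000239113d0], [0xff39513fbf3616502d2266f9fac1ef1fc3bf98595f54007effd1e93, 0x864a640e4832cbc7ef40e2f76705cf423d3a0ef80ac0013c46e56c, 0x8208800048c10380099100010e00001c0047002003ff800000000], [0xf1c7fa4228ddcdbedbb7b2b1606d5367903c75607eadf9af6fc67a5, 0xfa1d0ef0f961a430505212a3d1b6ca8dfb29935189ab0041b7d072, 0x180510d020200020484c44828080102041028a814006508000808], [0x2aecee513baebf68a53ebf2eedff38fba5167ffbe1b22a264031b29, 0xe31a6f9d8068c776184350510620c24b0aca7ffbca98d499ba86482, 0x1401102244110081428000801000050450218004144501400548054],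 [0x4afea487d0af52835ecebf2eea30b515f8e8b3dd20dbd5df3daded7, 0xd315d8b01e69b820e7b35051015b305ea159cc0275475e2671e1b09, 0x240003482110055c0000008014844aa0060600208a2020008212020], [0x0, 0x0, 0x0], [0xecca5f856c8ba65b2cd50d91dff38fe0f6b611ebbacd7f8ffce4dc, 0x74fa19437374c589f3202f3c4e20c241577892252f612aaa4414a9d, 0x81014204880300120c128002a0000500a0840cc0401200050021122], [0x0, 0x0, 0x0], [0xa4d6dadcee63640f456558f3c73a86c07fd7ad27fa4d26d5d25395b, 0xb04f313d1a9c43bdea6ec48bf9973d27c824668a1212e542a9092ed, 0x4b2004020100984010902304004040180008105005a0182804a4400], [0x91333fe5c01001d132da2795378a4ecdcc409ee69f57ff0a227436e, 0xdc95283f79efb4de99d8bfdcc2ff8391358f219840ae81ccef91313, 0x2248c00006004a2044254022080030220230400120000031100ac80], [0x0, 0x0, 0x0], [0x0, 0x0, 0x0], [0x15012a884537fafbe440c1448094c82812a946a1052a2481cda9dc0, 0xbfea77de930f77a8909db5e3f3fcbffcbcd79a46ffdd9bfd789aff4, 0x4014802128c000040b220a180c0300034100211800004002024400b],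 [0xc022157303c8338c08198c225049934629c20804009908fc301a031, 0xe7bbdff3eff9fbdf6effefb6fccfdf7e7fef6ffda7ff7fffb77fdfb, 0x1844200c10060420910010490330208180109002580080004880204], [0x0, 0x0, 0x0], [0x0, 0x0, 0x0], [0x7fdfcfaefd73ed77fffffbdfbfe76dbbf63dfffbff67ff739fffffe, 0x7fdfcfaefd73ed77fffffbdfbfe76dbbf63dfffbff67ff739fffffe, 0x80203051028c1288000004204018924409c200040098008c6000001], [0x0, 0x0, 0x0], [0x0, 0x0, 0xfffffffffffffffffffffffffffffffffffffffffffffffffffffff], [0x0, 0x0, 0x0], [0x0, 0x0, 0x0], [0x0, 0x0, 0x0], [0x0, 0x0, 0x0], [0x0, 0x0, 0x0]]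

def lQ : List Net := [(Net.cons (nat_lit 128) (nat_lit 0x54d039ab75ce1eae42cedaea5cb1207b) (Net.cons (nat_lit 64) (nat_lit 0xa22eedf52d1cc8b30000000000000000b7e17562cb813450) (Net.cons (nat_lit 32) (nat_lit 0x99cf5545000000008e53dbfd0000000011a9122000000000857de010) (Net.cons (nat_lit 16) (nat_lit 0xd24300005c2c0000ad1e0000784f0000184a000069100000c84d0000a92a) (Net.cons (nat_lit 8) (nat_lit 0xcd005700cc00ba0017004300a8004500370052006d007d00f100ac001d00d7) (Net.cons (nat_lit 4) (nat_lit 0x10e02050200060e0903040a0d000e060202080001080a0904060c0e0b030401) (Net.cons (nat_lit 2) (nat_lit 0x1322121230221211121233122002300320133302312231020103021021200000) (Net.cons (nat_lit 1) (nat_lit 0x5111144410444014451114104010100101141100044544051545444410111444) (Net.cons (nat_lit 2) (nat_lit 0x202000200220002200222000000200000220200000002000000020200202202) (Net.cons (nat_lit 4) (nat_lit 0xc08000c0a00040a040a0c080400080a0204080004020404000c040202080808)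 (Net.cons (nat_lit 8) (nat_lit 0xc004c0080008a0014005200a000440094001c00a000fc00b80028001e0078) (Net.cons (nat_lit 16) (nat_lit 0xd2960000dcca00006f8c0000754600009b080000faa4000042480000329c) (Net.cons (nat_lit 32) (nat_lit 0x9bf79d44000000008ed2f9f4000000009dcf750200000000054d66dc) (Net.cons (nat_lit 64) (nat_lit 0xa6fefc755b0c3e8c00000000000000001eea372649d89134) (Net.cons (nat_lit 128) (nat_lit 0x54d039ab7db60fe762012ecc50e69982) Net.nil))))))))))))))),
  (Net.cons (nat_lit 128) (nat_lit 0xec799efe7169e49ec34f5963576579cb) (Net.cons (nat_lit 64) (nat_lit 0x996e66caf748680900000000000000007154333889be4a99) (Net.cons (nat_lit 32) (nat_lit 0x60e1029600000000b718a547000000007a1e55410000000018c1fb0b) (Net.cons (nat_lit 16) (nat_lit 0x81be0000698e0000769400003a8900007088000023c800002f82000038dc) (Net.cons (nat_lit 8) (nat_lit 0x7800ca00c6000400aa00aa009e009c0076000500c1005d00a6001700db005f) (Net.cons (nat_lit 4) (nat_lit 0xa0d080d0d0b09040b010a0e000b0a07020000080a0c0b0a02040b0c08080c)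 (Net.cons (nat_lit 2) (nat_lit 0x2020303032100331122333102022302000100033022332020321011033030120) (Net.cons (nat_lit 1) (nat_lit 0x4051151441051050111405405010444114000041144440411441405040450150) (Net.cons (nat_lit 2) (nat_lit 0x2202000002000020200000020200200000022000020222022000020000200) (Net.cons (nat_lit 4) (nat_lit 0xa0600080e000c0c0802000e0a0e0c0200000c0a000e000004080a080c0a00) (Net.cons (nat_lit 8) (nat_lit 0x1000a00086003c00b60020000800f80066000400f0002e00a80010003c0052) (Net.cons (nat_lit 16) (nat_lit 0x7142000085ec000040440000b2d000007090000060d800003c46000030ca) (Net.cons (nat_lit 32) (nat_lit 0x18f95efc00000000f7992604000000007a9e26480000000080ebba8e) (Net.cons (nat_lit 64) (nat_lit 0x1d16f07afb50b6e4000000000000000071d452380123d100) (Net.cons (nat_lit 128) (nat_lit 0xec799efe7d2f1050534256c530cca5e8) Net.nil)))))))))))))))]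

def l12 : List Net := [(Net.cons (nat_lit 16) (nat_lit 0x7b14) (Net.cons (nat_lit 8) (nat_lit 0x7700b0) (Net.cons (nat_lit 4) (nat_lit 0x4030400) (Net.cons (nat_lit 2) (nat_lit 0x12001002) (Net.cons (nat_lit 1) (nat_lit 0x4014004) (Net.cons (nat_lit 2) (nat_lit 0x2002) (Net.cons (nat_lit 4) (nat_lit 0x4000404) (Net.cons (nat_lit 8) (nat_lit 0x3e00b0) (Net.cons (nat_lit 16) (nat_lit 0x7b30) Net.nil))))))))),
  (Net.cons (nat_lit 16) (nat_lit 0x2a3c) (Net.cons (nat_lit 8) (nat_lit 0x280014) (Net.cons (nat_lit 4) (nat_lit 0x20f000d) (Net.cons (nat_lit 2) (nat_lit 0x2221121) (Net.cons (nat_lit 1) (nat_lit 0x44044) (Net.cons (nat_lit 2) (nat_lit 0x2) (Net.cons (nat_lit 4) (nat_lit 0x80000) (Net.cons (nat_lit 8) (nat_lit 0x80094) (Net.cons (nat_lit 16) (nat_lit 0x2ad0) Net.nil)))))))))]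

/-- The family of quartets. -/
noncomputable abbrev qpt : Nat → Finset (Finset GolayPt) := ppt ix CQ 3

/-- The generators of the dodecad stabiliser. -/
noncomputable abbrev g12 (k : Nat) : M24 := wprod gm (wordAt W12 k)

theorem R12 : Rep px 24 g12 l12 := rep_sub RP W12 l12 (by decide +kernel)

theorem RQ : Rep qpt 220 g12 lQ :=
  I.rep_par R12 (by decide +kernel) (by decide +kernel) rfl (nall_iff.1 (by decide +kernel))

theorem injQ : ∀ i < 220, ∀ j < 220, qpt i = qpt j → i = j :=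
  I.ppt_inj [(0, 1), (0, 2), (3, 4), (3, 6), (0, 8), (3, 16), (1, 9), (1, 18), (0, 12), (1, 6), (0, 4), (3, 12), (0, 13), (3, 8), (4, 6), (0, 18), (1, 13), (4, 9), (0, 16), (2, 4)] (by decide +kernel) (by decide +kernel)

theorem Q0_eq : qpt 216 = {S 7, S 0x150, S 0x42008, S 0x11200} :=
  (I.ppt_eq (ms := [(0x7, 0), (0x150, 4), (0x11200, 9), (0x42008, 3)]) (by decide +kernel)).trans (by decide +kernel)

theorem quar0 : qpt 216 ∈ quartets (S 0x5335f) := by
  rw [show qpt 216 = _ from I.ppt_eq (ms := [(0x7, 0), (0x150, 4), (0x11200, 9), (0x42008, 3)]) (by decide +kernel)]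
  refine ⟨by decide +kernel, fun t ht => ?_, fun t ht u hu n => ?_⟩
  · obtain ⟨a, ha, rfl⟩ := List.mem_map.1 (List.mem_toFinset.1 ht)
    clear ht
    revert a
    decide +kernel
  obtain ⟨a, ha, rfl⟩ := List.mem_map.1 (List.mem_toFinset.1 ht)
  obtain ⟨b, hb, rfl⟩ := List.mem_map.1 (List.mem_toFinset.1 hu)
  have key : ∀ a ∈ [(0x7, 0), (0x150, 4), (0x11200, 9), (0x42008, 3)], ∀ b ∈ [(0x7, 0), (0x150, 4), (0x11200, 9), (0x42008, 3)],
      a.1 ≠ b.1 → Un.isHex (Nat.lor a.1 b.1) = true := by decide +kernel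
  rw [msk_union]
  exact Un.hex_of (key a ha b hb fun e => n (congrArg S e))

theorem uniq0 {Q : Finset (Finset GolayPt)} (h : Q ∈ quartets (S 0x5335f)) (h1 : S 7 ∈ Q) (h2 : S 0x150 ∈ Q) :
    Q = qpt 216 := by
  refine Finset.eq_of_subset_of_card_le (fun v hv => ?_) (by rw [quar0.1, h.1])
  rw [Q0_eq]
  simp only [Finset.mem_insert, Finset.mem_singleton]
  by_cases a : S 7 = v
  · exact Or.inl a.symm
  by_cases b : S 0x150 = v
  · exact Or.inr (Or.inl b.symm)
  have c := (h.2.1 v hv).1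
  rcases F3.imp (rbT.and rbU) ((F3.sing (b := 1190) (by norm_num)).or (F3.sing (b := 426) (by norm_num)))
    (by decide +kernel) v c ⟨hx_of (by decide +kernel) c (h.2.2 _ h1 v hv a),
      hx_of (by decide +kernel) c (h.2.2 _ h2 v hv b)⟩ with e | e
  · exact Or.inr (Or.inr (Or.inl (e.trans (I.fpt_eq' (by decide +kernel)))))
  · exact Or.inr (Or.inr (Or.inr (e.trans (I.fpt_eq' (by decide +kernel)))))

theorem uniq {c : M24} {Q : Finset (Finset GolayPt)} (h : Q ∈ quartets (c • S 0x5335f)) (h1 : c • S 7 ∈ Q)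
    (h2 : c • S 0x150 ∈ Q) : Q = c • qpt 216 := by
  obtain ⟨Q, rfl⟩ := ex_smul c Q
  rw [uniq0 ((mquar c).1 h) ((Finset.smul_mem_smul_finset_iff c).1 h1) ((Finset.smul_mem_smul_finset_iff c).1 h2)]

theorem quar_tr {d : Finset GolayPt} (hd : d ∈ dodecads) {Q : Finset (Finset GolayPt)} (h : Q ∈ quartets d) :
    ∃ c : M24, c • S 0x5335f = d ∧ c • qpt 216 = Q := by
  obtain ⟨t, ht, u, hu, n⟩ := Finset.one_lt_card.1 (by rw [h.1]; norm_num : 1 < Q.card)
  obtain ⟨c, rfl, rfl, rfl⟩ := pair_tr hd (h.2.1 t ht).1 (h.2.1 u hu).1 (h.2.2 t ht u hu n)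
  exact ⟨c, rfl, (uniq h ht hu).symm⟩

theorem FQ : Fam (quartets (S 0x5335f)) qpt 220 :=
  Fam.of_orbit RQ injQ (gen_sub gm gen12) [0,1,0,1,0,1,0,1,0,1,0,1,0] 216 (by decide +kernel) fun _ =>
    ⟨quar_tr dod0, by
      rintro ⟨c, hc, rfl⟩
      rw [← mem_stabilizer_iff.1 hc]
      exact (mquar c).2 quar0⟩

noncomputable abbrev KU : Subgroup M24 := K12 ⊓ stabilizer M24 (qpt 216)

def WU : List (List Nat) := [[2,2,0,0,3],[0,3,0,2,2,1]]

theorem memU : ∀ w ∈ WU, wprod g12 w ∈ KU :=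
  mem_inf' (fun w _ => wprod_mem' (mem_sub mem12) w) (RQ.mem_stab (by decide +kernel))

theorem cardU : Nat.card KU = 432 :=
  RQ.card_stab injQ (gen_sub gm gen12) card12 ⟨216, [0,1,0,1,0,1,0,1,0,1,0,1,0], 220⟩ 8 rfl (by decide +kernel)

theorem genU : genW g12 WU = KU :=
  R12.gen_of I.inj memU cardU [⟨0, [[0],[2]], [0,0,1,0,1,0], 12⟩,
  ⟨3, [[2],[0,2,1,2,1]], [0,1,0,1], 9⟩,
  ⟨6, [[0,3,0,3,1,2],[2,1,2,2,2,0,3]], [0,1], 4⟩] 5 (by decide +kernel)

end CfsgH1.Qt
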