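import Mathlib
import Cfsg.Prelude.Def_RootSubgroups
import Cfsg.Agent.H9.QS

/-! Rank one groups: first properties. -/

set_option autoImplicit false
set_option linter.unusedSectionVars false

namespace CfsgH1

open Subgroup Cfsg CfsgH9
open scoped commutatorElement

variable {G : Type*} [Group G]

/-- Rank one pair. -/
abbrev RP (A B : Subgroup G) : Prop := IsRankOnePair A B

/-- The unipotent subgroups of `⟨A, B⟩`. -/
abbrev Om (A B : Subgroup G) : Set (Subgroup G) := unipotentSubgroups A B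

theorem mem_Om {A B C : Subgroup G} : C ∈ Om A B ↔ ∃ x ∈ A ⊔ B, C = cj x A := Iff.rfl

theorem cj_eq_cj_iff {x y : G} {A B : Subgroup G} : cj x A = cj y B ↔ cj (y⁻¹ * x) A = B := by
  rw [← cj_cj]
  constructor
  · intro h; rw [h, cj_inv_cj]
  · intro h; rw [← h, cj_cj_inv]

theorem cj_mul_mem (x : G) {a : G} {A : Subgroup G} (ha : a ∈ A) : cj (x * a) A = cj x A := by
  rw [← cj_cj, cj_eq_of_mem ha]

theorem nilp_map {H : Type*} [Group H] (f : G →* H) {A : Subgroup G} (h : Group.IsNilpotent A) :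
    Group.IsNilpotent (A.map f) :=
  nilpotent_of_surjective (f.subgroupMap A) (f.subgroupMap_surjective A)

theorem nilp_of_comm {A : Subgroup G} (h : IsMulCommutative A) : Group.IsNilpotent A := by
  letI : CommGroup A := { (inferInstance : Group A) with mul_comm := h.is_comm.comm }
  infer_instance

theorem comm_of_mem {A : Subgroup G} (h : IsMulCommutative A) {a b : G} (ha : a ∈ A) (hb : b ∈ A) :
    a * b = b * a := by
  have := h.is_comm.comm (⟨a, ha⟩ : A) ⟨b, hb⟩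
  exact congrArg Subtype.val this

theorem isComm_of {A : Subgroup G} (h : ∀ a ∈ A, ∀ b ∈ A, a * b = b * a) : IsMulCommutative A :=
  ⟨⟨fun a b => Subtype.ext (h a a.2 b b.2)⟩⟩

theorem isComm_iff {A : Subgroup G} : IsMulCommutative A ↔ ⁅A, A⁆ = ⊥ := by
  rw [comm_bot_iff_forall]
  exact ⟨fun h a ha b hb => comm_of_mem h ha hb, isComm_of⟩

theorem isComm_cj {A : Subgroup G} (h : IsMulCommutative A) (g : G) : IsMulCommutative (cj g A) := by
  rw [isComm_iff] at h ⊢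
  rw [← cj_commutator, h, cj_bot]

theorem isComm_map {H : Type*} [Group H] (f : G →* H) {A : Subgroup G} (h : IsMulCommutative A) :
    IsMulCommutative (A.map f) := by
  rw [isComm_iff] at h ⊢
  rw [← map_commutator, h, Subgroup.map_bot]

/-- A perfect group `X = N A` with `N` normal and `A` solvable equals `N`. -/
theorem le_of_perfect_of_sup {X N A : Subgroup G} (hp : ⁅X, X⁆ = X)
    (hn : X ≤ normalizer (N : Set G)) (e : N ⊔ A = X) (hs : Group.IsSolvable A) : X ≤ N := by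
  have hA : A ≤ normalizer (N : Set G) := (e ▸ le_sup_right : A ≤ X).trans hn
  rw [← bar_eq_bot hn]
  have e1 : bar N X = bar N A := by
    have : bar N N = ⊥ := (bar_eq_bot le_normalizer).2 le_rfl
    rw [← e]
    unfold bar at this ⊢
    rw [subgroupOf_sup le_normalizer hA, Subgroup.map_sup, this, bot_sup_eq]
  apply eq_bot_of_perfect_of_solvable
  · rw [e1]
    haveI : Group.IsSolvable (A.subgroupOf (normalizer (N : Set G))) :=
      solvable_of_solvable_injective (f := (subgroupOfEquivOfLe hA).toMonoidHom)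
        (subgroupOfEquivOfLe hA).injective
    exact solvable_of_surjective (MonoidHom.subgroupMap_surjective _ _)
  · rw [← bar_commutator hn hn, hp]

namespace RP

variable {A B C D N : Subgroup G} {a b x y : G}

theorem symm (h : RP A B) : RP B A := RankOnePair_symm h

theorem exL (h : RP A B) (ha : a ∈ A) (h1 : a ≠ 1) : ∃ b ∈ B, b ≠ 1 ∧ cj b A = cj a B := by
  obtain ⟨b, hb, hb1, e⟩ := h.cond_left a⁻¹ (inv_mem ha) (inv_ne_one.2 h1)
  rw [inv_inv] at e
  exact ⟨b⁻¹, inv_mem hb, inv_ne_one.2 hb1, e⟩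

theorem exR (h : RP A B) (hb : b ∈ B) (h1 : b ≠ 1) : ∃ a ∈ A, a ≠ 1 ∧ cj b A = cj a B := by
  obtain ⟨a, ha, ha1, e⟩ := h.symm.exL hb h1
  exact ⟨a, ha, ha1, e.symm⟩

theorem of (hne : A ≠ B) (n1 : Group.IsNilpotent A) (n2 : Group.IsNilpotent B)
    (h1 : ∀ a ∈ A, a ≠ 1 → ∃ b ∈ B, b ≠ 1 ∧ cj b A = cj a B)
    (h2 : ∀ b ∈ B, b ≠ 1 → ∃ a ∈ A, a ≠ 1 ∧ cj b A = cj a B) : RP A B := by
  refine ⟨hne, n1, n2, fun a ha ha1 => ?_, fun b hb hb1 => ?_⟩
  · obtain ⟨b, hb, hb1, e⟩ := h1 a⁻¹ (inv_mem ha) (inv_ne_one.2 ha1)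
    exact ⟨b⁻¹, inv_mem hb, inv_ne_one.2 hb1, by rw [inv_inv]; exact e⟩
  · obtain ⟨a, ha, ha1, e⟩ := h2 b⁻¹ (inv_mem hb) (inv_ne_one.2 hb1)
    exact ⟨a⁻¹, inv_mem ha, inv_ne_one.2 ha1, by rw [inv_inv]; exact e.symm⟩

theorem normL (h : RP A B) (ha : a ∈ A) (e : cj a B = B) : a = 1 := by
  by_contra h1
  obtain ⟨b, hb, -, e'⟩ := h.exL ha h1
  apply h.ne
  rw [e] at e'
  rw [← cj_inv_cj b A, e', cj_eq_of_mem (inv_mem hb)]

theorem normR (h : RP A B) (hb : b ∈ B) (e : cj b A = A) : b = 1 := h.symm.normL hb e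

theorem infL (h : RP A B) : A ⊓ normalizer (B : Set G) = ⊥ :=
  eq_bot_iff.2 fun _ ha => h.normL ha.1 (cj_eq_iff.2 ha.2)

theorem infR (h : RP A B) : B ⊓ normalizer (A : Set G) = ⊥ := h.symm.infL

theorem inf (h : RP A B) : A ⊓ B = ⊥ :=
  eq_bot_iff.2 (h.infL ▸ inf_le_inf_left _ le_normalizer)

theorem neL (h : RP A B) : A ≠ ⊥ := by
  rintro rfl
  obtain ⟨⟨b, hb⟩, hb1⟩ := (ne_bot_iff_exists_ne_one).1 h.ne.symm
  obtain ⟨a, ha, ha1, -⟩ := h.exR hb (fun e => hb1 (Subtype.ext e))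
  exact ha1 (mem_bot.1 ha)

theorem neR (h : RP A B) : B ≠ ⊥ := h.symm.neL

theorem exA (h : RP A B) : ∃ a ∈ A, a ≠ 1 := by
  obtain ⟨⟨b, hb⟩, hb1⟩ := (ne_bot_iff_exists_ne_one).1 h.neL
  exact ⟨b, hb, fun e => hb1 (Subtype.ext e)⟩

theorem exB (h : RP A B) : ∃ b ∈ B, b ≠ 1 := h.symm.exA

theorem not_le_norm (h : RP A B) : ¬ B ≤ normalizer (A : Set G) := fun e =>
  h.neR (by rw [← h.infR, inf_eq_left.2 e])

theorem not_comm (h : RP A B) : ⁅A, B⁆ ≠ ⊥ := fun e =>
  h.symm.not_le_norm (le_normalizer_of_commutator_eq_bot e)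

theorem injL (h : RP A B) {a' : G} (ha : a ∈ A) (ha' : a' ∈ A) (e : cj a B = cj a' B) : a = a' := by
  have := h.normL (mul_mem (inv_mem ha') ha) (cj_eq_cj_iff.1 e)
  exact (inv_mul_eq_one.1 this).symm

theorem injR (h : RP A B) {b' : G} (hb : b ∈ B) (hb' : b' ∈ B) (e : cj b A = cj b' A) : b = b' :=
  h.symm.injL hb hb' e

theorem cj_ne (h : RP A B) (ha : a ∈ A) : cj a B ≠ A := fun e =>
  h.ne (by rw [← cj_inv_cj a B, e, cj_eq_of_mem (inv_mem ha)])

theorem map {H : Type*} [Group H] (f : G →* H) (h : RP A B) (hne : A.map f ≠ B.map f) :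
    RP (A.map f) (B.map f) := by
  refine RP.of hne (nilp_map f h.nilpotent_left) (nilp_map f h.nilpotent_right) ?_ ?_
  · rintro _ ⟨a, ha, rfl⟩ h1
    obtain ⟨b, hb, -, e⟩ := h.exL ha (fun e => h1 (by rw [e, map_one]))
    have e' := congrArg (Subgroup.map f) e
    rw [map_cj, map_cj] at e'
    refine ⟨f b, mem_map_of_mem f hb, fun e1 => hne ?_, e'⟩
    rw [e1, cj_one] at e'
    rw [← cj_inv_cj (f a) (B.map f), ← e', cj_eq_of_mem (inv_mem (mem_map_of_mem f ha))]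
  · rintro _ ⟨b, hb, rfl⟩ h1
    obtain ⟨a, ha, -, e⟩ := h.exR hb (fun e => h1 (by rw [e, map_one]))
    have e' := congrArg (Subgroup.map f) e
    rw [map_cj, map_cj] at e'
    refine ⟨f a, mem_map_of_mem f ha, fun e1 => hne ?_, e'⟩
    rw [e1, cj_one] at e'
    rw [← cj_inv_cj (f b) (A.map f), e', cj_eq_of_mem (inv_mem (mem_map_of_mem f hb))]

theorem conj (h : RP A B) (g : G) : RP (cj g A) (cj g B) :=
  h.map _ (fun e => h.ne (cj_inj.1 e))

theorem of_cj {g : G} (h : RP (cj g A) (cj g B)) : RP A B := by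
  have := h.conj g⁻¹
  rwa [cj_inv_cj, cj_inv_cj] at this

theorem left_mem (A B : Subgroup G) : A ∈ Om A B := ⟨1, one_mem _, (cj_one A).symm⟩

theorem cj_mem_Om (hC : C ∈ Om A B) (hx : x ∈ A ⊔ B) : cj x C ∈ Om A B := by
  obtain ⟨y, hy, rfl⟩ := hC
  exact ⟨x * y, mul_mem hx hy, cj_cj _ _ _⟩

theorem right_mem (h : RP A B) : B ∈ Om A B := by
  obtain ⟨a, ha, ha1⟩ := h.exA
  obtain ⟨b, hb, -, e⟩ := h.exL ha ha1
  exact ⟨a⁻¹ * b, mul_mem (inv_mem (mem_sup_left ha)) (mem_sup_right hb), (cj_eq_cj_iff.1 e).symm⟩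

theorem le_of_mem (hC : C ∈ Om A B) : C ≤ A ⊔ B := by
  obtain ⟨y, hy, rfl⟩ := hC
  exact cj_le_of_mem hy le_sup_left

theorem mem_iff (h : RP A B) : C ∈ Om A B ↔ C = A ∨ ∃ a ∈ A, C = cj a B := by
  constructor
  · rintro ⟨x, hx, rfl⟩
    have k1 : ∀ b ∈ B, cj b A = A ∨ ∃ a ∈ A, cj b A = cj a B := by
      intro b hb
      by_cases hb1 : b = 1
      · left; rw [hb1, cj_one]
      · obtain ⟨a, ha, -, e⟩ := h.exR hb hb1
        exact Or.inr ⟨a, ha, e⟩
    have k2 : ∀ x ∈ (A : Set G) ∪ B, ∀ C, (C = A ∨ ∃ a ∈ A, C = cj a B) →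
        (cj x C = A ∨ ∃ a ∈ A, cj x C = cj a B) := by
      rintro x (hx | hx) C (e | ⟨a, ha, e⟩) <;> rw [e]
      · exact Or.inl (cj_eq_of_mem hx)
      · exact Or.inr ⟨x * a, mul_mem hx ha, cj_cj _ _ _⟩
      · exact k1 x hx
      · by_cases ha1 : a = 1
        · right; exact ⟨1, one_mem _, by rw [ha1, cj_one, cj_eq_of_mem hx]⟩
        · obtain ⟨b, hb, -, e⟩ := h.exL ha ha1
          rw [← e, cj_cj]
          exact k1 _ (mul_mem hx hb)
    have key : ∀ x ∈ A ⊔ B, ∀ C, (C = A ∨ ∃ a ∈ A, C = cj a B) →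
        (cj x C = A ∨ ∃ a ∈ A, cj x C = cj a B) := by
      intro x hx
      rw [sup_eq_closure] at hx
      induction hx using closure_induction'' with
      | mem x hx => exact k2 x hx
      | inv_mem x hx =>
        rcases hx with hx | hx
        · exact k2 _ (Or.inl (inv_mem hx))
        · exact k2 _ (Or.inr (inv_mem hx))
      | one => intro C hC; rwa [cj_one]
      | mul x y _ _ hx hy => intro C hC; rw [← cj_cj]; exact hx _ (hy _ hC)
    exact key x hx A (Or.inl rfl)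
  · rintro (rfl | ⟨a, ha, rfl⟩)
    · exact left_mem _ _
    · exact cj_mem_Om h.right_mem (mem_sup_left ha)

theorem Om_symm (h : RP A B) : Om B A = Om A B := by
  have key : ∀ {A B : Subgroup G}, RP A B → Om B A ⊆ Om A B := by
    intro A B h C ⟨x, hx, e⟩
    rw [e]; exact cj_mem_Om h.right_mem (by rwa [sup_comm])
  exact Set.Subset.antisymm (key h) (key h.symm)

theorem mem_iff' (h : RP A B) : C ∈ Om A B ↔ C = B ∨ ∃ b ∈ B, C = cj b A := by
  rw [← h.Om_symm]; exact h.symm.mem_iff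

theorem trans2 (h : RP A B) (hC : C ∈ Om A B) (hD : D ∈ Om A B) (hne : C ≠ D) :
    ∃ x ∈ A ⊔ B, cj x A = C ∧ cj x B = D := by
  obtain ⟨x, hx, rfl⟩ := hC
  rcases h.mem_iff.1 (cj_mem_Om hD (inv_mem hx)) with e | ⟨a, ha, e⟩
  · exact absurd (by rw [← cj_cj_inv x D, e]) hne
  · refine ⟨x * a, mul_mem hx (mem_sup_left ha), cj_mul_mem x ha, ?_⟩
    rw [← cj_cj, ← e, cj_cj_inv]

theorem rp_of_mem (h : RP A B) (hC : C ∈ Om A B) (hD : D ∈ Om A B) (hne : C ≠ D) : RP C D := by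
  obtain ⟨x, -, rfl, rfl⟩ := h.trans2 hC hD hne
  exact h.conj x

theorem sup_of_mem (h : RP A B) (hC : C ∈ Om A B) (hD : D ∈ Om A B) (hne : C ≠ D) :
    C ⊔ D = A ⊔ B := by
  obtain ⟨x, hx, rfl, rfl⟩ := h.trans2 hC hD hne
  rw [← cj_sup, cj_eq_of_mem hx]

theorem Om_of_mem (h : RP A B) (hC : C ∈ Om A B) (hD : D ∈ Om A B) (hne : C ≠ D) :
    Om C D = Om A B := by
  have e := h.sup_of_mem hC hD hne
  obtain ⟨y, hy, rfl⟩ := hC
  ext E
  rw [mem_Om, mem_Om, e]
  constructor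
  · rintro ⟨x, hx, rfl⟩; exact ⟨x * y, mul_mem hx hy, cj_cj _ _ _⟩
  · rintro ⟨x, hx, rfl⟩
    exact ⟨x * y⁻¹, mul_mem hx (inv_mem hy), by rw [cj_cj, inv_mul_cancel_right]⟩

theorem rp_cj (h : RP A B) (hx : x ∈ A ⊔ B) (hne : cj x A ≠ A) : RP A (cj x A) :=
  h.rp_of_mem (left_mem _ _) (cj_mem_Om (left_mem _ _) hx) hne.symm

theorem rp_cj_right (h : RP A B) (hb : b ∈ B) (h1 : b ≠ 1) : RP A (cj b A) :=
  h.rp_cj (mem_sup_right hb) (fun e => h1 (h.normR hb e))

theorem sup_cj_right (h : RP A B) (hb : b ∈ B) (h1 : b ≠ 1) : A ⊔ cj b A = A ⊔ B :=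
  h.sup_of_mem (left_mem _ _) (cj_mem_Om (left_mem _ _) (mem_sup_right hb))
    (fun e => h1 (h.normR hb e.symm))

/-- An element of `X` whose conjugate of `A` normalizes `A` normalizes `A`. -/
theorem norm_of_cj_le (h : RP A B) (hx : x ∈ A ⊔ B) (hl : cj x A ≤ normalizer (A : Set G)) :
    cj x A = A := by
  by_contra hne
  exact (h.rp_cj hx hne).not_le_norm hl

/-- A normal subgroup of `X` normalizing `A` is central. -/
theorem central_of_le_norm (h : RP A B) (hN : N ≤ A ⊔ B) (hn : A ⊔ B ≤ normalizer (N : Set G))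
    (hA : N ≤ normalizer (A : Set G)) : ⁅N, A ⊔ B⁆ = ⊥ := by
  have hB : N ≤ normalizer (B : Set G) := by
    obtain ⟨x, hx, e⟩ := h.right_mem
    rw [e, ← cj_normalizer, ← cj_eq_of_mem_normalizer (hn hx)]
    exact cj_mono _ hA
  apply comm_bot_sup_right
  · rw [eq_bot_iff, ← h.infL]
    exact le_inf (commutator_le_right_of hA)
      ((commutator_le_left_of (le_sup_left.trans hn)).trans hB)
  · rw [eq_bot_iff, ← h.infR]
    exact le_inf (commutator_le_right_of hB)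
      ((commutator_le_left_of (le_sup_right.trans hn)).trans hA)

theorem normal (h : RP A B) (hN : N ≤ A ⊔ B) (hn : A ⊔ B ≤ normalizer (N : Set G)) :
    N ⊔ A = A ⊔ B ∨ ⁅N, A ⊔ B⁆ = ⊥ := by
  by_cases hA : N ≤ normalizer (A : Set G)
  · exact Or.inr (h.central_of_le_norm hN hn hA)
  · left
    obtain ⟨n, hn1, hn2⟩ := SetLike.not_le_iff_exists.1 hA
    have e := h.sup_of_mem (left_mem _ _) (cj_mem_Om (left_mem _ _) (hN hn1))
      (fun e => hn2 (cj_eq_iff.1 e.symm))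
    apply le_antisymm (sup_le hN le_sup_left)
    rw [← e]
    exact sup_le le_sup_right (cj_le_of_mem (mem_sup_left hn1) le_sup_right)

theorem not_nilp (h : RP A B) : ¬ Group.IsNilpotent (A ⊔ B : Subgroup G) := by
  intro hn
  have hc := normalizerCondition_of_isNilpotent (G := (A ⊔ B : Subgroup G))
  set X := A ⊔ B with hX
  set P : Subgroup X := (normalizer (A : Set G)).subgroupOf X with hP
  have hlt : P < ⊤ := by
    rw [lt_top_iff_ne_top]
    intro e
    apply h.not_le_norm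
    intro b hb
    have : (⟨b, mem_sup_right hb⟩ : X) ∈ P := by rw [e]; trivial
    exact this
  obtain ⟨x, hx1, hx2⟩ := SetLike.exists_of_lt (hc P hlt)
  apply hx2
  change (x : G) ∈ normalizer (A : Set G)
  rw [← cj_eq_iff]
  apply h.norm_of_cj_le x.2
  rintro _ ⟨a, ha, rfl⟩
  have : (⟨a, mem_sup_left ha⟩ : X) ∈ P := le_normalizer ha
  exact (mem_normalizer_iff.1 hx1 _).1 this

/-- second centre in ambient form -/
theorem z2 (h : RP A B) (hx : x ∈ A ⊔ B)
    (hc : ∀ y ∈ A ⊔ B, ∀ z ∈ A ⊔ B, Commute ⁅x, y⁆ z) : ∀ y ∈ A ⊔ B, Commute x y := by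
  have key : ∀ {A B : Subgroup G}, RP A B → x ∈ A ⊔ B →
      (∀ y ∈ A ⊔ B, ∀ z ∈ A ⊔ B, Commute ⁅x, y⁆ z) → ∀ a ∈ A, Commute x a := by
    intro A B h hx hc a ha
    have e : cj x A = A := by
      apply h.norm_of_cj_le hx
      rintro _ ⟨c, hc1, rfl⟩
      have : (MulAut.conj x).toMonoidHom c = ⁅x, c⁆ * c := by
        simp [commutatorElement_def]
      rw [this]
      refine mul_mem ?_ (le_normalizer hc1)
      apply centralizer_le_normalizer
      intro z hz
      exact (hc c (mem_sup_left hc1) z (mem_sup_left hz)).symm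
    have m : ⁅x, a⁆ ∈ A := by
      rw [commutatorElement_def]
      refine mul_mem ?_ (inv_mem ha)
      rw [← e]; exact conj_mem_cj x ha
    have : ⁅x, a⁆ = 1 := by
      apply h.normL m
      rw [cj_eq_iff]
      apply centralizer_le_normalizer
      intro z hz
      exact (hc a (mem_sup_left ha) z (mem_sup_right hz)).symm
    exact commutatorElement_eq_one_iff_commute.1 this
  have h1 := key h hx hc
  have h2 := key h.symm (by rwa [sup_comm]) (by rwa [sup_comm])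
  have : A ⊔ B ≤ centralizer {x} := by
    apply sup_le
    · intro a ha; rw [mem_centralizer_singleton_iff]; exact (h1 a ha).symm
    · intro a ha; rw [mem_centralizer_singleton_iff]; exact (h2 a ha).symm
  intro y hy
  exact (mem_centralizer_singleton_iff.1 (this hy)).symm

theorem qs (h : RP A B) (hp : ⁅A ⊔ B, A ⊔ B⁆ = A ⊔ B) : QS (A ⊔ B) := by
  refine ⟨hp, fun e => h.neL (eq_bot_iff.2 (e ▸ le_sup_left)), fun N hN hn => ?_⟩
  rcases h.normal hN hn with e | e
  · left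
    apply le_antisymm hN
    haveI := h.nilpotent_left
    exact le_of_perfect_of_sup hp hn e inferInstance
  · exact Or.inr e

end RP

end CfsgH1
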