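import Cfsg.Agent.H1.RS1
import Cfsg.Agent.H1.SL2P

/-! Special rank one groups. -/

set_option autoImplicit false
set_option linter.unusedSectionVars false

namespace CfsgH1

open Subgroup Cfsg CfsgH9
open scoped commutatorElement MatrixGroups

variable {G : Type*} [Group G]

/-- Matched pair of elements. -/
def Mt (A B : Subgroup G) (a b : G) : Prop := a ∈ A ∧ b ∈ B ∧ cj b A = cj a B

/-- Special rank one pair. -/
abbrev Sp (A B : Subgroup G) : Prop := IsSpecialRankOnePair A B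

open Classical in
/-- The partner of `a`. -/
noncomputable def pt (A B : Subgroup G) (a : G) : G := if h : ∃ b, Mt A B a b then h.choose else 1

variable {A B C D N : Subgroup G} {a b x y g : G}

theorem Mt.symm (m : Mt A B a b) : Mt B A b a := ⟨m.2.1, m.1, m.2.2.symm⟩

theorem cj_conj (g x : G) (A : Subgroup G) : cj (g * x * g⁻¹) (cj g A) = cj g (cj x A) := by
  rw [cj_cj, cj_cj, inv_mul_cancel_right]

theorem Mt.conj (m : Mt A B a b) (g : G) : Mt (cj g A) (cj g B) (g * a * g⁻¹) (g * b * g⁻¹) :=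
  ⟨conj_mem_cj g m.1, conj_mem_cj g m.2.1, by rw [cj_conj, cj_conj, m.2.2]⟩

theorem Mt.map {H : Type*} [Group H] (f : G →* H) (m : Mt A B a b) :
    Mt (A.map f) (B.map f) (f a) (f b) :=
  ⟨mem_map_of_mem f m.1, mem_map_of_mem f m.2.1, by rw [← map_cj, ← map_cj, m.2.2]⟩

theorem Mt.swap (m : Mt A B a b) (h1 : cj g A = B) (h2 : cj g B = A) :
    Mt A B (g * b * g⁻¹) (g * a * g⁻¹) := by
  have := (m.conj g).symm
  rwa [h1, h2] at this

theorem Mt.fix (m : Mt A B a b) (h1 : cj g A = A) (h2 : cj g B = B) :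
    Mt A B (g * a * g⁻¹) (g * b * g⁻¹) := by
  have := m.conj g
  rwa [h1, h2] at this

namespace RP

theorem ne1 (h : RP A B) (m : Mt A B a b) : a ≠ 1 := by
  rintro rfl
  have e := m.2.2
  rw [cj_one] at e
  exact h.symm.cj_ne m.2.1 e

theorem ne2 (h : RP A B) (m : Mt A B a b) : b ≠ 1 := h.symm.ne1 m.symm

theorem exM (h : RP A B) (ha : a ∈ A) (h1 : a ≠ 1) : ∃ b, Mt A B a b := by
  obtain ⟨b, hb, -, e⟩ := h.exL ha h1
  exact ⟨b, ha, hb, e⟩

theorem exM' (h : RP A B) (hb : b ∈ B) (h1 : b ≠ 1) : ∃ a, Mt A B a b := by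
  obtain ⟨a, m⟩ := h.symm.exM hb h1
  exact ⟨a, m.symm⟩

theorem uniq (h : RP A B) {b' : G} (m : Mt A B a b) (m' : Mt A B a b') : b = b' :=
  h.injR m.2.1 m'.2.1 (m.2.2.trans m'.2.2.symm)

theorem uniq' (h : RP A B) {a' : G} (m : Mt A B a b) (m' : Mt A B a' b) : a = a' :=
  h.symm.uniq m.symm m'.symm

theorem mt_pt (h : RP A B) (ha : a ∈ A) (h1 : a ≠ 1) : Mt A B a (pt A B a) := by
  rw [pt, dif_pos (h.exM ha h1)]
  exact (h.exM ha h1).choose_spec

theorem pt_eq (h : RP A B) (m : Mt A B a b) : pt A B a = b :=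
  h.uniq (h.mt_pt m.1 (h.ne1 m)) m

theorem rel_of_inv (h : RP A B) (m : Mt A B a b) (m' : Mt A B a⁻¹ b⁻¹) :
    b * a * b⁻¹ = a * b⁻¹ * a⁻¹ := by
  obtain ⟨β, hβ, e⟩ : b * a * b⁻¹ ∈ cj a B := m.2.2 ▸ conj_mem_cj b m.1
  have e : a * β * a⁻¹ = b * a * b⁻¹ := e
  have e1 : cj (a * b⁻¹ * a) A = B := by
    rw [cj_mul_mem _ m.1, ← cj_cj, m'.2.2, cj_cj_inv]
  have e2 : a * b⁻¹ * a = b⁻¹ * (a * β) := by
    calc _ = b⁻¹ * (b * a * b⁻¹) * a := by group
      _ = _ := by rw [← e]; group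
  rw [e2, ← cj_cj, ← cj_cj] at e1
  have e3 : cj β A = cj b⁻¹ A := by
    rw [m'.2.2, ← cj_eq_of_mem m.2.1, ← e1, cj_cj_inv, cj_inv_cj]
  rw [← e, h.injR hβ m'.2.1 e3]

theorem inv_of_rel (h : RP A B) (m : Mt A B a b) (e : b * a * b⁻¹ = a * b⁻¹ * a⁻¹) :
    Mt A B a⁻¹ b⁻¹ := by
  obtain ⟨a', m'⟩ := h.exM' (inv_mem m.2.1) (inv_ne_one.2 (h.ne2 m))
  have e2 : a * b⁻¹ * a = b⁻¹ * (a * b⁻¹) := by
    calc _ = b⁻¹ * (b * a * b⁻¹) * a := by group
      _ = _ := by rw [e]; group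
  have e3 : cj b⁻¹ (cj (a * a') B) = cj (a * a') B := by
    rw [← cj_cj, ← m'.2.2, cj_cj a, cj_cj, ← e2, cj_mul_mem _ m.1]
  have e4 : cj (a * a') B = B := by
    by_contra hne
    have r := h.rp_of_mem h.right_mem (cj_mem_Om h.right_mem (mem_sup_left (mul_mem m.1 m'.1)))
      (Ne.symm hne)
    exact h.ne2 m (inv_eq_one.1 (r.normL (inv_mem m.2.1) e3))
  rw [← eq_inv_of_mul_eq_one_right (h.normL (mul_mem m.1 m'.1) e4)]
  exact m'

theorem sp_of (h : RP A B) (hi : ∀ a b, Mt A B a b → Mt A B a⁻¹ b⁻¹) : Sp A B := by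
  refine ⟨h, fun a ha _ b hb _ e => ?_⟩
  have m : Mt A B a⁻¹ b⁻¹ := ⟨inv_mem ha, inv_mem hb, e⟩
  have := h.rel_of_inv m (hi _ _ m)
  simp only [inv_inv] at this
  calc b⁻¹ * a * b = (b⁻¹ * a⁻¹ * b)⁻¹ := by group
    _ = _ := by rw [this]; group

theorem sp_of_rel (h : RP A B) (hi : ∀ a b, Mt A B a b → b * a * b⁻¹ = a * b⁻¹ * a⁻¹) : Sp A B :=
  h.sp_of fun a b m => h.inv_of_rel m (hi a b m)

theorem comm_right (h : RP A B) (hA : IsMulCommutative A) : IsMulCommutative B := by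
  obtain ⟨x, -, e⟩ := h.right_mem
  rw [e]; exact isComm_cj hA x

end RP

/-- The element `a b⁻¹ a`. -/
def nn (a b : G) : G := a * b⁻¹ * a

namespace Sp

theorem rp (h : Sp A B) : RP A B := h.1

theorem rel (h : Sp A B) (m : Mt A B a b) : b * a * b⁻¹ = a * b⁻¹ * a⁻¹ := by
  have := h.2 a⁻¹ (inv_mem m.1) (inv_ne_one.2 (h.rp.ne1 m)) b⁻¹ (inv_mem m.2.1)
    (inv_ne_one.2 (h.rp.ne2 m)) (by rw [inv_inv, inv_inv]; exact m.2.2)
  simp only [inv_inv] at this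
  calc b * a * b⁻¹ = (b * a⁻¹ * b⁻¹)⁻¹ := by group
    _ = _ := by rw [this]; group

theorem inv (h : Sp A B) (m : Mt A B a b) : Mt A B a⁻¹ b⁻¹ := h.rp.inv_of_rel m (h.rel m)

theorem symm (h : Sp A B) : Sp B A := h.rp.symm.sp_of fun _ _ m => (h.inv m.symm).symm

theorem map {H : Type*} [Group H] (f : G →* H) (h : Sp A B) (hne : A.map f ≠ B.map f) :
    Sp (A.map f) (B.map f) := by
  have r := h.rp.map f hne
  refine r.sp_of fun a' b' m => ?_
  obtain ⟨a, ha, rfl⟩ := m.1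
  obtain ⟨b, m'⟩ := h.rp.exM ha (fun e => r.ne1 m (by rw [e, map_one]))
  rw [r.uniq m (m'.map f), ← map_inv, ← map_inv]
  exact (h.inv m').map f

theorem conj (h : Sp A B) (g : G) : Sp (cj g A) (cj g B) := h.map _ (fun e => h.1.ne (cj_inj.1 e))

theorem of_mem (h : Sp A B) (hC : C ∈ Om A B) (hD : D ∈ Om A B) (hne : C ≠ D) : Sp C D := by
  obtain ⟨x, -, rfl, rfl⟩ := h.rp.trans2 hC hD hne
  exact h.conj x

theorem nn_eq (h : Sp A B) (m : Mt A B a b) : nn a b = b⁻¹ * a * b⁻¹ := by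
  calc nn a b = b⁻¹ * (b * a * b⁻¹) * a := by rw [nn]; group
    _ = _ := by rw [h.rel m]; group

theorem nn_A (h : Sp A B) (m : Mt A B a b) : cj (nn a b) A = B := by
  rw [nn, cj_mul_mem _ m.1, ← cj_cj, (h.inv m).2.2, cj_cj_inv]

theorem nn_B (h : Sp A B) (m : Mt A B a b) : cj (nn a b) B = A := by
  rw [h.nn_eq m, cj_mul_mem _ (inv_mem m.2.1), ← cj_cj, ← m.2.2, cj_inv_cj]

theorem nn_a (h : Sp A B) (m : Mt A B a b) : nn a b * a * (nn a b)⁻¹ = b⁻¹ := by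
  nth_rewrite 1 [h.nn_eq m]
  rw [nn]; group

theorem nn_b (h : Sp A B) (m : Mt A B a b) : nn a b * b * (nn a b)⁻¹ = a⁻¹ := by
  nth_rewrite 1 [h.nn_eq m]
  rw [nn]; group

theorem nn_mem (m : Mt A B a b) : nn a b ∈ A ⊔ B :=
  mul_mem (mul_mem (mem_sup_left m.1) (mem_sup_right (inv_mem m.2.1))) (mem_sup_left m.1)

theorem nu_mem (h : Sp A B) (m : Mt A B a b) {z : G} (hz : z ∈ B) :
    nn a b * z * (nn a b)⁻¹ ∈ A := h.nn_B m ▸ conj_mem_cj _ hz

/-- The fundamental identity. -/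
theorem ident (h : Sp A B) (m : Mt A B a b) {z v s : G} (m1 : Mt A B x z) (m2 : Mt A B (a * x) v)
    (m3 : Mt A B (a⁻¹ * (nn a b * z * (nn a b)⁻¹)) s) :
    nn a b * v * (nn a b)⁻¹ = a⁻¹ * (nn a b * s * (nn a b)⁻¹) := by
  set n := nn a b with hn
  have hA := h.nn_A m
  have k : ∀ {c d : G}, Mt A B c d → cj (n * d * n⁻¹) B = cj (n * c) B := by
    intro c d mm
    rw [← cj_cj n c, ← mm.2.2, ← cj_conj, hA]
  apply h.rp.injL (h.nu_mem m m2.2.1) (mul_mem (inv_mem m.1) (h.nu_mem m m3.2.1))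
  rw [k m2, ← cj_cj a⁻¹, k m3, ← mul_assoc n a⁻¹, ← cj_cj (n * a⁻¹), k m1, cj_cj, cj_cj]
  congr 1
  have e : n * a = b⁻¹ * n := by rw [← h.nn_a m, ← hn]; group
  rw [← mul_assoc, e, show b⁻¹ = a⁻¹ * n * a⁻¹ by rw [hn, nn]; group]
  group

theorem ident_ne (h : Sp A B) (m : Mt A B a b) {z : G} (m1 : Mt A B x z) (h1 : a * x ≠ 1) :
    a⁻¹ * (nn a b * z * (nn a b)⁻¹) ≠ 1 := by
  intro e
  apply h1
  have e1 : z = b⁻¹ := by
    have := h.nn_b m
    calc z = (nn a b)⁻¹ * a * (a⁻¹ * (nn a b * z * (nn a b)⁻¹)) * nn a b := by group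
      _ = (nn a b)⁻¹ * (a⁻¹)⁻¹ * nn a b := by rw [e]; group
      _ = _ := by rw [← this]; group
  rw [e1] at m1
  rw [h.rp.uniq' m1 (h.inv m), mul_inv_cancel]

theorem pow_eq_one (h : Sp A B) (m : Mt A B a b) {k : ℕ} (e : a ^ k = 1) : b ^ k = 1 := by
  rw [← inv_eq_one, ← inv_pow, ← h.nn_a m, conj_pow, e]; simp

theorem pt_pow (h : Sp A B) (hA : IsMulCommutative A) (k : ℕ) :
    ∀ {x z v : G}, Mt A B x z → Mt A B (x ^ k) v → v ^ k = z := by
  induction k with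
  | zero => intro x z v _ m; exact absurd (pow_zero x) (h.rp.ne1 m)
  | succ k ih =>
    intro x z v m1 m2
    by_cases e : x ^ k = 1
    · rw [pow_succ, e, one_mul] at m2
      rw [h.rp.uniq m2 m1, pow_succ, h.pow_eq_one m1 e, one_mul]
    obtain ⟨b, m⟩ := h.rp.exM (pow_mem m1.1 k) e
    have hz : nn (x ^ k) b * z * (nn (x ^ k) b)⁻¹ = ((x ^ k)⁻¹) ^ k := by
      rw [← ih m1 m, ← conj_pow, h.nn_b m]
    have n3 := h.ident_ne m m1 (by rw [← pow_succ]; exact h.rp.ne1 m2)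
    obtain ⟨s, m3⟩ := h.rp.exM (mul_mem (inv_mem m.1) (h.nu_mem m m1.2.1)) n3
    have key := h.ident m m1 (by rw [← pow_succ]; exact m2) m3
    have e3 : (x ^ k)⁻¹ * (nn (x ^ k) b * z * (nn (x ^ k) b)⁻¹) = ((x ^ (k + 1))⁻¹) ^ k := by
      rw [hz]; group
    rw [e3] at m3
    have e4 := ih (h.inv m2) m3
    have c : Commute (x ^ k)⁻¹ (nn (x ^ k) b * s * (nn (x ^ k) b)⁻¹) :=
      comm_of_mem hA (inv_mem m.1) (h.nu_mem m m3.2.1)
    have e5 := congrArg (· ^ k) key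
    simp only [c.mul_pow, conj_pow, e4, ← hz] at e5
    have : v ^ k = z * v⁻¹ := by
      calc v ^ k = (nn (x ^ k) b)⁻¹ * (nn (x ^ k) b * v ^ k * (nn (x ^ k) b)⁻¹) * nn (x ^ k) b := by
            group
        _ = _ := by rw [e5]; group
    rw [pow_succ, this, inv_mul_cancel_right]

theorem pow_inj (h : Sp A B) (hA : IsMulCommutative A) {k : ℕ} (hx : x ∈ A) (hy : y ∈ A)
    (h1 : x ^ k ≠ 1) (e : x ^ k = y ^ k) : x = y := by
  obtain ⟨v, m⟩ := h.rp.exM (pow_mem hx k) h1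
  obtain ⟨z, m1⟩ := h.rp.exM hx (fun e => h1 (by rw [e, one_pow]))
  obtain ⟨z', m2⟩ := h.rp.exM hy (fun e' => h1 (by rw [e, e', one_pow]))
  have e1 := h.pt_pow hA k m1 m
  have e2 := h.pt_pow hA k m2 (e ▸ m)
  rw [← e1] at m1
  rw [← e2] at m2
  exact h.rp.uniq' m1 m2

theorem pow_eq_one_of (h : Sp A B) (hA : IsMulCommutative A) {k : ℕ} (ha : a ∈ A) (h1 : a ≠ 1)
    (e : a ^ k = 1) (hx : x ∈ A) : x ^ k = 1 := by
  by_contra hk
  have := h.pow_inj hA hx (mul_mem hx ha) hk (by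
    rw [Commute.mul_pow (comm_of_mem hA hx ha), e, mul_one])
  exact h1 (by simpa using this)

theorem exists_root (h : Sp A B) (hA : IsMulCommutative A) {k : ℕ} (ha : a ∈ A) (h1 : a ^ k ≠ 1) :
    ∃ c ∈ A, c ^ k = a := by
  obtain ⟨b, m⟩ := h.rp.exM ha (fun e => h1 (by rw [e, one_pow]))
  obtain ⟨v, m'⟩ := h.rp.exM (pow_mem ha k) h1
  refine ⟨(nn a b * v * (nn a b)⁻¹)⁻¹, inv_mem (h.nu_mem m m'.2.1), ?_⟩
  rw [inv_pow, conj_pow, h.pt_pow hA k m m', h.nn_b m, inv_inv]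

theorem exp_or_tf (h : Sp A B) (hA : IsMulCommutative A) :
    (∃ p : ℕ, p.Prime ∧ ∀ a ∈ A, a ^ p = 1) ∨ ∀ a ∈ A, a ≠ 1 → ¬ IsOfFinOrder a := by
  by_contra hc
  push Not at hc
  obtain ⟨h1, a, ha, ha1, hf⟩ := hc
  have hn : orderOf a ≠ 1 := by rwa [Ne, orderOf_eq_one_iff]
  obtain ⟨p, hp, k, hk⟩ := Nat.exists_prime_and_dvd hn
  obtain ⟨x, hx, hx1⟩ := h1 p hp
  apply hx1
  refine h.pow_eq_one_of hA (pow_mem ha k) ?_ (by rw [← pow_mul, mul_comm, ← hk, pow_orderOf_eq_one]) hx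
  have h0 := hf.orderOf_pos
  refine pow_ne_one_of_lt_orderOf (by rintro rfl; simp [hk] at h0) ?_
  rw [hk] at h0 ⊢
  exact lt_mul_left (Nat.pos_of_mul_pos_left h0) hp.one_lt

theorem diag_mem (h : Sp A B) (m : Mt A B a b) {z : G} (m1 : Mt A B x z) :
    nn x z * (nn a b)⁻¹ ∈ rankOneDiagonal A B := by
  refine mem_inf.2 ⟨mem_inf.2 ⟨mul_mem (nn_mem m1) (inv_mem (nn_mem m)), ?_⟩, ?_⟩
  · rw [← cj_eq_iff, ← cj_cj]
    conv_lhs => rw [← h.nn_B m, cj_inv_cj, h.nn_B m1]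
  · rw [← cj_eq_iff, ← cj_cj]
    conv_lhs => rw [← h.nn_A m, cj_inv_cj, h.nn_A m1]

theorem mul_sq_mem (h : Sp A B) (hA : IsMulCommutative A) (ha : a ∈ A) (hx : x ∈ A) (h1 : a ≠ 1)
    (h2 : x ≠ 1) (h3 : a * x ≠ 1) : a * x ^ 2 ∈ ⁅A, rankOneDiagonal A B⁆ := by
  obtain ⟨b, m⟩ := h.rp.exM ha h1
  set n := nn a b with hn
  have k : ∀ {y z : G}, Mt A B y z → n * z * n⁻¹ * y ∈ ⁅A, rankOneDiagonal A B⁆ := by
    intro y z m1
    have := commutator_mem_commutator (h.nu_mem m m1.2.1) (h.diag_mem m m1)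
    convert this using 1
    rw [commutatorElement_def, ← hn]
    calc _ = n * z * n⁻¹ * (y⁻¹)⁻¹ := by rw [inv_inv]
      _ = _ := by rw [← h.nn_b m1]; group
  obtain ⟨z, m1⟩ := h.rp.exM hx h2
  obtain ⟨v, m2⟩ := h.rp.exM (mul_mem ha hx) h3
  obtain ⟨s, m3⟩ := h.rp.exM (mul_mem (inv_mem m.1) (h.nu_mem m m1.2.1)) (h.ident_ne m m1 h3)
  have key := h.ident m m1 m2 m3
  have k1 := k m1
  have k2 := k m2
  have k3 := k m3
  rw [← hn] at key k3
  rw [key] at k2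
  have hs : n * s * n⁻¹ ∈ A := h.nu_mem m m3.2.1
  have hz : n * z * n⁻¹ ∈ A := h.nu_mem m m1.2.1
  generalize n * s * n⁻¹ = S, n * z * n⁻¹ = Z at *
  have := mul_mem (mul_mem k2 (inv_mem k3)) k1
  convert this using 1
  lift a to A using ha
  lift x to A using hx
  lift S to A using hs
  lift Z to A using hz
  letI : CommGroup A := { (inferInstance : Group A) with mul_comm := hA.is_comm.comm }
  norm_cast
  apply Additive.ofMul.injective
  simp only [ofMul_mul, ofMul_inv, ofMul_pow]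
  abel

theorem comm_diag (h : Sp A B) (hA : IsMulCommutative A) (h3 : 3 < ENat.card A) :
    ⁅A, rankOneDiagonal A B⁆ = A := by
  have hle : ⁅A, rankOneDiagonal A B⁆ ≤ A :=
    commutator_le_left_of (le_trans inf_le_left inf_le_right)
  have avoid : ∀ u v w : G, ∃ a ∈ A, a ≠ u ∧ a ≠ v ∧ a ≠ w := by
    intro u v w
    by_contra hc
    push Not at hc
    have : (A : Set G) ⊆ {u, v, w} := fun a ha => by
      by_cases e1 : a = u
      · exact Or.inl e1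
      by_cases e2 : a = v
      · exact Or.inr (Or.inl e2)
      · exact Or.inr (Or.inr (hc a ha e1 e2))
    have h1 := Set.encard_le_encard this
    have h2 := Set.encard_insert_le {v, w} u
    have h4 := Set.encard_insert_le {w} v
    rw [Set.encard_singleton] at h4
    have : (A : Set G).encard ≤ 1 + 1 + 1 := h1.trans (h2.trans (by gcongr))
    exact absurd h3 (not_lt.2 (le_of_eq_of_le rfl (this.trans (by norm_num))))
  apply le_antisymm hle
  obtain ⟨x, hx, hx1⟩ := h.rp.exA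
  obtain ⟨a, ha, a1, a2, -⟩ := avoid 1 x⁻¹ 1
  obtain ⟨a', ha', b1, b2, b3⟩ := avoid 1 x⁻¹ a
  have k1 := h.mul_sq_mem hA ha hx a1 hx1 (fun e => a2 (eq_inv_of_mul_eq_one_left e))
  have k2 := h.mul_sq_mem hA ha' hx b1 hx1 (fun e => b2 (eq_inv_of_mul_eq_one_left e))
  have k3 : a' * a⁻¹ ∈ ⁅A, rankOneDiagonal A B⁆ := by
    convert mul_mem k2 (inv_mem k1) using 1; group
  have k4 : a' * a⁻¹ ≠ 1 := fun e => b3 (mul_inv_eq_one.1 e)
  generalize a' * a⁻¹ = k at k3 k4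
  intro c hc
  by_cases c1 : c = 1
  · rw [c1]; exact one_mem _
  by_cases c2 : c * k = 1
  · rw [eq_inv_of_mul_eq_one_left c2]; exact inv_mem k3
  have := h.mul_sq_mem hA hc (hle k3) c1 k4 c2
  exact (mul_mem_cancel_right (pow_mem k3 2)).1 this

theorem perfect (h : Sp A B) (hA : IsMulCommutative A) (h3 : 3 < ENat.card A) :
    ⁅A ⊔ B, A ⊔ B⁆ = A ⊔ B := by
  have h1 : A ≤ ⁅A ⊔ B, A ⊔ B⁆ := by
    conv_lhs => rw [← h.comm_diag hA h3]
    exact commutator_mono le_sup_left (le_trans inf_le_left inf_le_left)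
  apply le_antisymm (commutator_le_self _) (sup_le h1 ?_)
  obtain ⟨x, hx, e⟩ := h.rp.right_mem
  conv_lhs => rw [e]
  exact cj_le_of_mem_normalizer (le_normalizer_commutator le_normalizer le_normalizer hx) h1

theorem exists_hom (h : Sp A B) (hA : IsMulCommutative A) {p : ℕ} [hp : Fact p.Prime]
    (m : Mt A B a b) (e : a ^ p = 1) :
    ∃ φ : SL(2, ZMod p) →* G, (∀ t, φ (sU t) = a ^ t.val) ∧ ∀ t, φ (sL t) = b ^ t.val := by
  have eb := h.pow_eq_one m e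
  have add : ∀ {c : G}, c ^ p = 1 → ∀ s t : ZMod p, c ^ (s + t).val = c ^ s.val * c ^ t.val := by
    intro c hc s t
    rw [ZMod.val_add, ← pow_add, ← pow_eq_pow_mod _ hc]
  have mul : ∀ {c : G}, c ^ p = 1 → ∀ s t : ZMod p, c ^ (s * t).val = (c ^ s.val) ^ t.val := by
    intro c hc s t
    rw [ZMod.val_mul, ← pow_mul, ← pow_eq_pow_mod _ hc]
  have neg : ∀ {c : G}, c ^ p = 1 → ∀ s : ZMod p, c ^ (-s).val = (c ^ s.val)⁻¹ := by
    intro c hc s
    rw [eq_inv_iff_mul_eq_one, ← add hc, neg_add_cancel, ZMod.val_zero, pow_zero]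
  have oa : orderOf a = p := orderOf_eq_prime e (h.rp.ne1 m)
  have st : St2 (fun t : ZMod p => a ^ t.val) (fun t : ZMod p => b ^ t.val) := by
    refine ⟨add e, add eb, fun t ht r => ?_⟩
    have n1 : a ^ t.val ≠ 1 :=
      pow_ne_one_of_lt_orderOf (by rwa [Ne, ZMod.val_eq_zero]) (oa ▸ ZMod.val_lt t)
    obtain ⟨v, m1⟩ := h.rp.exM (pow_mem m.1 _) n1
    have e1 := h.pt_pow hA _ m m1
    have ev := h.pow_eq_one m1 (by rw [← pow_mul, mul_comm, pow_mul, e, one_pow])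
    have e2 : b ^ t⁻¹.val = v := by
      rw [← e1, ← mul ev, mul_inv_cancel₀ ht, ZMod.val_one, pow_one]
    have e3 : stW (fun t : ZMod p => a ^ t.val) (fun t : ZMod p => b ^ t.val) t = nn (a ^ t.val) v := by
      simp only [stW, nn]
      rw [neg eb, e2]
    rw [e3]
    change _ * a ^ r.val * _ = b ^ _
    rw [show r = t * (r / t) by field_simp, mul e, ← conj_pow, h.nn_a m1, ← e2, ← neg eb, ← mul eb]
    congr 2
    field_simp
  exact st.exists_hom st.relC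

end Sp

section SL2
variable {k : Type*} [Field k]

theorem upper_comm : IsMulCommutative (upperUnipotentSL2 k) := isComm_of fun a ha b hb => by
  obtain ⟨s, rfl⟩ := mem_upper.1 ha
  obtain ⟨t, rfl⟩ := mem_upper.1 hb
  rw [← sU_add, ← sU_add, add_comm]

theorem lower_comm : IsMulCommutative (lowerUnipotentSL2 k) := isComm_of fun a ha b hb => by
  obtain ⟨s, rfl⟩ := mem_lower.1 ha
  obtain ⟨t, rfl⟩ := mem_lower.1 hb
  rw [← sL_add, ← sL_add, add_comm]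

theorem sl2_conj {t : k} (ht : t ≠ 0) (r : k) :
    sL t⁻¹ * sU r * (sL t⁻¹)⁻¹ = sU t * sL (-r / t ^ 2) * (sU t)⁻¹ := by
  rw [← sL_neg, ← sU_neg]
  apply sl2_ext <;> simp [sl2_mul, sU_val, sL_val] <;> field_simp <;> ring

theorem sl2_mt {t : k} (ht : t ≠ 0) :
    Mt (upperUnipotentSL2 k) (lowerUnipotentSL2 k) (sU t) (sL t⁻¹) := by
  refine ⟨mem_upper.2 ⟨_, rfl⟩, mem_lower.2 ⟨_, rfl⟩, le_antisymm ?_ ?_⟩
  · rintro _ ⟨a, ha, rfl⟩
    obtain ⟨r, rfl⟩ := mem_upper.1 ha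
    exact ⟨_, mem_lower.2 ⟨_, rfl⟩, (sl2_conj ht r).symm⟩
  · rintro _ ⟨a, ha, rfl⟩
    obtain ⟨r, rfl⟩ := mem_lower.1 ha
    refine ⟨_, mem_upper.2 ⟨-r * t ^ 2, rfl⟩, (sl2_conj ht _).trans ?_⟩
    rw [show -(-r * t ^ 2) / t ^ 2 = r by field_simp]; rfl

theorem sl2_rp : RP (upperUnipotentSL2 k) (lowerUnipotentSL2 k) := by
  refine RP.of (fun e => ?_) (nilp_of_comm upper_comm) (nilp_of_comm lower_comm) ?_ ?_
  · obtain ⟨t, ht⟩ := mem_lower.1 (e ▸ mem_upper.2 ⟨1, rfl⟩)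
    simpa [sU_val, sL_val] using congrArg (fun g : SL(2, k) => g.1 0 1) ht
  · intro a ha h1
    obtain ⟨t, rfl⟩ := mem_upper.1 ha
    have ht : t ≠ 0 := by rintro rfl; exact h1 sU_zero
    exact ⟨_, (sl2_mt ht).2.1, fun e => inv_ne_zero ht (sL_inj (e.trans sL_zero.symm)),
      (sl2_mt ht).2.2⟩
  · intro a ha h1
    obtain ⟨t, rfl⟩ := mem_lower.1 ha
    have ht : t ≠ 0 := by rintro rfl; exact h1 sL_zero
    have m := sl2_mt (inv_ne_zero ht)
    rw [inv_inv] at m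
    exact ⟨_, m.1, fun e => inv_ne_zero ht (sU_inj (e.trans sU_zero.symm)), m.2.2⟩

theorem sl2_sp : Sp (upperUnipotentSL2 k) (lowerUnipotentSL2 k) := by
  refine sl2_rp.sp_of fun a b m => ?_
  obtain ⟨t, rfl⟩ := mem_upper.1 m.1
  have ht : t ≠ 0 := by rintro rfl; exact sl2_rp.ne1 m sU_zero
  rw [sl2_rp.uniq m (sl2_mt ht), ← sU_neg, ← sL_neg, ← inv_neg]
  exact sl2_mt (neg_ne_zero.2 ht)

theorem sl2_ker_le (φ : SL(2, k) →* G) (h : ¬ Commute (φ (sU 1)) (φ (sL 1))) :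
    φ.ker ≤ center SL(2, k) := by
  rcases (sl2_rp (k := k)).normal (N := φ.ker) (upper_sup_lower (k := k) ▸ le_top)
    (by rw [normalizer_eq_top]; exact le_top) with e | e
  · exfalso
    apply h
    have : sL (1 : k) ∈ φ.ker ⊔ upperUnipotentSL2 k := by rw [e, upper_sup_lower]; trivial
    obtain ⟨n, hn, u, hu, e⟩ := mem_sup_of_normal_left.1 this
    rw [← e, map_mul, MonoidHom.mem_ker.1 hn, one_mul]
    exact Commute.map (comm_of_mem upper_comm (mem_upper.2 ⟨1, rfl⟩) hu) φ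
  · rw [upper_sup_lower, comm_bot_iff, coe_top, centralizer_univ] at e
    exact e

theorem sl2_range_iso (φ : SL(2, k) →* G) (h : φ.ker ≤ center SL(2, k)) :
    Nonempty (φ.range ≃* SL(2, k)) ∨
      Nonempty (φ.range ≃* Matrix.ProjectiveSpecialLinearGroup (Fin 2) k) := by
  by_cases e : φ.ker = ⊥
  · exact Or.inl ⟨(MonoidHom.ofInjective ((MonoidHom.ker_eq_bot_iff φ).1 e)).symm⟩
  · right
    have : φ.ker = center SL(2, k) := by
      apply le_antisymm h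
      obtain ⟨⟨z, hz⟩, hz1⟩ := ne_bot_iff_exists_ne_one.1 e
      have hz2 : z = -1 := (sl2_center (h hz)).resolve_left (fun e => hz1 (Subtype.ext e))
      intro g hg
      rcases sl2_center hg with rfl | rfl
      · exact one_mem _
      · exact hz2 ▸ hz
    exact ⟨(QuotientGroup.quotientKerEquivRange φ).symm.trans (QuotientGroup.quotientMulEquivOfEq this)⟩

end SL2

theorem Sp.closure_iso (h : Sp A B) (hA : IsMulCommutative A) {p : ℕ} [hp : Fact p.Prime]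
    (m : Mt A B a b) (e : a ^ p = 1) :
    Nonempty (closure ({a, b} : Set G) ≃* SL(2, ZMod p)) ∨
      Nonempty (closure ({a, b} : Set G) ≃* Matrix.ProjectiveSpecialLinearGroup (Fin 2) (ZMod p)) := by
  obtain ⟨φ, h1, h2⟩ := h.exists_hom hA m e
  have e1 : φ (sU 1) = a := by rw [h1, ZMod.val_one, pow_one]
  have e2 : φ (sL 1) = b := by rw [h2, ZMod.val_one, pow_one]
  have hr : φ.range = closure {a, b} := by
    apply le_antisymm
    · rw [MonoidHom.range_eq_map, map_le_iff_le_comap, top_le_iff]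
      apply sl2_le_of
      · intro t; rw [mem_comap, h1]; exact pow_mem (subset_closure (by simp)) _
      · intro t; rw [mem_comap, h2]; exact pow_mem (subset_closure (by simp)) _
    · rw [closure_le]
      rintro _ (rfl | rfl)
      · exact ⟨_, e1⟩
      · exact ⟨_, e2⟩
  rw [← hr]
  apply sl2_range_iso φ (sl2_ker_le φ ?_)
  rw [e1, e2]
  intro c
  have r := h.rel m
  rw [← c.eq, mul_inv_cancel_right, c.inv_right.eq, mul_inv_cancel_right] at r
  have : a ∈ A ⊓ B := mem_inf.2 ⟨m.1, r ▸ inv_mem m.2.1⟩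
  rw [h.rp.inf] at this
  exact h.rp.ne1 m this

end CfsgH1
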