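import Cfsg.Agent.H1.RS2

/-! Quadratic modules for rank one groups. -/

set_option autoImplicit false
set_option linter.unusedSectionVars false

namespace CfsgH1

open Subgroup Cfsg CfsgH9

variable {G : Type*} [Group G] {A B : Subgroup G} {N : Type*} [AddCommGroup N]
  [DistribMulAction G N]

/-- `[N, A]`. -/
def qP (N : Type*) [AddCommGroup N] [DistribMulAction G N] (A : Subgroup G) : AddSubgroup N :=
  AddSubgroup.closure {m | ∃ a ∈ A, ∃ n : N, m = a • n - n}

/-- quadratic action -/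
def Quad (N : Type*) [AddCommGroup N] [DistribMulAction G N] (A : Subgroup G) : Prop :=
  ∀ a ∈ A, ∀ a' ∈ A, ∀ n : N, a' • (a • n - n) = a • n - n

theorem sub_mem_qP {a : G} (ha : a ∈ A) (n : N) : a • n - n ∈ qP N A :=
  AddSubgroup.subset_closure ⟨a, ha, n, rfl⟩

theorem smul_mem_qP (g : G) {m : N} (hm : m ∈ qP N A) : g • m ∈ qP N (cj g A) := by
  induction hm using AddSubgroup.closure_induction with
  | mem m hm =>
    obtain ⟨a, ha, n, rfl⟩ := hm
    convert sub_mem_qP (conj_mem_cj g ha) (g • n) using 1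
    simp [smul_sub, mul_smul]
  | zero => rw [smul_zero]; exact zero_mem _
  | add _ _ _ _ h1 h2 => rw [smul_add]; exact add_mem h1 h2
  | neg _ _ h => rw [smul_neg]; exact neg_mem h

theorem exists_of_mem_qP {g : G} {m : N} (hm : m ∈ qP N (cj g A)) : ∃ n ∈ qP N A, m = g • n := by
  have := smul_mem_qP g⁻¹ hm
  rw [cj_inv_cj] at this
  exact ⟨_, this, (smul_inv_smul g m).symm⟩

theorem Quad.fix (h : Quad N A) {a : G} (ha : a ∈ A) {m : N} (hm : m ∈ qP N A) : a • m = m := by
  induction hm using AddSubgroup.closure_induction with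
  | mem m hm => obtain ⟨a', ha', n, rfl⟩ := hm; exact h a' ha' a ha n
  | zero => rw [smul_zero]
  | add _ _ _ _ h1 h2 => rw [smul_add, h1, h2]
  | neg _ _ h => rw [smul_neg, h]

theorem Quad.conj (h : Quad N A) (g : G) : Quad N (cj g A) := by
  rintro a ha _ ⟨a', ha', rfl⟩ n
  obtain ⟨m, hm, e⟩ := exists_of_mem_qP (sub_mem_qP ha n)
  rw [e]
  change (g * a' * g⁻¹) • g • m = _
  rw [mul_smul, inv_smul_smul, mul_smul, h.fix ha' hm]

theorem fix_sup {m : N} (h1 : ∀ a ∈ A, a • m = m) (h2 : ∀ b ∈ B, b • m = m) :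
    ∀ x ∈ A ⊔ B, x • m = m := by
  have : A ⊔ B ≤ MulAction.stabilizer G m := sup_le h1 h2
  exact this

theorem Quad.comm (h : Quad N A) {a a' : G} (ha : a ∈ A) (ha' : a' ∈ A) (n : N) :
    (a * a') • n = (a' * a) • n := by
  have e1 := h a ha a' ha' n
  have e2 := h a' ha' a ha n
  rw [smul_sub] at e1 e2
  rw [mul_smul, mul_smul, eq_add_of_sub_eq e1, eq_add_of_sub_eq e2]; abel

theorem RP.sp_of_quad (h : RP A B) (hq : Quad N A)
    (hX : ∃ x ∈ A ⊔ B, ∃ y ∈ A ⊔ B, ∃ n : N, y • (x • n - n) ≠ x • n - n) : Sp A B := by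
  obtain ⟨g, hg, eg⟩ := h.right_mem
  have hqB : Quad N B := by rw [eg]; exact hq.conj g
  refine h.sp_of fun a b m => ?_
  obtain ⟨a', m'⟩ := h.exM' (inv_mem m.2.1) (inv_ne_one.2 (h.ne2 m))
  by_cases e : a * a' = 1
  · rw [← eq_inv_of_mul_eq_one_right e]; exact m'
  exfalso
  have hd := mul_mem m.1 m'.1
  have k1 : ∀ p ∈ qP N A, ∃ q ∈ qP N B, b⁻¹ • p = a⁻¹ • q := by
    intro p hp
    have := smul_mem_qP b hp
    rw [m.2.2] at this
    obtain ⟨q, hq', e1⟩ := exists_of_mem_qP this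
    have m1 := sub_mem_qP m.2.1 p
    have m2 := sub_mem_qP m.1 q
    have m3 : q - (b • p - p) ∈ qP N B := sub_mem hq' m1
    have m4 : q - (b • p - p) ∈ qP N A := by
      convert sub_mem hp m2 using 1; rw [e1]; abel
    refine ⟨(q - (b • p - p)) + (q - (b • p - p)) - q, sub_mem (add_mem m3 m3) hq', ?_⟩
    have f1 : b⁻¹ • p = p - (b • p - p) := by
      rw [inv_smul_eq_iff, smul_sub, hqB.fix m.2.1 m1]; abel
    rw [f1, eq_inv_smul_iff, show p - (b • p - p) = p - q + (q - (b • p - p)) by abel, smul_add,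
      smul_sub, hq.fix m.1 hp, hq.fix m.1 m4, ← e1]
    abel
  have k2 : ∀ q ∈ qP N B, ∀ x ∈ A ⊔ B, x • q = q := by
    intro q hq' x hx
    have m1 : (a * a') • q ∈ qP N B := by
      have := smul_mem_qP a' hq'
      rw [← m'.2.2] at this
      obtain ⟨p, hp, e1⟩ := exists_of_mem_qP this
      obtain ⟨q', h1, e2⟩ := k1 p hp
      rw [mul_smul, e1, e2, smul_inv_smul]; exact h1
    have m2 := smul_mem_qP (a * a') hq'
    have := fix_sup (fun b hb => hqB.fix hb m1) (fun b hb => (hqB.conj (a * a')).fix hb m2)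
    rw [h.symm.sup_cj_right hd e, sup_comm] at this
    have e3 : (a * a') • q = q := by
      have := this _ (inv_mem (mem_sup_left hd))
      rw [inv_smul_smul] at this
      exact this.symm
    rw [e3] at this
    exact this x hx
  have k3 : ∀ p ∈ qP N A, ∀ x ∈ A ⊔ B, x • p = p := by
    intro p hp x hx
    have := smul_mem_qP g hp
    rw [← show B = cj g A from eg] at this
    have e1 := k2 _ this _ (inv_mem hg)
    rw [inv_smul_smul] at e1
    rw [e1]; exact k2 _ this x hx
  obtain ⟨x, hx, y, hy, n, hn⟩ := hX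
  apply hn
  have : ∀ x ∈ A ⊔ B, ∀ n : N, ∀ y ∈ A ⊔ B, y • (x • n - n) = x • n - n := by
    intro x hx
    rw [sup_eq_closure] at hx
    induction hx using closure_induction'' with
    | mem x hx =>
      rcases hx with hx | hx
      · exact fun n => k3 _ (sub_mem_qP hx n)
      · exact fun n => k2 _ (sub_mem_qP hx n)
    | inv_mem x hx =>
      rcases hx with hx | hx
      · exact fun n => k3 _ (sub_mem_qP (inv_mem hx) n)
      · exact fun n => k2 _ (sub_mem_qP (inv_mem hx) n)
    | one => simp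
    | mul u v _ _ h1 h2 =>
      intro n y hy
      rw [mul_smul, ← sub_add_sub_cancel _ (v • n) _, smul_add, h1 _ y hy, h2 _ y hy]
  exact this x hx n y hy

end CfsgH1
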