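import Cfsg.Agent.H1.RS3

/-! Sets of abstract root subgroups: the basic lemmas. -/

set_option autoImplicit false
set_option linter.unusedSectionVars false

namespace CfsgH1

open Subgroup Cfsg CfsgH9
open scoped commutatorElement

variable {G : Type*} [Group G]

/-- Set of abstract root subgroups. -/
abbrev RS (S : Set (Subgroup G)) : Prop := IsRootSubgroupSet S
/-- The commutator case. -/
abbrev RC (S : Set (Subgroup G)) (A B : Subgroup G) : Prop := RootCommutatorCase S A B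
/-- Not isolated. -/
def NI (S : Set (Subgroup G)) (A : Subgroup G) : Prop := ∃ B ∈ S, RP A B

variable {S : Set (Subgroup G)} {A B C D E F T : Subgroup G} {a b c d e t x y z g : G}

theorem cm_of (h : ⁅A, B⁆ = ⊥) (ha : a ∈ A) (hb : b ∈ B) : Commute a b :=
  comm_bot_iff_forall.1 h a ha b hb

theorem cj_of_cm (h : ∀ b ∈ B, Commute a b) : cj a B = B :=
  cj_eq_iff.2 (centralizer_le_normalizer _ fun b hb => (h b hb).symm)

theorem cj_of_comm (h : ⁅A, B⁆ = ⊥) (ha : a ∈ A) : cj a B = B := cj_of_cm fun _ hb => cm_of h ha hb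

theorem cm_sup (h1 : ∀ a ∈ A, Commute z a) (h2 : ∀ b ∈ B, Commute z b) :
    ∀ x ∈ A ⊔ B, Commute z x := by
  have : A ⊔ B ≤ centralizer {z} := sup_le
    (fun a ha => mem_centralizer_singleton_iff.2 (h1 a ha).symm)
    (fun a ha => mem_centralizer_singleton_iff.2 (h2 a ha).symm)
  exact fun x hx => (mem_centralizer_singleton_iff.1 (this hx)).symm

theorem cj_le_sup (ha : a ∈ A) : cj a B ≤ B ⊔ ⁅A, B⁆ := by
  rintro _ ⟨b, hb, rfl⟩
  have : (MulAut.conj a).toMonoidHom b = ⁅a, b⁆ * b := by simp [commutatorElement_def]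
  rw [this]
  exact mul_mem (mem_sup_right (commutator_mem_commutator ha hb)) (mem_sup_left hb)

theorem ni_iff (hA : A ∈ S) : ¬ IsIsolatedIn (FAdj S) S A ↔ NI S A := by
  constructor
  · intro h
    by_contra hn
    exact h ⟨hA, fun B => ⟨fun h' => hn ⟨B, h'.2.1, h'.2.2⟩, fun h' => hn ⟨B, h'.1, RP.symm h'.2.2⟩⟩⟩
  · rintro ⟨B, hB, h⟩ h'
    exact (h'.2 B).1 ⟨hA, hB, h⟩

theorem exists_ne_one (h : A ≠ ⊥) : ∃ a ∈ A, a ≠ 1 := by
  obtain ⟨⟨b, hb⟩, hb1⟩ := (ne_bot_iff_exists_ne_one).1 h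
  exact ⟨b, hb, fun e => hb1 (Subtype.ext e)⟩

theorem RP.not_le_of_cj (h : RP B (cj a B)) (hl : cj a B ≤ normalizer (B : Set G)) : False :=
  h.not_le_norm hl

namespace RC

theorem mem (h : RC S A B) : ⁅A, B⁆ ∈ S := h.1

theorem cen (h : RC S A B) (hc : c ∈ ⁅A, B⁆) (hx : x ∈ A ⊔ B) : Commute c x := h.2.1 c hc x hx

theorem cenL (h : RC S A B) : ⁅⁅A, B⁆, A⁆ = ⊥ :=
  comm_bot_iff_forall.2 fun _ hc _ ha => h.cen hc (mem_sup_left ha)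

theorem cenR (h : RC S A B) : ⁅⁅A, B⁆, B⁆ = ⊥ :=
  comm_bot_iff_forall.2 fun _ hc _ ha => h.cen hc (mem_sup_right ha)

theorem mul_right (h : RC S A B) (ha : a ∈ A) (hb : b ∈ B) {b' : G} (hb' : b' ∈ B) :
    ⁅a, b * b'⁆ = ⁅a, b⁆ * ⁅a, b'⁆ := by
  rw [commutatorElement_mul_right_eq_mul_conj, mul_assoc ⁅a, b⁆,
    ← (h.cen (commutator_mem_commutator ha hb') (mem_sup_right hb)).eq]
  group

theorem mul_left (h : RC S A B) (ha : a ∈ A) {a' : G} (ha' : a' ∈ A) (hb : b ∈ B) :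
    ⁅a * a', b⁆ = ⁅a, b⁆ * ⁅a', b⁆ := by
  rw [commutatorElement_mul_left_eq_conj_mul,
    ← (h.cen (commutator_mem_commutator ha' hb) (mem_sup_left ha)).eq, mul_inv_cancel_right]
  exact (h.cen (commutator_mem_commutator ha' hb)
    (commutator_le_sup _ _ (commutator_mem_commutator ha hb))).eq

theorem inv_right (h : RC S A B) (ha : a ∈ A) (hb : b ∈ B) : ⁅a, b⁻¹⁆ = ⁅a, b⁆⁻¹ := by
  rw [eq_inv_iff_mul_eq_one, ← h.mul_right ha (inv_mem hb) hb]; simp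

theorem inv_left (h : RC S A B) (ha : a ∈ A) (hb : b ∈ B) : ⁅a⁻¹, b⁆ = ⁅a, b⁆⁻¹ := by
  rw [eq_inv_iff_mul_eq_one, ← h.mul_left (inv_mem ha) ha hb]; simp

theorem surjR (h : RC S A B) (ha : a ∈ A) (h1 : a ≠ 1) (hc : c ∈ ⁅A, B⁆) : ∃ b ∈ B, ⁅a, b⁆ = c := by
  rw [← h.2.2.1 a ha h1] at hc
  induction hc using closure_induction with
  | mem x hx => obtain ⟨b, hb, rfl⟩ := hx; exact ⟨b, hb, rfl⟩
  | one => exact ⟨1, one_mem _, by simp⟩
  | mul _ _ _ _ h1 h2 =>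
    obtain ⟨b, hb, rfl⟩ := h1
    obtain ⟨b', hb', rfl⟩ := h2
    exact ⟨b * b', mul_mem hb hb', h.mul_right ha hb hb'⟩
  | inv _ _ h1 => obtain ⟨b, hb, rfl⟩ := h1; exact ⟨b⁻¹, inv_mem hb, h.inv_right ha hb⟩

theorem surjL (h : RC S A B) (hb : b ∈ B) (h1 : b ≠ 1) (hc : c ∈ ⁅A, B⁆) : ∃ a ∈ A, ⁅a, b⁆ = c := by
  rw [← h.2.2.2 b hb h1] at hc
  induction hc using closure_induction with
  | mem x hx => obtain ⟨b, hb, rfl⟩ := hx; exact ⟨b, hb, rfl⟩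
  | one => exact ⟨1, one_mem _, by simp⟩
  | mul _ _ _ _ h1 h2 =>
    obtain ⟨a, ha, rfl⟩ := h1
    obtain ⟨a', ha', rfl⟩ := h2
    exact ⟨a * a', mul_mem ha ha', h.mul_left ha ha' hb⟩
  | inv _ _ h1 => obtain ⟨a, ha, rfl⟩ := h1; exact ⟨a⁻¹, inv_mem ha, h.inv_left ha hb⟩

theorem of (h1 : ⁅A, B⁆ ∈ S) (h2 : ∀ c ∈ ⁅A, B⁆, ∀ x ∈ A ⊔ B, Commute c x)
    (h3 : ∀ a ∈ A, a ≠ 1 → ∀ c ∈ ⁅A, B⁆, ∃ b ∈ B, ⁅a, b⁆ = c)
    (h4 : ∀ b ∈ B, b ≠ 1 → ∀ c ∈ ⁅A, B⁆, ∃ a ∈ A, ⁅a, b⁆ = c) : RC S A B := by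
  refine ⟨h1, h2, fun a ha a1 => le_antisymm ?_ ?_, fun b hb b1 => le_antisymm ?_ ?_⟩
  · rw [closure_le]; rintro _ ⟨b, hb, rfl⟩; exact commutator_mem_commutator ha hb
  · intro c hc
    obtain ⟨b, hb, rfl⟩ := h3 a ha a1 c hc
    exact subset_closure ⟨b, hb, rfl⟩
  · rw [closure_le]; rintro _ ⟨a, ha, rfl⟩; exact commutator_mem_commutator ha hb
  · intro c hc
    obtain ⟨a, ha, rfl⟩ := h4 b hb b1 c hc
    exact subset_closure ⟨a, ha, rfl⟩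

theorem symm (h : RC S A B) : RC S B A := by
  refine RC.of (by rw [commutator_comm]; exact h.1) ?_ ?_ ?_
  · rw [commutator_comm, sup_comm]; exact h.2.1
  · intro b hb b1 c hc
    rw [commutator_comm] at hc
    obtain ⟨a, ha, e⟩ := h.surjL hb b1 (inv_mem hc)
    exact ⟨a, ha, by rw [← commutatorElement_inv, e, inv_inv]⟩
  · intro a ha a1 c hc
    rw [commutator_comm] at hc
    obtain ⟨b, hb, e⟩ := h.surjR ha a1 (inv_mem hc)
    exact ⟨b, hb, by rw [← commutatorElement_inv, e, inv_inv]⟩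

theorem cj_le_norm (h : RC S A B) (ha : a ∈ A) : cj a B ≤ normalizer (B : Set G) :=
  (cj_le_sup ha).trans (sup_le le_normalizer (le_normalizer_of_commutator_eq_bot h.cenR))

theorem mem_sup (h : RC S A B) (hx : x ∈ A ⊔ ⁅A, B⁆) : ∃ a ∈ A, ∃ c ∈ ⁅A, B⁆, a * c = x :=
  (mem_sup_of_le_normalizer' (le_normalizer_of_commutator_eq_bot h.cenL)).1 hx

theorem mul_mem_cj (h : RC S A B) (ha : a ∈ A) (h1 : a ≠ 1) (hc : c ∈ ⁅A, B⁆) :
    ∃ b ∈ B, a * c ∈ cj b A := by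
  obtain ⟨b, hb, e⟩ := h.surjR ha h1 (inv_mem hc)
  refine ⟨b, hb, ?_⟩
  rw [← (h.cen hc (mem_sup_left ha)).eq, ← inv_inv c, ← e, commutatorElement_inv,
    commutatorElement_def, inv_mul_cancel_right]
  exact conj_mem_cj b ha

end RC

namespace RS

theorem cm (hS : RS S) (hA : A ∈ S) : ⁅A, A⁆ = ⊥ := isComm_iff.1 (hS.commutative A hA)

theorem cme (hS : RS S) (hA : A ∈ S) (ha : a ∈ A) (hb : b ∈ A) : Commute a b := cm_of (hS.cm hA) ha hb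

theorem cjm (hS : RS S) (hA : A ∈ S) (g : G) : cj g A ∈ S := hS.conj_mem A hA g

theorem ex (hS : RS S) (hA : A ∈ S) : ∃ a ∈ A, a ≠ 1 := exists_ne_one (hS.ne_bot A hA)

theorem tri (hS : RS S) (hA : A ∈ S) (hB : B ∈ S) : ⁅A, B⁆ = ⊥ ∨ RP A B ∨ RC S A B := hS.pair A hA B hB

theorem rc_ne (hS : RS S) (h : RC S A B) : ⁅A, B⁆ ≠ ⊥ := hS.ne_bot _ h.1

theorem ni_cj (hS : RS S) (h : NI S A) (g : G) : NI S (cj g A) := by
  obtain ⟨B, hB, r⟩ := h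
  exact ⟨_, hS.cjm hB g, r.conj g⟩

theorem rc_cenL (hS : RS S) (h : RC S A B) (ha : a ∈ A) (hc : ∀ b ∈ B, Commute a b) : a = 1 := by
  by_contra h1
  obtain ⟨c, hc1, hc2⟩ := hS.ex h.1
  obtain ⟨b, hb, rfl⟩ := h.surjR ha h1 hc1
  exact hc2 (commutatorElement_eq_one_iff_commute.2 (hc b hb))

theorem rc_infL (hS : RS S) (h : RC S A B) (ha : a ∈ A) (hc : a ∈ ⁅A, B⁆) : a = 1 :=
  hS.rc_cenL h ha fun _ hb => h.cen hc (mem_sup_right hb)

theorem rc_infR (hS : RS S) (h : RC S A B) (hb : b ∈ B) (hc : b ∈ ⁅A, B⁆) : b = 1 :=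
  hS.rc_infL h.symm hb (by rwa [commutator_comm])

theorem rc_neL (hS : RS S) (h : RC S A B) : A ≠ ⁅A, B⁆ := fun e => by
  obtain ⟨c, hc1, hc2⟩ := hS.ex h.1
  exact hc2 (hS.rc_infL h (e ▸ hc1) hc1)

theorem rc_norm (hS : RS S) (h : RC S A B) (ha : a ∈ A) (e : cj a B = B) : a = 1 := by
  refine hS.rc_cenL h ha fun b hb => ?_
  rw [← commutatorElement_eq_one_iff_commute]
  refine hS.rc_infR h ?_ (commutator_mem_commutator ha hb)
  rw [commutatorElement_def]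
  exact mul_mem (e ▸ conj_mem_cj a hb) (inv_mem hb)

theorem comm_of_norm (hS : RS S) (hA : A ∈ S) (hB : B ∈ S) (ha : a ∈ A) (h1 : a ≠ 1)
    (e : cj a B = B) : ⁅A, B⁆ = ⊥ := by
  rcases hS.tri hA hB with h | h | h
  · exact h
  · exact absurd (h.normL ha e) h1
  · exact absurd (hS.rc_norm h ha e) h1

theorem comm_of_cm (hS : RS S) (hA : A ∈ S) (hB : B ∈ S) (ha : a ∈ A) (h1 : a ≠ 1)
    (e : ∀ b ∈ B, Commute a b) : ⁅A, B⁆ = ⊥ := hS.comm_of_norm hA hB ha h1 (cj_of_cm e)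

theorem comm_of_le_norm (hS : RS S) (hA : A ∈ S) (hB : B ∈ S) (h : A ≤ normalizer (B : Set G)) :
    ⁅A, B⁆ = ⊥ := by
  obtain ⟨a, ha, h1⟩ := hS.ex hA
  exact hS.comm_of_norm hA hB ha h1 (cj_eq_iff.2 (h ha))

theorem rc_of_mem (hS : RS S) (hA : A ∈ S) (hB : B ∈ S) (h : ⁅A, B⁆ ∈ S) : RC S A B := by
  rcases hS.tri hA hB with r | r | r
  · exact absurd r (hS.ne_bot _ h)
  · exfalso
    have h1 := hS.comm_of_le_norm hA h (normalizer_commutator_ge_left _ _)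
    obtain ⟨b, hb, b1⟩ := r.exB
    refine (r.rp_cj_right hb b1).not_le_of_cj ((cj_le_sup hb).trans (sup_le le_normalizer ?_))
    rw [commutator_comm B]
    exact le_normalizer_of_commutator_eq_bot (comm_bot_symm h1)
  · exact r

theorem rc_cj (hS : RS S) (hA : A ∈ S) (hB : B ∈ S) (h : RC S A B) (g : G) :
    RC S (cj g A) (cj g B) :=
  hS.rc_of_mem (hS.cjm hA g) (hS.cjm hB g) (by rw [← cj_commutator]; exact hS.cjm h.1 g)

theorem rc_not_rp (h : RC S A B) (r : RP A B) : False := by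
  obtain ⟨a, ha, a1⟩ := r.exA
  exact (r.symm.rp_cj_right ha a1).not_le_of_cj (h.cj_le_norm ha)

theorem rp_of_cj (hS : RS S) (hB : B ∈ S) (hE : E ∈ S) (he : e ∈ E) (r : RP B (cj e B)) :
    RP B E ∧ B ⊔ E = B ⊔ cj e B := by
  rcases hS.tri hE hB with h | h | h
  · exact absurd (cj_of_comm h he).symm r.ne
  · refine ⟨h.symm, (h.symm.sup_cj_right he ?_).symm⟩
    rintro rfl
    exact r.ne (cj_one B).symm
  · exact (r.not_le_of_cj (h.cj_le_norm he)).elim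

theorem mem_Om_of_le (hS : RS S) (hC : C ∈ S) (r : RP C D) (hE : E ∈ S) (hl : E ≤ C ⊔ D)
    (hn : ⁅E, C ⊔ D⁆ ≠ ⊥) : E ∈ Om C D := by
  have key : ∀ F ∈ Om C D, ⁅E, F⁆ = ⊥ ∨ E ∈ Om C D := by
    intro F hF
    have hFS : F ∈ S := by obtain ⟨x, -, rfl⟩ := hF; exact hS.cjm hC x
    obtain ⟨e, he, e1⟩ := hS.ex hE
    by_cases h : cj e F = F
    · exact Or.inl (hS.comm_of_norm hE hFS he e1 h)
    · right
      have m := RP.cj_mem_Om hF (hl he)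
      obtain ⟨r1, r2⟩ := hS.rp_of_cj hFS hE he (r.rp_of_mem hF m (Ne.symm h))
      rw [r.sup_of_mem hF m (Ne.symm h)] at r2
      obtain ⟨x, hx, ex⟩ := r1.right_mem
      rw [ex]
      exact RP.cj_mem_Om hF (r2 ▸ hx)
  rcases key C (RP.left_mem _ _) with h1 | h1
  · rcases key D r.right_mem with h2 | h2
    · exact absurd (comm_bot_sup_right h1 h2) hn
    · exact h2
  · exact h1

theorem eq_of_mem (hS : RS S) (hA : A ∈ S) (h : NI S A) (hB : B ∈ S) (hx : x ∈ A) (hx' : x ∈ B)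
    (h1 : x ≠ 1) : A = B := by
  obtain ⟨D, hD, r⟩ := h
  obtain ⟨r1, r2⟩ := hS.rp_of_cj hD hB hx' (r.symm.rp_cj_right hx h1)
  rw [r.symm.sup_cj_right hx h1] at r2
  have m : B ∈ Om D A := by
    obtain ⟨y, hy, e⟩ := r1.right_mem
    exact ⟨y, r2 ▸ hy, e⟩
  by_contra hne
  have := (r.symm.rp_of_mem r.symm.right_mem m hne).inf
  exact h1 (mem_bot.1 (this ▸ mem_inf.2 ⟨hx, hx'⟩))

theorem no_translate (hS : RS S) (hA : A ∈ S) (hB : B ∈ S) (r : RP A B)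
    (hz : ∀ x ∈ A ⊔ B, Commute z x) (ha : a ∈ A) (h1 : a ≠ 1) (hE : E ∈ S) (he : z * a ∈ E) :
    z = 1 := by
  have e : cj (z * a) B = cj a B := by
    rw [(hz a (mem_sup_left ha)).eq, ← cj_cj, cj_of_cm fun b hb => hz b (mem_sup_right hb)]
  obtain ⟨r1, r2⟩ := hS.rp_of_cj hB hE he (e ▸ r.symm.rp_cj_right ha h1)
  rw [e, r.symm.sup_cj_right ha h1] at r2
  have m : E ∈ Om B A := by
    obtain ⟨y, hy, e⟩ := r1.right_mem
    exact ⟨y, r2 ▸ hy, e⟩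
  have n1 : z * a ≠ 1 := fun e' => (r.symm.rp_cj_right ha h1).ne (by rw [← e, e', cj_one])
  have c : ⁅E, A⁆ = ⊥ := hS.comm_of_cm hE hA he n1 fun a' ha' =>
    Commute.mul_left (hz a' (mem_sup_left ha')) (hS.cme hA ha ha')
  have : E = A := by
    by_contra hne
    exact (r.symm.rp_of_mem m r.symm.right_mem hne).not_comm c
  rw [this] at he
  exact r.normL ((mul_mem_cancel_right ha).1 he) (cj_of_cm fun b hb => hz b (mem_sup_right hb))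

theorem rc_inj (hS : RS S) (hA : A ∈ S) (hB : B ∈ S) (hn : NI S A) (h : RC S A B) (ha : a ∈ A)
    (hb : b ∈ B) (h1 : a ≠ 1) (e : Commute a b) : b = 1 := by
  have : a ∈ cj b A := by
    rw [mem_cj, mul_assoc, e.eq, inv_mul_cancel_left]; exact ha
  exact hS.rc_norm h.symm hb (hS.eq_of_mem hA hn (hS.cjm hA b) ha this h1).symm

theorem eq_of_le_comm (hS : RS S) (hA : A ∈ S) (hn : NI S A) (h : RC S A B)
    (hE : E ∈ S) (hl : E ≤ ⁅A, B⁆) : E = ⁅A, B⁆ := by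
  obtain ⟨D, hD, r⟩ := hn
  obtain ⟨e, he, e1⟩ := hS.ex hE
  rcases hS.tri h.1 hD with r1 | r1 | r1
  · obtain ⟨a, ha, a1⟩ := r.exA
    obtain ⟨b, hb, m⟩ := h.mul_mem_cj ha a1 (hl he)
    rw [← (h.cen (hl he) (mem_sup_left ha)).eq] at m
    exact absurd (hS.no_translate hA hD r (cm_sup (fun _ ha => cm_of h.cenL (hl he) ha)
      fun _ hd => cm_of r1 (hl he) hd) ha a1 (hS.cjm hA b) m) e1
  · exact (hS.eq_of_mem h.1 ⟨D, hD, r1⟩ hE (hl he) he e1).symm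
  · rcases hS.tri hE hD with r2 | r2 | r2
    · exact absurd (hS.rc_cenL r1 (hl he) fun _ hd => cm_of r2 he hd) e1
    · exact hS.eq_of_mem hE ⟨D, hD, r2⟩ h.1 he (hl he) e1
    · apply le_antisymm hl
      intro c hc
      obtain ⟨d, hd, d1⟩ := r.exB
      obtain ⟨d', hd', e2⟩ := r1.surjR (hl he) e1 (commutator_mem_commutator hc hd)
      obtain ⟨e', he', e3⟩ := r2.surjL hd d1 (e2 ▸ commutator_mem_commutator he hd')
      have : ⁅e'⁻¹ * c, d⁆ = 1 := by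
        rw [r1.mul_left (inv_mem (hl he')) hc hd, r1.inv_left (hl he') hd, e3, inv_mul_cancel]
      have := hS.rc_inj hD h.1 ⟨A, hA, r.symm⟩ r1.symm hd (mul_mem (inv_mem (hl he')) hc) d1
        (commutatorElement_eq_one_iff_commute.1 this).symm
      rw [← inv_mul_eq_one.1 this]; exact he'

theorem line_mem (hS : RS S) (hA : A ∈ S) (hn : NI S A) (h : RC S A B) (hE : E ∈ S)
    (hl : E ≤ A ⊔ ⁅A, B⁆) : E = ⁅A, B⁆ ∨ ∃ b ∈ B, E = cj b A := by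
  by_cases h1 : E ≤ ⁅A, B⁆
  · exact Or.inl (hS.eq_of_le_comm hA hn h hE h1)
  · obtain ⟨x, hx, hx'⟩ := SetLike.not_le_iff_exists.1 h1
    obtain ⟨a, ha, c, hc, rfl⟩ := h.mem_sup (hl hx)
    have a1 : a ≠ 1 := by rintro rfl; exact hx' (by rwa [one_mul])
    obtain ⟨b, hb, m⟩ := h.mul_mem_cj ha a1 hc
    exact Or.inr ⟨b, hb, (hS.eq_of_mem (hS.cjm hA b) (hS.ni_cj hn b) hE m hx
      (fun e => hx' (e ▸ one_mem _))).symm⟩

theorem line_part (hS : RS S) (hA : A ∈ S) (hn : NI S A) (h : RC S A B) :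
    IsSubgroupPartition (A ⊔ ⁅A, B⁆) (membersIn S (A ⊔ ⁅A, B⁆)) := by
  refine ⟨fun _ hC => hC.2, fun x hx x1 => ?_, fun C hC D hD hne => ?_⟩
  · obtain ⟨a, ha, c, hc, rfl⟩ := h.mem_sup hx
    by_cases a1 : a = 1
    · exact ⟨_, ⟨h.1, le_sup_right⟩, by rwa [a1, one_mul]⟩
    · obtain ⟨b, hb, m⟩ := h.mul_mem_cj ha a1 hc
      exact ⟨_, ⟨hS.cjm hA b, by rw [commutator_comm]; exact cj_le_sup hb⟩, m⟩
  · rw [eq_bot_iff]
    intro x hx
    by_contra x1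
    rcases hS.line_mem hA hn h hC.1 hC.2 with e | ⟨b, -, e⟩
    · rcases hS.line_mem hA hn h hD.1 hD.2 with e' | ⟨b, -, e'⟩
      · exact hne (e.trans e'.symm)
      · exact hne (hS.eq_of_mem hD.1 (e' ▸ hS.ni_cj hn b) hC.1 hx.2 hx.1 x1).symm
    · exact hne (hS.eq_of_mem hC.1 (e ▸ hS.ni_cj hn b) hD.1 hx.1 hx.2 x1)

end RS

/-- `B` is a line partner of `A`, with both memberships. -/
structure LP (S : Set (Subgroup G)) (A B : Subgroup G) : Prop where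
  l : A ∈ S
  r : B ∈ S
  ne : A ≠ B
  cm : ⁅A, B⁆ = ⊥
  part : IsSubgroupPartition (A ⊔ B) (membersIn S (A ⊔ B))

theorem lp_iff (hA : A ∈ S) : B ∈ linePartners S A ↔ LP S A B :=
  ⟨fun h => ⟨hA, h.1.1, h.1.2.1.symm, h.1.2.2, h.2⟩, fun h => ⟨⟨h.r, h.ne.symm, h.cm⟩, h.part⟩⟩

namespace LP

theorem mem (h : LP S A B) : B ∈ linePartners S A := (lp_iff h.l).2 h

theorem symm (h : LP S A B) : LP S B A :=
  ⟨h.r, h.l, h.ne.symm, comm_bot_symm h.cm, by rw [sup_comm]; exact h.part⟩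

theorem eq_one (h : LP S A B) (hC : C ∈ S) (hD : D ∈ S) (h1 : C ≤ A ⊔ B) (h2 : D ≤ A ⊔ B)
    (hne : C ≠ D) (hx : x ∈ C) (hx' : x ∈ D) : x = 1 :=
  mem_bot.1 (h.part.2.2 C ⟨hC, h1⟩ D ⟨hD, h2⟩ hne ▸ mem_inf.2 ⟨hx, hx'⟩)

theorem eq_one' (h : LP S A B) (hx : x ∈ A) (hx' : x ∈ B) : x = 1 :=
  h.eq_one h.l h.r le_sup_left le_sup_right h.ne hx hx'

theorem cover (h : LP S A B) (hx : x ∈ A ⊔ B) (h1 : x ≠ 1) : ∃ E ∈ S, E ≤ A ⊔ B ∧ x ∈ E := by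
  obtain ⟨E, hE, m⟩ := h.part.2.1 x hx h1
  exact ⟨E, hE.1, hE.2, m⟩

theorem abel (h : LP S A B) (hS : RS S) : ⁅A ⊔ B, A ⊔ B⁆ = ⊥ :=
  comm_bot_sup_left (comm_bot_sup_right (hS.cm h.l) h.cm)
    (comm_bot_sup_right (comm_bot_symm h.cm) (hS.cm h.r))

theorem of_sup (h : LP S A B) (hS : RS S) (hC : C ∈ S) (hD : D ∈ S) (hne : C ≠ D)
    (e : C ⊔ D = A ⊔ B) : LP S C D :=
  ⟨hC, hD, hne, comm_bot_mono (h.abel hS) (e ▸ le_sup_left) (e ▸ le_sup_right), e ▸ h.part⟩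

theorem mem_sup (h : LP S A B) (hx : x ∈ A ⊔ B) : ∃ a ∈ A, ∃ b ∈ B, a * b = x :=
  (mem_sup_of_le_normalizer (le_normalizer_of_commutator_eq_bot h.cm)).1 hx

theorem conj (h : LP S A B) (hS : RS S) (g : G) : LP S (cj g A) (cj g B) := by
  refine ⟨hS.cjm h.l g, hS.cjm h.r g, fun e => h.ne (cj_inj.1 e),
    by rw [← cj_commutator, h.cm, cj_bot], fun _ hC => hC.2, fun x hx x1 => ?_,
    fun C hC D hD hne => ?_⟩
  · rw [← cj_sup] at hx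
    obtain ⟨y, hy, rfl⟩ := hx
    obtain ⟨E, hE, h1, h2⟩ := h.cover hy (fun e => x1 (by rw [e, map_one]))
    exact ⟨cj g E, ⟨hS.cjm hE g, by rw [← cj_sup]; exact cj_mono g h1⟩, mem_map_of_mem _ h2⟩
  · have k : ∀ {C : Subgroup G}, C ≤ cj g A ⊔ cj g B → cj g⁻¹ C ≤ A ⊔ B := fun hC => by
      rw [← cj_inv_cj g (A ⊔ B), cj_sup g]; exact cj_mono _ hC
    rw [← cj_eq_bot (g := g⁻¹), cj_inf]
    exact h.part.2.2 _ ⟨hS.cjm hC.1 _, k hC.2⟩ _ ⟨hS.cjm hD.1 _, k hD.2⟩ (fun e => hne (cj_inj.1 e))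

end LP

theorem RS.lp_of_rc (hS : RS S) (hA : A ∈ S) (hn : NI S A) (h : RC S A B) : LP S A ⁅A, B⁆ :=
  ⟨hA, h.1, hS.rc_neL h, comm_bot_symm h.cenL, hS.line_part hA hn h⟩

end CfsgH1
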