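import Cfsg.Agent.H1.RS4

/-! Sets of abstract root subgroups: chains, lines. -/

set_option autoImplicit false
set_option linter.unusedSectionVars false

namespace CfsgH1

open Subgroup Cfsg CfsgH9
open scoped commutatorElement

variable {G : Type*} [Group G]
variable {S : Set (Subgroup G)} {A B C D E F T : Subgroup G} {a b c d e t x y z g : G}

theorem nilp_of_chain (R : Subgroup G) (K : ℕ → Subgroup G) (h0 : K 0 = ⊥)
    (hs : ∀ i, ⁅K (i + 1), R⁆ ≤ K i) (n : ℕ) (hn : R ≤ K n) : Group.IsNilpotent R := by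
  refine (Subgroup.nilpotent_iff_finite_ascending_central_series R).2
    ⟨n, fun i => (K i).subgroupOf R, ⟨by simp [h0], fun x i hx g => ?_⟩, ?_⟩
  · exact hs i (commutator_mem_commutator hx g.2)
  · exact subgroupOf_eq_top.2 hn

theorem nilp_of_le {H K : Subgroup G} (h : H ≤ K) (hK : Group.IsNilpotent K) :
    Group.IsNilpotent H :=
  nilpotent_of_mulEquiv (G := H.subgroupOf K) (subgroupOfEquivOfLe h)

theorem le_norm_of_comm {H K : Subgroup G} (h : ⁅K, H⁆ ≤ K) : H ≤ normalizer (K : Set G) :=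
  le_normalizer_iff_commutator_le_left.2 h

theorem comm_le_of_bot {H K L : Subgroup G} (h : ⁅H, K⁆ = ⊥) : ⁅H, K⁆ ≤ L := h ▸ bot_le

theorem RC.sup_cj (h : RC S A B) (hb : b ∈ B) (h1 : b ≠ 1) : A ⊔ cj b A = A ⊔ ⁅A, B⁆ := by
  apply le_antisymm (sup_le le_sup_left (by rw [commutator_comm]; exact cj_le_sup hb))
  refine sup_le le_sup_left fun c hc => ?_
  obtain ⟨a, ha, rfl⟩ := h.surjL hb h1 hc
  have : ⁅a, b⁆ = a * (b * a⁻¹ * b⁻¹) := by rw [commutatorElement_def]; group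
  rw [this]
  exact mul_mem (mem_sup_left ha) (mem_sup_right (conj_mem_cj b (inv_mem ha)))

theorem comm_sup_self (hA : ⁅A, A⁆ = ⊥) (hB : ⁅B, B⁆ = ⊥) : ⁅A ⊔ B, A ⊔ B⁆ = ⁅A, B⁆ := by
  apply le_antisymm _ (commutator_mono le_sup_left le_sup_right)
  have h1 := normalizer_commutator_ge_left A B
  have h2 := normalizer_commutator_ge_right A B
  exact commutator_sup_le h1 h2 (commutator_sup_le' h1 h2 (comm_le_of_bot hA) le_rfl)
    (commutator_sup_le' h1 h2 (by rw [commutator_comm]) (comm_le_of_bot hB))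

namespace RS

theorem cm_cj (hS : RS S) (hA : A ∈ S) (h : RC S A B) (hb : b ∈ B) : ⁅A, cj b A⁆ = ⊥ :=
  comm_bot_mono (comm_bot_sup_right (hS.cm hA) (comm_bot_symm h.cenL)) le_rfl
    (by rw [commutator_comm]; exact cj_le_sup hb)

theorem chain_not_rp (hS : RS S) (hA : A ∈ S) (hC : C ∈ S) (h : RC S C B) (hAC : ⁅A, C⁆ = ⊥)
    (hb : b ∈ B) (h1 : b ≠ 1) : ¬ RP A (cj b C) := by
  intro r
  obtain ⟨f, hf, f1⟩ := hS.ex h.1
  obtain ⟨c, hc, rfl⟩ := h.surjL hb h1 hf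
  have c1 : c ≠ 1 := by rintro rfl; simp at f1
  refine c1 (hS.no_translate (hS.cjm hC b) hA r.symm (cm_sup (fun _ hx => cm_of (hS.cm_cj hC h hb) hc hx)
    fun _ hx => (cm_of hAC hx hc).symm) (conj_mem_cj b (inv_mem hc)) ?_ h.1 ?_)
  · intro e; apply c1; simpa using e
  · convert hf using 1; rw [commutatorElement_def]; group

theorem chain_cls (hS : RS S) (hA : A ∈ S) (hC : C ∈ S) (h : RC S C B) (hAC : ⁅A, C⁆ = ⊥)
    (hb : b ∈ B) (h1 : b ≠ 1) : ⁅⁅A ⊔ cj b C, A ⊔ cj b C⁆, A ⊔ cj b C⁆ = ⊥ := by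
  rw [comm_sup_self (hS.cm hA) (hS.cm (hS.cjm hC b))]
  rcases hS.tri hA (hS.cjm hC b) with r | r | r
  · rw [r, commutator_bot_left]
  · exact absurd r (hS.chain_not_rp hA hC h hAC hb h1)
  · exact comm_bot_sup_right r.cenL r.cenR

theorem chain_comm (hS : RS S) (hA : A ∈ S) (hC : C ∈ S) (h1 : RC S A B) (h2 : RC S C B)
    (hAC : ⁅A, C⁆ = ⊥) (hb : b ∈ B) : ⁅A ⊔ cj b C, cj b A ⊔ C⁆ = ⊥ :=
  comm_bot_sup_left (comm_bot_sup_right (hS.cm_cj hA h1 hb) hAC)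
    (comm_bot_sup_right (by rw [← cj_commutator, comm_bot_symm hAC, cj_bot])
      (comm_bot_symm (hS.cm_cj hC h2 hb)))

theorem chain_sup (h1 : RC S A B) (h2 : RC S C B) (hb : b ∈ B) (b1 : b ≠ 1) :
    (A ⊔ cj b C) ⊔ (cj b A ⊔ C) = (A ⊔ ⁅A, B⁆) ⊔ (C ⊔ ⁅C, B⁆) := by
  rw [← h1.sup_cj hb b1, ← h2.sup_cj hb b1]; ac_rfl

theorem chain_ab (hS : RS S) (hA : A ∈ S) (hC : C ∈ S) (h1 : RC S A B) (h2 : RC S C B)
    (hAC : ⁅A, C⁆ = ⊥) (hb : b ∈ B) (b1 : b ≠ 1) (h : ⁅A ⊔ cj b C, A ⊔ cj b C⁆ = ⊥) :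
    ⁅cj b A ⊔ C, cj b A ⊔ C⁆ = ⊥ := by
  have e1 : ⁅A, ⁅C, B⁆⁆ = ⊥ := by
    refine comm_bot_mono (comm_bot_sup_right hAC (comm_bot_mono h le_sup_left le_sup_right)) le_rfl ?_
    rw [h2.sup_cj hb b1]; exact le_sup_right
  have e2 : ⁅⁅A, B⁆, C⁆ = ⊥ := commutator_commutator_eq_bot_of_rotate
    (by rw [commutator_comm B]; exact comm_bot_symm e1)
    (by rw [comm_bot_symm hAC, commutator_bot_left])
  rw [comm_sup_self (hS.cm (hS.cjm hA b)) (hS.cm hC)]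
  exact comm_bot_mono (comm_bot_sup_left hAC e2) (by rw [commutator_comm]; exact cj_le_sup hb) le_rfl

theorem chain_nilp (hS : RS S) (hA : A ∈ S) (hB : B ∈ S) (hC : C ∈ S) (h1 : RC S A B)
    (h2 : RC S C B) (hAC : ⁅A, C⁆ = ⊥) : Group.IsNilpotent (A ⊔ B ⊔ C : Subgroup G) := by
  obtain ⟨b, hb, b1⟩ := hS.ex hB
  have c1 := hS.chain_cls hA hC h2 hAC hb b1
  have c2 := hS.chain_cls hC hA h1 (comm_bot_symm hAC) hb b1
  rw [sup_comm C] at c2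
  have c3 := hS.chain_comm hA hC h1 h2 hAC hb
  have c4 : ⁅⁅(A ⊔ ⁅A, B⁆) ⊔ (C ⊔ ⁅C, B⁆), (A ⊔ ⁅A, B⁆) ⊔ (C ⊔ ⁅C, B⁆)⁆,
      (A ⊔ ⁅A, B⁆) ⊔ (C ⊔ ⁅C, B⁆)⁆ = ⊥ := by
    rw [← chain_sup h1 h2 hb b1, commutator_sup_of_commute c3]
    exact comm_bot_sup_left (comm_bot_sup_right c1 (comm_bot_mono c3 (commutator_le_self _) le_rfl))
      (comm_bot_sup_right (comm_bot_mono (comm_bot_symm c3) (commutator_le_self _) le_rfl) c2)
  have eB := h1.cenR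
  have fB := h2.cenR
  have eA := h1.cenL
  have fC := h2.cenL
  have hAB : ⁅A, B⁆ ≤ ⁅A, B⁆ := le_rfl
  have hCB : ⁅C, B⁆ ≤ ⁅C, B⁆ := le_rfl
  have hBA : ⁅B, A⁆ ≤ ⁅A, B⁆ := by rw [commutator_comm]
  have hBC : ⁅B, C⁆ ≤ ⁅C, B⁆ := by rw [commutator_comm]
  generalize hE : ⁅A, B⁆ = E at c4 eB eA hBA
  generalize hF : ⁅C, B⁆ = F at c4 fB fC hBC
  generalize hM : (A ⊔ E) ⊔ (C ⊔ F) = M at c4
  have mA : A ≤ M := hM ▸ le_sup_left.trans le_sup_left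
  have mE : E ≤ M := hM ▸ le_sup_right.trans le_sup_left
  have mC : C ≤ M := hM ▸ le_sup_left.trans le_sup_right
  have mF : F ≤ M := hM ▸ le_sup_right.trans le_sup_right
  have z : ∀ {U V W : Subgroup G}, U ≤ M → V ≤ M → W ≤ M → ⁅⁅U, V⁆, W⁆ = ⊥ :=
    fun h1 h2 h3 => comm_bot_mono c4 (commutator_mono h1 h2) h3
  have k1B : ⁅⁅E, F⁆, B⁆ = ⊥ :=
    comm_bot_mono (comm_bot_sup_left eB fB) (commutator_le_sup _ _) le_rfl
  have n1 : ∀ {W : Subgroup G}, W ≤ M → W ≤ normalizer ((⁅E, F⁆ : Subgroup G) : Set G) :=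
    fun h => le_norm_of_comm (comm_le_of_bot (z mE mF h))
  have n1B : B ≤ normalizer ((⁅E, F⁆ : Subgroup G) : Set G) := le_norm_of_comm (comm_le_of_bot k1B)
  have u1 : ⁅⁅A, F⁆, B⁆ ≤ ⁅E, F⁆ := three_subgroups (n1 mA) (n1 mF) n1B
    (by rw [fB, commutator_bot_left]; exact bot_le) (commutator_mono hBA le_rfl)
  have u2 : ⁅⁅E, C⁆, B⁆ ≤ ⁅E, F⁆ := three_subgroups (n1 mE) (n1 mC) n1B
    (by rw [hF, commutator_comm]) (by rw [comm_bot_symm eB, commutator_bot_left]; exact bot_le)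
  have cM : ∀ {U V : Subgroup G}, U ≤ M → V ≤ M → ⁅U, V⁆ ≤ M :=
    fun h1 h2 => (commutator_le_sup _ _).trans (sup_le h1 h2)
  set W := ⁅A, F⁆ ⊔ ⁅E, C⁆ ⊔ ⁅E, F⁆ with hW
  have wM : ∀ {U : Subgroup G}, U ≤ M → ⁅W, U⁆ = ⊥ := fun h =>
    comm_bot_sup_left (comm_bot_sup_left (z mA mF h) (z mE mC h)) (z mE mF h)
  have wB : ⁅W, B⁆ ≤ ⁅E, F⁆ := commutator_sup_le (sup_le (n1 (cM mA mF)) (n1 (cM mE mC)))
    le_normalizer (commutator_sup_le (n1 (cM mA mF)) (n1 (cM mE mC)) u1 u2) (comm_le_of_bot k1B)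
  have n2 : ∀ {U : Subgroup G}, U ≤ M → U ≤ normalizer (W : Set G) :=
    fun h => le_norm_of_comm (comm_le_of_bot (wM h))
  have n2B : B ≤ normalizer (W : Set G) := le_norm_of_comm (wB.trans le_sup_right)
  have R3 : ∀ {K N : Subgroup G}, A ≤ normalizer (N : Set G) → B ≤ normalizer (N : Set G) →
      C ≤ normalizer (N : Set G) → ⁅K, A⁆ ≤ N → ⁅K, B⁆ ≤ N → ⁅K, C⁆ ≤ N → ⁅K, A ⊔ B ⊔ C⁆ ≤ N :=
    fun a b c h1 h2 h3 => commutator_sup_le' (sup_le a b) c (commutator_sup_le' a b h1 h2) h3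
  have s2 : ⁅W, A ⊔ B ⊔ C⁆ ≤ ⁅E, F⁆ :=
    R3 (n1 mA) n1B (n1 mC) (comm_le_of_bot (wM mA)) wB (comm_le_of_bot (wM mC))
  have s3 : ⁅E ⊔ F ⊔ W, A ⊔ B ⊔ C⁆ ≤ W := by
    refine commutator_sup_le (sup_le (n2 mE) (n2 mF)) le_normalizer
      (commutator_sup_le (n2 mE) (n2 mF) ?_ ?_) (s2.trans le_sup_right)
    · exact R3 (n2 mA) n2B (n2 mC) (comm_le_of_bot eA) (comm_le_of_bot eB)
        (le_sup_right.trans le_sup_left)
    · exact R3 (n2 mA) n2B (n2 mC) (by rw [commutator_comm]; exact le_sup_left.trans le_sup_left)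
        (comm_le_of_bot fB) (comm_le_of_bot fC)
  have n3 : A ⊔ B ⊔ C ≤ normalizer ((E ⊔ F ⊔ W : Subgroup G) : Set G) :=
    le_norm_of_comm (s3.trans le_sup_right)
  have a3 := (le_sup_left.trans le_sup_left).trans n3
  have b3 := (le_sup_right.trans le_sup_left).trans n3
  have c3 := le_sup_right.trans n3
  have lE : E ≤ E ⊔ F ⊔ W := le_sup_left.trans le_sup_left
  have lF : F ≤ E ⊔ F ⊔ W := le_sup_right.trans le_sup_left
  have s4 : ⁅A ⊔ B ⊔ C, A ⊔ B ⊔ C⁆ ≤ E ⊔ F ⊔ W := by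
    refine commutator_sup_le (sup_le a3 b3) c3 (commutator_sup_le a3 b3 ?_ ?_) ?_
    · exact R3 a3 b3 c3 (comm_le_of_bot (hS.cm hA)) (hE ▸ lE) (comm_le_of_bot hAC)
    · exact R3 a3 b3 c3 (hBA.trans lE) (comm_le_of_bot (hS.cm hB)) (hBC.trans lF)
    · exact R3 a3 b3 c3 (comm_le_of_bot (comm_bot_symm hAC)) (hF ▸ lF) (comm_le_of_bot (hS.cm hC))
  refine nilp_of_chain _ (fun i => match i with
    | 0 => ⊥ | 1 => ⁅E, F⁆ | 2 => W | 3 => E ⊔ F ⊔ W | _ + 4 => A ⊔ B ⊔ C) rfl ?_ 4 le_rfl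
  intro i
  match i with
  | 0 => exact (comm_bot_sup_right (comm_bot_sup_right (z mE mF mA) k1B) (z mE mF mC)).le
  | 1 => exact s2
  | 2 => exact s3
  | 3 => exact s4
  | _ + 4 => exact commutator_le_self _

/-- A member commuting with `C` and in the commutator case with a partner of `C`. -/
theorem not_cent (hS : RS S) (r : RP C B) (h : RC S A B) (hAC : ⁅A, C⁆ = ⊥)
    (hA : A ∈ S) : ⁅⁅A, B⁆, C⁆ ≠ ⊥ := by
  intro hc
  have n1 : ⁅A ⊔ ⁅A, B⁆, C⁆ = ⊥ := comm_bot_sup_left hAC hc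
  have n2 : C ⊔ B ≤ normalizer ((A ⊔ ⁅A, B⁆ : Subgroup G) : Set G) :=
    sup_le (le_norm_of_comm (comm_le_of_bot n1)) (le_norm_of_comm (commutator_sup_le
      (le_normalizer.trans' le_sup_left) (le_normalizer.trans' le_sup_right) le_sup_right
      (comm_le_of_bot h.cenR)))
  obtain ⟨x, hx, e⟩ := r.right_mem
  have : ⁅A ⊔ ⁅A, B⁆, B⁆ = ⊥ := by
    have e : B = cj x C := e
    conv_lhs => rw [← cj_eq_of_mem_normalizer (n2 hx)]
    nth_rewrite 2 [e]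
    rw [← cj_commutator, n1, cj_bot]
  exact hS.rc_ne h (comm_bot_mono this le_sup_left le_rfl)

theorem rc_of_line (hS : RS S) (hA : A ∈ S) (hB : B ∈ S) (hC : C ∈ S) (hE : E ∈ S) (r : RP A C)
    (hAB : ⁅A, B⁆ = ⊥) (hn : ¬ RP B C) (ha : a ∈ A) (a1 : a ≠ 1) (hb : b ∈ B) (b1 : b ≠ 1)
    (he : a * b ∈ E) : RC S B C := by
  rcases hS.tri hB hC with h | h | h
  · rw [(cm_of hAB ha hb).eq] at he
    exact absurd (hS.no_translate hA hC r (cm_sup (fun _ hx => (cm_of hAB hx hb).symm)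
      fun _ hx => cm_of h hb hx) ha a1 hE he) b1
  · exact absurd h hn
  · exact h

theorem rp_of_line (hS : RS S) (hA : A ∈ S) (hB : B ∈ S) (hC : C ∈ S) (hE : E ∈ S) (r : RP A C)
    (hAB : ⁅A, B⁆ = ⊥) (h : RC S B C) (ha : a ∈ A) (a1 : a ≠ 1) (hb : b ∈ B)
    (he : a * b ∈ E) : RP E C := by
  have r' := r.symm.rp_cj_right ha a1
  have n1 : a * b ≠ 1 := fun e =>
    r'.not_le_of_cj (by rw [eq_inv_of_mul_eq_one_left e]; exact h.cj_le_norm (inv_mem hb))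
  rcases hS.tri hE hC with h' | h' | h'
  · exfalso
    apply r'.not_le_of_cj
    have : cj a C = cj b⁻¹ C := by
      rw [cj_eq_cj_iff, inv_inv, ← (cm_of hAB ha hb).eq, cj_of_comm h' he]
    rw [this]; exact h.cj_le_norm (inv_mem hb)
  · exact h'
  · exfalso
    have c : ⁅E, B⁆ = ⊥ := hS.comm_of_cm hE hB he n1 fun _ hx =>
      Commute.mul_left (cm_of hAB ha hx) (hS.cme hB hb hx)
    refine r'.not_nilp (nilp_of_le ?_ (hS.chain_nilp hE hC hB h' h c))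
    have m : a ∈ E ⊔ C ⊔ B := by
      rw [← mul_inv_cancel_right a b]
      exact mul_mem (mem_sup_left (mem_sup_left he)) (mem_sup_right (inv_mem hb))
    exact sup_le (le_sup_right.trans le_sup_left) (cj_le_of_mem m (le_sup_right.trans le_sup_left))

theorem not_rp_of_mt (hAB : ⁅A, B⁆ = ⊥) (m1 : Mt A D a d) (m2 : Mt B D b d) (he : a⁻¹ * b ∈ E)
    (hne : a⁻¹ * b ≠ 1) : ¬ RP E D := by
  intro r
  apply (r.symm.rp_cj_right he hne).not_comm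
  rw [← cj_eq_bot (g := a), cj_commutator, cj_cj, mul_inv_cancel_left, ← m1.2.2, ← m2.2.2,
    ← cj_commutator, hAB, cj_bot]

theorem exists_not_rp (l : LP S A B) (D : Subgroup G) : ∃ T ∈ S, T ≤ A ⊔ B ∧ ¬ RP T D := by
  by_cases r1 : RP A D
  swap; · exact ⟨A, l.l, le_sup_left, r1⟩
  by_cases r2 : RP B D
  swap; · exact ⟨B, l.r, le_sup_right, r2⟩
  obtain ⟨d, hd, d1⟩ := r1.exB
  obtain ⟨a, m1⟩ := r1.exM' hd d1
  obtain ⟨b, m2⟩ := r2.exM' hd d1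
  have n : a⁻¹ * b ≠ 1 := fun e => r1.ne1 m1 (l.eq_one' m1.1 (inv_mul_eq_one.1 e ▸ m2.1))
  obtain ⟨E, hE, h1, h2⟩ := l.cover (mul_mem (mem_sup_left (inv_mem m1.1)) (mem_sup_right m2.1)) n
  exact ⟨E, hE, h1, not_rp_of_mt l.cm m1 m2 h2 n⟩

theorem rc_comm (hS : RS S) (hA : A ∈ S) (hD : D ∈ S) (hT : T ∈ S) (r : RP A D) (hTA : ⁅T, A⁆ = ⊥)
    (h : RC S T D) : RC S ⁅T, D⁆ A := by
  rcases hS.tri h.1 hA with h' | h' | h'
  · exact absurd h' (hS.not_cent r h hTA hT)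
  · exfalso
    have nD : NI S D := ⟨A, hA, r.symm⟩
    obtain ⟨P, hP, h1, h2⟩ := exists_not_rp (hS.lp_of_rc hD nD h.symm) A
    rcases hS.line_mem hD nD h.symm hP h1 with e | ⟨t, ht, e⟩
    · rw [e, commutator_comm] at h2; exact h2 h'
    · apply h2
      rw [e, ← cj_of_comm hTA ht]
      exact r.symm.conj t
  · exact h'

theorem comm_eq (hS : RS S) (hA : A ∈ S) (hD : D ∈ S) (hT : T ∈ S) (hE : E ∈ S) (r : RP A D)
    (hTA : ⁅T, A⁆ = ⊥) (h : RC S T D) (ha : a ∈ A) (a1 : a ≠ 1) (ht : t ∈ T) (t1 : t ≠ 1)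
    (he : a * t ∈ E) (hn : NI S T) : ⁅⁅T, D⁆, A⁆ = T := by
  have hF := hS.rc_comm hA hD hT r hTA h
  have rE := hS.rp_of_line hA hT hD hE r (comm_bot_symm hTA) h ha a1 ht he
  have cat := (cm_of hTA ht ha).symm
  have n1 : a * t ≠ 1 := fun e => (r.symm.rp_cj_right ha a1).not_le_of_cj
    (by rw [eq_inv_of_mul_eq_one_left e]; exact h.cj_le_norm (inv_mem ht))
  have cEA : ⁅A, E⁆ = ⊥ := comm_bot_symm (hS.comm_of_cm hE hA he n1 fun _ hx =>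
      Commute.mul_left (hS.cme hA ha hx) (cm_of hTA ht hx))
  obtain ⟨δ, m⟩ := rE.exM he n1
  obtain ⟨a', m'⟩ := r.exM' m.2.1 (rE.ne2 m)
  have e1 : a' = a := by
    by_contra hne
    have n2 : a'⁻¹ * a ≠ 1 := fun e => hne (inv_mul_eq_one.1 e)
    have ha2 := mul_mem (inv_mem m'.1) ha
    have c1 : ⁅cj t⁻¹ D, cj (a'⁻¹ * a) D⁆ = ⊥ := by
      rw [← cj_eq_bot (g := a' * t), cj_commutator, cj_cj, cj_cj, mul_inv_cancel_right,
        show a' * t * (a'⁻¹ * a) = a * t by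
          rw [← mul_assoc, ← (cm_of hTA ht m'.1).eq, mul_inv_cancel_right, cat.eq],
        ← m'.2.2, ← m.2.2, ← cj_commutator, cEA, cj_bot]
    have c2 : ⁅cj t⁻¹ D, D⁆ = ⊥ := comm_bot_symm (hS.cm_cj hD h.symm (inv_mem ht))
    have c3 := comm_bot_sup_right c2 c1
    rw [r.symm.sup_cj_right ha2 n2] at c3
    have r2 := r.symm.conj t⁻¹
    rw [cj_of_comm hTA (inv_mem ht)] at r2
    exact r2.not_comm (comm_bot_mono c3 le_rfl le_sup_right)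
  rw [e1] at m'
  have hδ := m.2.1
  -- decompose `δ (a t) δ⁻¹`
  have m1 : δ * (a * t) * δ⁻¹ ∈ cj a (D ⊔ ⁅D, T⁆) := by
    have := conj_mem_cj δ he
    rw [m.2.2, ← cj_cj] at this
    exact cj_mono a (by rw [commutator_comm]; exact cj_le_sup ht) this
  obtain ⟨y, hy, ey⟩ := m1
  obtain ⟨d, hd, f, hf, rfl⟩ := h.symm.mem_sup hy
  rw [commutator_comm] at hf
  obtain ⟨a2, ha2, e2⟩ : a * d * a⁻¹ ∈ cj δ A := m'.2.2 ▸ conj_mem_cj a hd
  have e2 : δ * a2 * δ⁻¹ = a * d * a⁻¹ := e2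
  have ey : a * (d * f) * a⁻¹ = δ * (a * t) * δ⁻¹ := ey
  have hf1 : ⁅δ, t⁆ ∈ ⁅T, D⁆ := by rw [commutator_comm]; exact commutator_mem_commutator hδ ht
  have ht' : ⁅a, f⁆ ∈ ⁅⁅T, D⁆, A⁆ := by rw [commutator_comm]; exact commutator_mem_commutator ha hf
  have e3 : δ * (a⁻¹ * a2) * δ⁻¹ * (⁅a, f⁆ * f) = ⁅δ, t⁆ * t := by
    calc _ = δ * a⁻¹ * δ⁻¹ * (δ * a2 * δ⁻¹) * (a * f * a⁻¹) := by
          rw [commutatorElement_def]; group
      _ = δ * a⁻¹ * δ⁻¹ * (a * (d * f) * a⁻¹) := by rw [e2]; group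
      _ = _ := by rw [ey, commutatorElement_def]; group
  have cT : ⁅T, ⁅⁅T, D⁆, A⁆⁆ = ⊥ :=
    comm_bot_mono (comm_bot_sup_right (comm_bot_symm h.cenL) hTA) le_rfl (commutator_le_sup _ _)
  have e4 : a⁻¹ * a2 = 1 := by
    by_contra n2
    have ha3 := mul_mem (inv_mem ha) ha2
    have mO : cj δ A ∈ Om A D := RP.cj_mem_Om (RP.left_mem _ _) (mem_sup_right hδ)
    have r2 := r.rp_cj_right hδ (rE.ne2 m)
    have r3 := r2.rp_cj_right (conj_mem_cj δ ha3) (fun e => n2 (by simpa using e))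
    apply r3.not_comm
    have nN : δ * (a⁻¹ * a2) * δ⁻¹ ∈ normalizer ((A ⊔ ⁅⁅T, D⁆, A⁆ : Subgroup G) : Set G) := by
      rw [eq_mul_inv_of_mul_eq e3]
      have k1 : ⁅T, D⁆ ≤ normalizer ((A ⊔ ⁅⁅T, D⁆, A⁆ : Subgroup G) : Set G) :=
        le_norm_of_comm (commutator_sup_le (le_normalizer.trans' le_sup_left)
          (le_normalizer.trans' le_sup_right) (by rw [commutator_comm]; exact le_sup_right)
          (comm_le_of_bot hF.cenL))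
      have k2 : T ≤ normalizer ((A ⊔ ⁅⁅T, D⁆, A⁆ : Subgroup G) : Set G) :=
        le_normalizer_of_commutator_eq_bot (comm_bot_sup_right hTA cT)
      exact mul_mem (mul_mem (k1 hf1) (k2 ht))
        (inv_mem (mul_mem (le_normalizer (mem_sup_right ht')) (k1 hf)))
    exact comm_bot_mono (comm_bot_sup_right (hS.cm hA) (comm_bot_symm hF.cenR)) le_rfl
      (cj_le_of_mem_normalizer nN le_sup_left)
  rw [e4, mul_one, mul_inv_cancel, one_mul] at e3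
  have e5 : ⁅δ, t⁆⁻¹ * f = t * ⁅a, f⁆⁻¹ := by
    rw [(cm_of hF.cenL ht' hf).eq] at e3
    calc _ = ⁅δ, t⁆⁻¹ * (f * ⁅a, f⁆) * ⁅a, f⁆⁻¹ := by group
      _ = _ := by rw [e3]; group
  have e6 := hS.rc_cenL hF (mul_mem (inv_mem hf1) hf) fun x hx => by
    rw [e5]
    exact Commute.mul_left (cm_of hTA ht hx) (cm_of hF.cenR ht' hx).inv_left
  rw [e5, mul_inv_eq_one] at e6
  exact (hS.eq_of_mem hT hn hF.1 ht (e6 ▸ ht') t1).symm

theorem line_struct (hS : RS S) (hn : ∀ E ∈ S, NI S E) (l : LP S A B) (hD : D ∈ S) (r : RP A D) :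
    ∃ T ∈ S, T ≠ A ∧ RC S T D ∧ RC S ⁅T, D⁆ A ∧ ⁅⁅T, D⁆, A⁆ = T ∧ A ⊔ T = A ⊔ B := by
  obtain ⟨T, hT, h1, h2⟩ := exists_not_rp l D
  have hne : T ≠ A := by rintro rfl; exact h2 r
  have cTA : ⁅T, A⁆ = ⊥ := comm_bot_mono (l.abel hS) h1 le_sup_left
  obtain ⟨a, ha, a1⟩ := r.exA
  obtain ⟨t, ht, t1⟩ := hS.ex hT
  have i1 : ∀ x ∈ T, x ∈ A → x = 1 := fun x hx hx' => l.eq_one hT l.l h1 le_sup_left hne hx hx'
  have n1 : a * t ≠ 1 := fun e => t1 (i1 t ht (eq_inv_of_mul_eq_one_right e ▸ inv_mem ha))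
  obtain ⟨E, hE, -, he⟩ := l.cover (mul_mem (mem_sup_left ha) (h1 ht)) n1
  have h3 := hS.rc_of_line l.l hT hD hE r (comm_bot_symm cTA) h2 ha a1 ht t1 he
  have h4 := hS.rc_comm l.l hD hT r cTA h3
  have h5 := hS.comm_eq l.l hD hT hE r cTA h3 ha a1 ht t1 he (hn T hT)
  refine ⟨T, hT, hne, h3, h4, h5, le_antisymm (sup_le le_sup_left h1) (sup_le le_sup_left ?_)⟩
  have l2 := hS.lp_of_rc l.l (hn A l.l) h4.symm
  rw [commutator_comm, h5] at l2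
  obtain ⟨a', ha', b, hb, rfl⟩ := l.mem_sup (h1 ht)
  have b1 : b ≠ 1 := by rintro rfl; exact t1 (i1 _ ht (by rwa [mul_one]))
  obtain ⟨P, hP, p1, p2⟩ := l2.cover (x := b)
    ((mul_mem_cancel_left (mem_sup_left ha')).1 (mem_sup_right ht)) b1
  rw [hS.eq_of_mem l.r (hn B l.r) hP hb p2 b1]; exact p1

end RS

end CfsgH1
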