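import Cfsg.Agent.H1.RS5

/-! Sets of abstract root subgroups: natural modules, components, classes. -/

set_option autoImplicit false
set_option linter.unusedSectionVars false

namespace CfsgH1

open Subgroup Cfsg CfsgH9
open scoped commutatorElement

variable {G : Type*} [Group G]
variable {S : Set (Subgroup G)} {A B C D E F T : Subgroup G} {a b c d e t x y z g : G}

/-- The configuration `[A, B] = C`, `[D, C] = A`. -/
structure OP (S : Set (Subgroup G)) (A B C D : Subgroup G) : Prop where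
  hS : RS S
  mA : A ∈ S
  mB : B ∈ S
  mC : C ∈ S
  mD : D ∈ S
  e1 : ⁅A, B⁆ = C
  e2 : ⁅C, D⁆ = A

namespace OP

theorem symm (h : OP S A B C D) : OP S C D A B := ⟨h.hS, h.mC, h.mD, h.mA, h.mB, h.e2, h.e1⟩

theorem rc (h : OP S A B C D) : RC S A B := h.hS.rc_of_mem h.mA h.mB (h.e1 ▸ h.mC)

theorem cB (h : OP S A B C D) : ⁅C, B⁆ = ⊥ := h.e1 ▸ h.rc.cenR
theorem cA (h : OP S A B C D) : ⁅C, A⁆ = ⊥ := h.e1 ▸ h.rc.cenL
theorem aD (h : OP S A B C D) : ⁅A, D⁆ = ⊥ := h.symm.cB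

theorem inf (h : OP S A B C D) (ha : a ∈ A) (hc : a ∈ C) : a = 1 := h.hS.rc_infL h.rc ha (h.e1 ▸ hc)

theorem nB (h : OP S A B C D) : ⁅A ⊔ C, B⁆ = C := by
  apply le_antisymm _ (h.e1.ge.trans (commutator_mono le_sup_left le_rfl))
  exact commutator_sup_le (le_norm_of_comm (comm_le_of_bot h.cA)) le_normalizer h.e1.le
    (comm_le_of_bot h.cB)

theorem nD (h : OP S A B C D) : ⁅A ⊔ C, D⁆ = A := by rw [sup_comm]; exact h.symm.nB

theorem norm (h : OP S A B C D) : B ⊔ D ≤ normalizer ((A ⊔ C : Subgroup G) : Set G) :=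
  sup_le (le_norm_of_comm (h.nB.le.trans le_sup_right)) (le_norm_of_comm (h.nD.le.trans le_sup_left))

theorem cjB (h : OP S A B C D) (hx : x ∈ B ⊔ D) : cj x C = ⁅A ⊔ C, cj x B⁆ := by
  conv_lhs => rw [← h.nB]
  rw [cj_commutator, cj_eq_of_mem_normalizer (h.norm hx)]

theorem cjD (h : OP S A B C D) (hx : x ∈ B ⊔ D) : cj x A = ⁅A ⊔ C, cj x D⁆ := by
  conv_lhs => rw [← h.nD]
  rw [cj_commutator, cj_eq_of_mem_normalizer (h.norm hx)]

theorem not_norm (h : OP S A B C D) (hd : d ∈ D) (e : cj d C = C) : d = 1 :=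
  h.hS.rc_norm h.symm.rc.symm hd e

theorem rp (h : OP S A B C D) : RP B D := by
  obtain ⟨d, hd, d1⟩ := h.hS.ex h.mD
  rcases h.hS.tri h.mD h.mB with r | r | r
  · refine absurd (h.not_norm hd ?_) d1
    rw [h.cjB (mem_sup_right hd), cj_of_comm r hd, h.nB]
  · exact r.symm
  · exfalso
    have l : ⁅D, B⁆ ≤ B ⊔ D := by rw [sup_comm]; exact commutator_le_sup _ _
    have c1 : ⁅⁅D, B⁆, C⁆ = ⊥ := h.hS.comm_of_le_norm r.1 h.mC fun f hf => by
      rw [← cj_eq_iff, h.cjB (l hf), cj_of_comm r.cenR hf, h.nB]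
    have c2 : ⁅⁅D, B⁆, A⁆ = ⊥ := h.hS.comm_of_le_norm r.1 h.mA fun f hf => by
      rw [← cj_eq_iff, h.cjD (l hf), cj_of_comm r.cenL hf, h.nD]
    have k : ∀ d ∈ D, cj d C ≤ C := by
      intro d hd
      rw [h.cjB (mem_sup_right hd)]
      refine (commutator_mono le_rfl (cj_le_sup hd)).trans ?_
      exact commutator_sup_le' (le_norm_of_comm (comm_le_of_bot h.cB))
        (le_normalizer_of_commutator_eq_bot c1) h.nB.le
        (comm_le_of_bot (comm_bot_symm (comm_bot_sup_right c2 c1)))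
    exact d1 (h.not_norm hd (cj_eq_iff.2 (le_normalizer_iff_cj.2 k hd)))

theorem orbit (h : OP S A B C D) :
    (∃ x ∈ B ⊔ D, E = cj x A) ↔ ∃ P ∈ Om B D, E = ⁅A ⊔ C, P⁆ := by
  rw [← h.rp.Om_symm]
  constructor
  · rintro ⟨x, hx, rfl⟩
    exact ⟨_, ⟨x, by rwa [sup_comm], rfl⟩, h.cjD hx⟩
  · rintro ⟨_, ⟨x, hx, rfl⟩, rfl⟩
    rw [sup_comm] at hx
    exact ⟨x, hx, (h.cjD hx).symm⟩

theorem orbit' (h : OP S A B C D) :
    (∃ x ∈ B ⊔ D, E = cj x C) ↔ ∃ P ∈ Om B D, E = ⁅A ⊔ C, P⁆ := by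
  rw [← h.rp.Om_symm, sup_comm B, sup_comm A]
  exact h.symm.orbit

theorem orbit_iff (h : OP S A B C D) :
    (∃ x ∈ B ⊔ D, E = cj x A) ↔ E = C ∨ ∃ b ∈ B, E = cj b A := by
  constructor
  · rw [h.orbit]
    rintro ⟨P, hP, rfl⟩
    rcases h.rp.mem_iff.1 hP with e | ⟨b, hb, e⟩
    · left; rw [e, h.nB]
    · right; exact ⟨b, hb, by rw [e, h.cjD (mem_sup_left hb)]⟩
  · rintro (e | ⟨b, hb, e⟩)
    · exact h.orbit.2 ⟨B, RP.left_mem _ _, by rw [e, h.nB]⟩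
    · exact ⟨b, mem_sup_left hb, e⟩

theorem part (h : OP S A B C D) :
    IsSubgroupPartition (A ⊔ C) {E | ∃ x ∈ B ⊔ D, E = cj x A} := by
  refine ⟨?_, fun x hx x1 => ?_, fun P hP Q hQ hne => ?_⟩
  · rintro _ ⟨x, hx, rfl⟩
    exact cj_le_of_mem_normalizer (h.norm hx) le_sup_left
  · rw [← h.e1] at hx
    obtain ⟨a, ha, c, hc, rfl⟩ := h.rc.mem_sup hx
    by_cases a1 : a = 1
    · exact ⟨C, h.orbit_iff.2 (Or.inl rfl), by rw [a1, one_mul, ← h.e1]; exact hc⟩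
    · obtain ⟨b, hb, m⟩ := h.rc.mul_mem_cj ha a1 hc
      exact ⟨_, ⟨b, mem_sup_left hb, rfl⟩, m⟩
  · obtain ⟨P', hP', rfl⟩ := h.orbit.1 hP
    obtain ⟨Q', hQ', rfl⟩ := h.orbit.1 hQ
    obtain ⟨x, hx, rfl, rfl⟩ := h.rp.trans2 hP' hQ' (by rintro rfl; exact hne rfl)
    rw [← h.cjB hx, ← h.cjD hx, ← cj_inf, cj_eq_bot, eq_bot_iff]
    exact fun y hy => h.inf hy.2 hy.1

theorem cent (h : OP S A B C D) :
    ⁅(B ⊔ D) ⊓ centralizer ((A ⊔ C : Subgroup G) : Set G), B ⊔ D⁆ = ⊥ := by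
  rcases h.rp.normal (N := (B ⊔ D) ⊓ centralizer ((A ⊔ C : Subgroup G) : Set G)) inf_le_left
    (le_normalizer_inf le_normalizer (le_normalizer_centralizer h.norm)) with e | e
  · exfalso
    obtain ⟨d, hd, d1⟩ := h.hS.ex h.mD
    have : B ⊔ D ≤ normalizer (C : Set G) := by
      rw [← e]
      exact sup_le (inf_le_right.trans ((centralizer_anti le_sup_right).trans
        (centralizer_le_normalizer _))) (le_norm_of_comm (comm_le_of_bot h.cB))
    exact d1 (h.not_norm hd (cj_eq_iff.2 (this (mem_sup_right hd))))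
  · exact e

theorem sp (h : OP S A B C D) : Sp B D := by
  refine h.rp.sp_of fun b d m => ?_
  obtain ⟨b', m'⟩ := h.rp.exM' (inv_mem m.2.1) (inv_ne_one.2 (h.rp.ne2 m))
  have k : ∀ {b d : G}, Mt B D b d → cj d C = cj b A := fun m => by
    rw [h.cjB (mem_sup_right m.2.1), h.cjD (mem_sup_left m.1), m.2.2]
  have k1 : cj d⁻¹ C ≤ cj b⁻¹ A := by
    rintro _ ⟨p, hp, rfl⟩
    obtain ⟨q, hq, e⟩ : d * p * d⁻¹ ∈ cj b A := k m ▸ conj_mem_cj d hp
    have e : b * q * b⁻¹ = d * p * d⁻¹ := e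
    have m1 : ⁅d, p⁆ ∈ A := by
      rw [← h.e2, commutator_comm]; exact commutator_mem_commutator m.2.1 hp
    have m2 : ⁅b, q⁆ ∈ C := by
      rw [← h.e1, commutator_comm]; exact commutator_mem_commutator m.1 hq
    have e1 : ⁅d, p⁆ * p = q * ⁅b, q⁆ := by
      rw [← (cm_of h.cA m2 hq).eq, commutatorElement_def, commutatorElement_def,
        inv_mul_cancel_right, inv_mul_cancel_right, e]
    have e2 : q⁻¹ * ⁅d, p⁆ = ⁅b, q⁆ * p⁻¹ := by
      calc _ = q⁻¹ * (⁅d, p⁆ * p) * p⁻¹ := by group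
        _ = _ := by rw [e1]; group
    have e3 := h.inf (mul_mem (inv_mem hq) m1) (e2 ▸ mul_mem m2 (inv_mem hp))
    rw [e3] at e2
    have e4 : q = ⁅d, p⁆ := inv_mul_eq_one.1 e3
    have e5 : ⁅b, q⁆ = p := mul_inv_eq_one.1 e2.symm
    have cdq := (cm_of h.aD hq m.2.1).symm
    have cbp := (cm_of h.cB hp m.1).symm
    have cqp := (cm_of h.cA hp hq).symm
    have f1 : d * p * d⁻¹ = q * p := by rw [e4, commutatorElement_def]; group
    have f2 : b * q * b⁻¹ = p * q := by rw [← e5, commutatorElement_def]; group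
    have f3 : d⁻¹ * p * d = q⁻¹ * p := by
      calc _ = d⁻¹ * q⁻¹ * (q * p) * d := by group
        _ = q⁻¹ * d⁻¹ * (d * p * d⁻¹) * d := by rw [f1, cdq.inv_inv.eq]
        _ = _ := by group
    rw [mem_cj]
    change b⁻¹⁻¹ * (d⁻¹ * p * d⁻¹⁻¹) * b⁻¹ ∈ A
    rw [inv_inv, inv_inv, f3]
    have : b * (q⁻¹ * p) * b⁻¹ = q⁻¹ := by
      calc _ = (b * q * b⁻¹)⁻¹ * (b * p * b⁻¹) := by group
        _ = _ := by rw [f2, cbp.eq]; group
    rw [this]; exact inv_mem hq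
  rw [k m'] at k1
  have k2 : b * b' = 1 := by
    refine h.hS.rc_cenL h.rc.symm (mul_mem m.1 m'.1) fun a ha => ?_
    rw [← commutatorElement_eq_one_iff_commute]
    refine h.inf ?_ (by
      rw [← h.e1, commutator_comm]; exact commutator_mem_commutator (mul_mem m.1 m'.1) ha)
    rw [commutatorElement_def]
    refine mul_mem ?_ (inv_mem ha)
    have := k1 (conj_mem_cj b' ha)
    rw [mem_cj] at this
    convert this using 1; group
  rw [← eq_inv_of_mul_eq_one_right k2]; exact m'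

end OP

theorem triangle (r1 : RP A B) (r2 : RP C B) (hAC : ⁅A, C⁆ = ⊥) {β β' : G} (m1 : Mt A B a β)
    (m2 : Mt C B c β) (m3 : Mt C B c⁻¹ β') : Mt A B a⁻¹ β' := by
  obtain ⟨a', m4⟩ := r1.exM' m3.2.1 (r2.ne2 m3)
  have k : ∀ {a c β : G}, Mt A B a β → Mt C B c β → ⁅cj a B, cj c B⁆ = ⊥ := fun m1 m2 => by
    rw [← m1.2.2, ← m2.2.2, ← cj_commutator, hAC, cj_bot]
  have c1 := k m4 m3
  have c2 : ⁅cj a⁻¹ B, cj c⁻¹ B⁆ = ⊥ := by
    rw [← cj_eq_bot (g := a * c), cj_commutator, cj_cj, cj_cj, mul_inv_cancel_right,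
      (cm_of hAC m1.1 m2.1).eq, mul_inv_cancel_right]
    exact comm_bot_symm (k m1 m2)
  by_cases e : a' = a⁻¹
  · rw [← e]; exact m4
  exfalso
  have := comm_bot_sup_left c1 c2
  rw [r1.sup_of_mem (RP.cj_mem_Om r1.right_mem (mem_sup_left m4.1))
    (RP.cj_mem_Om r1.right_mem (mem_sup_left (inv_mem m1.1)))
    (fun e' => e (r1.injL m4.1 (inv_mem m1.1) e'))] at this
  exact (r2.symm.rp_cj_right (inv_mem m2.1) (inv_ne_one.2 (r2.ne1 m2))).not_comm
    (comm_bot_mono this le_sup_right le_rfl)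

/-- reachability in the rank one graph -/
abbrev FR (S : Set (Subgroup G)) : Subgroup G → Subgroup G → Prop := Relation.ReflTransGen (FAdj S)

theorem rtg_symm {α : Type*} {r : α → α → Prop} (hs : ∀ a b, r a b → r b a) {a b : α}
    (h : Relation.ReflTransGen r a b) : Relation.ReflTransGen r b a := by
  induction h with
  | refl => exact .refl
  | tail _ h ih => exact .head (hs _ _ h) ih

theorem FR.symm (h : FR S A B) : FR S B A :=
  rtg_symm (fun _ _ h => ⟨h.2.1, h.1, RP.symm h.2.2⟩) h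

theorem FR.of (hA : A ∈ S) (hB : B ∈ S) (r : RP A B) : FR S A B :=
  Relation.ReflTransGen.single ⟨hA, hB, r⟩

theorem FR.ni (h : FR S A B) (hne : B ≠ A) : NI S A := by
  rcases h.cases_head with e | ⟨C, h1, -⟩
  · exact absurd e.symm hne
  · exact ⟨C, h1.2.1, h1.2.2⟩

theorem RP.conj_ex (r : RP A B) : ∃ g, B = cj g A := by
  obtain ⟨x, -, e⟩ := r.right_mem
  exact ⟨x, e⟩

theorem FR.conj_ex (h : FR S A B) : ∃ g, B = cj g A := by
  induction h with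
  | refl => exact ⟨1, (cj_one _).symm⟩
  | tail _ h ih =>
    obtain ⟨g, rfl⟩ := ih
    obtain ⟨x, e⟩ := RP.conj_ex h.2.2
    exact ⟨x * g, by rw [e, cj_cj]⟩

namespace RS

theorem induct (hS : RS S) {R : Subgroup G → Subgroup G → Prop}
    (h1 : ∀ A ∈ S, ∀ E ∈ S, ∀ e ∈ E, Relation.ReflTransGen R A (cj e A)) (hA : A ∈ S) (g : G) :
    Relation.ReflTransGen R A (cj g A) := by
  have hg : g ∈ ⨆ E : S, (E : Subgroup G) := by
    rw [iSup_subtype, hS.generates]; trivial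
  induction hg using iSup_induction' generalizing A with
  | hp E e he => exact h1 A hA E E.2 e he
  | h1 => rw [cj_one]
  | hmul x y _ _ ih1 ih2 =>
    rw [← cj_cj]
    exact (ih2 hA).trans (ih1 (hS.cjm hA y))

theorem le_of_forall (hS : RS S) {H : Subgroup G} (h : ∀ E ∈ S, E ≤ H) : H = ⊤ := by
  rw [eq_top_iff, ← hS.generates]
  exact iSup₂_le h

theorem fr_of_lp (hS : RS S) (l : LP S A B) (n1 : NI S A) (n2 : NI S B) : FR S A B := by
  obtain ⟨C, hC, r⟩ := n1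
  obtain ⟨D, hD, r'⟩ := n2
  obtain ⟨a, ha, a1⟩ := r.exA
  obtain ⟨b, hb, b1⟩ := r'.exA
  have n : a * b ≠ 1 := fun e => a1 (l.eq_one' ha (eq_inv_of_mul_eq_one_left e ▸ inv_mem hb))
  obtain ⟨E, hE, -, he⟩ := l.cover (mul_mem (mem_sup_left ha) (mem_sup_right hb)) n
  by_cases q1 : RP B C
  · exact (FR.of l.l hC r).trans (FR.of hC l.r q1.symm)
  by_cases q2 : RP A D
  · exact (FR.of l.l hD q2).trans (FR.of hD l.r r'.symm)
  have s1 := hS.rp_of_line l.l l.r hC hE r l.cm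
    (hS.rc_of_line l.l l.r hC hE r l.cm q1 ha a1 hb b1 he) ha a1 hb he
  rw [(cm_of l.cm ha hb).eq] at he
  have s2 := hS.rp_of_line l.r l.l hD hE r' l.symm.cm
    (hS.rc_of_line l.r l.l hD hE r' l.symm.cm q2 hb b1 ha a1 he) hb b1 ha he
  exact ((FR.of l.l hC r).trans (FR.of hC hE s1.symm)).trans ((FR.of hE hD s2).trans (FR.of hD l.r r'.symm))

theorem lp_cj (hS : RS S) (hA : A ∈ S) (hn : NI S A) (h : RC S A B) (hb : b ∈ B) :
    LP S (cj b A) ⁅A, B⁆ := by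
  have := (hS.lp_of_rc hA hn h).conj hS b
  rwa [cj_of_comm (comm_bot_symm h.cenR) hb] at this

theorem fr_cj (hS : RS S) (hn : ∀ E ∈ S, NI S E) (hA : A ∈ S) (g : G) : FR S A (cj g A) := by
  refine hS.induct (fun A hA E hE e he => ?_) hA g
  rcases hS.tri hA hE with h | h | h
  · rw [cj_of_comm (comm_bot_symm h) he]
  · by_cases e1 : e = 1
    · rw [e1, cj_one]
    · exact FR.of hA (hS.cjm hA e) (h.rp_cj_right he e1)
  · exact (hS.fr_of_lp (hS.lp_of_rc hA (hn A hA) h) (hn A hA) (hn _ h.1)).trans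
      (hS.fr_of_lp (hS.lp_cj hA (hn A hA) h he) (hn _ (hS.cjm hA e)) (hn _ h.1)).symm

theorem exists_op (hS : RS S) (hn : ∀ E ∈ S, NI S E) (l : LP S A B) (hD : D ∈ S) (r : RP A D) :
    ∃ T F, OP S T D F A ∧ T ≠ A ∧ A ⊔ T = A ⊔ B ∧ LP S A T := by
  obtain ⟨T, hT, h1, h2, h3, h4, h5⟩ := hS.line_struct hn l hD r
  exact ⟨T, _, ⟨hS, hT, hD, h2.1, l.l, rfl, h4⟩, h1, h5, l.of_sup hS l.l hT h1.symm h5⟩

theorem line_pts (hS : RS S) (hn : ∀ E ∈ S, NI S E) (o : OP S T D F A) (hE : E ∈ S) (hl : E ≤ A ⊔ T) :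
    E = T ∨ ∃ f ∈ F, E = cj f A := by
  have e : ⁅A, F⁆ = T := by rw [commutator_comm, o.e2]
  have := hS.line_mem o.mD (hn A o.mD) o.symm.rc.symm hE (by rwa [e])
  rwa [e] at this

theorem exists_opp (hS : RS S) (hn : ∀ E ∈ S, NI S E) (hA : A ∈ S) (hC : C ∈ S) (h : RC S A C) :
    ∃ D ∈ S, RP ⁅A, C⁆ D ∧ RC S A D ∧ RC S C D ∧ OP S C A ⁅A, C⁆ ⁅C, D⁆ := by
  obtain ⟨D0, hD0, r0⟩ := hn _ h.1
  have key : ∀ {A C D : Subgroup G}, A ∈ S → RC S A C → RP ⁅A, C⁆ D → ∃ c ∈ C, ¬ RP A (cj c D) := by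
    intro A C D hA h r
    obtain ⟨P, hP, h1, h2⟩ := exists_not_rp (hS.lp_of_rc hA (hn A hA) h) D
    rcases hS.line_mem hA (hn A hA) h hP h1 with e | ⟨c, hc, e⟩
    · exact absurd (e ▸ r) h2
    · refine ⟨c⁻¹, inv_mem hc, fun r' => h2 ?_⟩
      have := r'.conj c
      rwa [cj_cj_inv, ← e] at this
  obtain ⟨c, hc, h1⟩ := key hA h r0
  have r1 : RP ⁅A, C⁆ (cj c D0) := by
    have := r0.conj c
    rwa [cj_of_comm (comm_bot_symm h.cenR) hc] at this
  obtain ⟨a, ha, h2⟩ := key hC h.symm (by rw [commutator_comm]; exact r1)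
  have r2 : RP ⁅A, C⁆ (cj a (cj c D0)) := by
    have := r1.conj a
    rwa [cj_of_comm (comm_bot_symm h.cenL) ha] at this
  have h3 : ¬ RP A (cj a (cj c D0)) := fun r' => h1 (by
    rw [← cj_eq_of_mem ha] at r'
    exact RP.of_cj r')
  have hD := hS.cjm (hS.cjm hD0 c) a
  generalize cj a (cj c D0) = D at r2 h2 h3 hD
  have k : ∀ {P : Subgroup G}, LP S ⁅A, C⁆ P → ¬ RP P D → RC S P D ∧ ⁅⁅P, D⁆, ⁅A, C⁆⁆ = P := by
    intro P l hP
    obtain ⟨f, hf, f1⟩ := r2.exA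
    obtain ⟨p, hp, p1⟩ := hS.ex l.r
    have n : f * p ≠ 1 := fun e => f1 (l.eq_one' hf (eq_inv_of_mul_eq_one_left e ▸ inv_mem hp))
    obtain ⟨E, hE, -, he⟩ := l.cover (mul_mem (mem_sup_left hf) (mem_sup_right hp)) n
    have := hS.rc_of_line h.1 l.r hD hE r2 l.cm hP hf f1 hp p1 he
    exact ⟨this, hS.comm_eq h.1 hD l.r hE r2 l.symm.cm this hf f1 hp p1 he (hn P l.r)⟩
  obtain ⟨k1, -⟩ := k (hS.lp_of_rc hA (hn A hA) h).symm h3
  have l2 := (hS.lp_of_rc hC (hn C hC) h.symm).symm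
  rw [commutator_comm] at l2
  obtain ⟨k2, k3⟩ := k l2 h2
  exact ⟨D, hD, r2, k1, k2, hS, hC, hA, h.1, k2.1, commutator_comm _ _,
    by rw [commutator_comm]; exact k3⟩

theorem exists_rp_comm (hS : RS S) (hn : ∀ E ∈ S, NI S E) (hA : A ∈ S) (hC : C ∈ S)
    (h : RC S A C) : ∃ E ∈ S, RP A E ∧ ⁅C, E⁆ = ⊥ := by
  obtain ⟨D, -, -, -, -, o⟩ := hS.exists_opp hn hA hC h
  exact ⟨_, o.mD, o.rp, o.aD⟩

theorem omega_comm (hS : RS S) (hn : ∀ E ∈ S, NI S E) (hA : A ∈ S) (hC : C ∈ S)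
    (h : ∀ B ∈ S, RP A B → RP C B) : ⁅A, C⁆ = ⊥ := by
  rcases hS.tri hA hC with r | r | r
  · exact r
  · exact absurd rfl (h C hC r).ne
  · obtain ⟨E, hE, h1, h2⟩ := hS.exists_rp_comm hn hA hC r
    exact absurd h2 (h E hE h1).not_comm

theorem omega_cj (hS : RS S) (h : ∀ B ∈ S, RP A B → RP C B) (g : G) :
    ∀ B ∈ S, RP (cj g A) B → RP (cj g C) B := by
  intro B hB r
  have := r.conj g⁻¹
  rw [cj_inv_cj] at this
  have := (h _ (hS.cjm hB g⁻¹) this).conj g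
  rwa [cj_cj_inv] at this

theorem omega_eq (hS : RS S) (hn : ∀ E ∈ S, NI S E) (hA : A ∈ S) (hC : C ∈ S)
    (h : ∀ B ∈ S, RP A B → RP C B) (hD : D ∈ S) (r : RP C D) : RP A D := by
  have hAC := hS.omega_comm hn hA hC h
  rcases hS.tri hA hD with q | q | q
  · exfalso
    have h' : ∀ B ∈ S, RP A B → RP D B := by
      obtain ⟨x, hx, e⟩ := r.right_mem
      have := hS.omega_cj h x
      rwa [cj_of_cm fun a ha => (cm_sup (fun _ hc => cm_of hAC ha hc) (fun _ hd => cm_of q ha hd)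
        x hx).symm, ← show D = cj x C from e] at this
    obtain ⟨B, hB, rA⟩ := hn A hA
    have rC := h B hB rA
    have rD := h' B hB rA
    obtain ⟨β, hβ, β1⟩ := rA.exB
    obtain ⟨a, ma⟩ := rA.exM' hβ β1
    obtain ⟨c, mc⟩ := rC.exM' hβ β1
    obtain ⟨d, md⟩ := rD.exM' hβ β1
    obtain ⟨β', ma'⟩ := rA.exM (inv_mem ma.1) (inv_ne_one.2 (rA.ne1 ma))
    have mc' := triangle rC rA (comm_bot_symm hAC) mc ma ma'
    have md' := triangle rD rA (comm_bot_symm q) md ma ma'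
    have r1 : RP (cj (d⁻¹ * a) B) (cj (c⁻¹ * a) B) := by
      have := (r.symm.conj β').conj a
      rwa [mc'.2.2, md'.2.2, cj_cj, cj_cj, (cm_of hAC ma.1 mc.1).inv_right.eq,
        (cm_of q ma.1 md.1).inv_right.eq] at this
    have o := hS.omega_cj (hS.omega_cj h' β) d⁻¹
    rw [ma.2.2, md.2.2, cj_inv_cj, cj_cj] at o
    apply (o _ (hS.cjm hB _) r1).not_comm
    rw [← cj_eq_bot (g := c), cj_commutator, cj_cj, mul_inv_cancel_left, ← ma.2.2, ← mc.2.2,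
      ← cj_commutator, comm_bot_symm hAC, cj_bot]
  · exact q
  · exfalso
    obtain ⟨B, hB, r1, -, -, o⟩ := hS.exists_opp hn hA hD q
    have nE := hn _ o.mD
    have rc : RC S ⁅D, B⁆ ⁅A, D⁆ := o.symm.rc.symm
    have e : ⁅⁅D, B⁆, ⁅A, D⁆⁆ = D := by rw [commutator_comm]; exact o.e2
    obtain ⟨P, hP, h1, h2⟩ := exists_not_rp (hS.lp_of_rc o.mD nE rc) C
    rcases hS.line_mem o.mD nE rc hP h1 with e' | ⟨f, hf, e'⟩
    · rw [e', e] at h2; exact h2 r.symm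
    · apply h2
      apply (h P hP _).symm
      have := o.rp.conj f
      rwa [cj_of_comm q.cenL hf, ← e'] at this

theorem cent_omega (hS : RS S) (hA : A ∈ S) (hC : C ∈ S)
    (h : ∀ B ∈ S, ⁅A, B⁆ = ⊥ → ⁅C, B⁆ = ⊥) (hB : B ∈ S) (r : RP C B) : RP A B := by
  rcases hS.tri hA hB with q | q | q
  · exact absurd (h B hB q) r.not_comm
  · exact q
  · exact absurd (comm_bot_symm (h _ q.1 (comm_bot_symm q.cenL)))
      (hS.not_cent r q (comm_bot_symm (h A hA (hS.cm hA))) hA)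

theorem cent_eq (hS : RS S) (hn : ∀ E ∈ S, NI S E) (hA : A ∈ S) (hC : C ∈ S)
    (h : ∀ B ∈ S, ⁅A, B⁆ = ⊥ → ⁅C, B⁆ = ⊥) (hD : D ∈ S) (hc : ⁅C, D⁆ = ⊥) : ⁅A, D⁆ = ⊥ := by
  have h1 := fun B hB => hS.cent_omega hA hC h (B := B) hB
  have h2 := fun B hB => hS.omega_eq hn hC hA h1 (D := B) hB
  rcases hS.tri hA hD with q | q | q
  · exact q
  · exact absurd hc (h2 D hD q).not_comm
  · exfalso
    obtain ⟨B, hB, r⟩ := hn _ q.1
    obtain ⟨P, hP, p1, p2⟩ := exists_not_rp (hS.lp_of_rc hA (hn A hA) q) B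
    rcases hS.line_mem hA (hn A hA) q hP p1 with e | ⟨d, hd, e⟩
    · exact p2 (e ▸ r)
    obtain ⟨d', hd', d1⟩ := hS.ex hD
    have k : ∀ d ∈ D, ∀ B ∈ S, RP (cj d A) B ↔ RP C B := by
      intro d hd B hB
      have a1 := hS.omega_cj h1 d B hB
      have a2 := hS.omega_cj h2 d B hB
      rw [cj_of_comm (comm_bot_symm hc) hd] at a1 a2
      exact ⟨a2, a1⟩
    have all : ∀ d ∈ D, ¬ RP (cj d A) B := fun d' hd' r' =>
      p2 (e ▸ (k d hd B hB).2 ((k d' hd' B hB).1 r'))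
    have l := (hS.lp_of_rc hA (hn A hA) q).symm
    obtain ⟨T, F, o, t1, t2, l2⟩ := hS.exists_op hn l hB r
    have pts : ∀ d ∈ D, cj d A = T := by
      intro d hd
      have hl : cj d A ≤ ⁅A, D⁆ ⊔ T := by
        rw [t2, sup_comm, commutator_comm]; exact cj_le_sup hd
      rcases hS.line_pts hn o (hS.cjm hA d) hl with e | ⟨f, hf, e⟩
      · exact e
      · exfalso
        apply all d hd
        have := r.conj f
        rwa [← e, cj_of_comm o.cB hf] at this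
    have := (pts d' hd').trans (pts 1 (one_mem _)).symm
    rw [cj_one] at this
    exact d1 (hS.rc_norm q.symm hd' this)

end RS

end CfsgH1
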