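import Cfsg.Prelude.Def_GeometricClasses

set_option autoImplicit false
open Matrix

namespace CfsgH1.Sp43

abbrev I4 := Fin 2 ⊕ Fin 2

def S {R : Type*} [CommRing R] (b : Bool) (j k : Matrix I4 I4 R) : Prop :=
  kᵀ * J (Fin 2) R = J (Fin 2) R * k ∧ k * k = 1 ∧ (k * j = -(j * k) ∨ (b = true ∧ k * j = j * k))

instance (b : Bool) (j k : Matrix I4 I4 (ZMod 3)) : Decidable (S b j k) := by unfold S; infer_instance

def par (a b c d x y : ZMod 3) : Matrix I4 I4 (ZMod 3) :=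
  fromBlocks !![a,b;c,d] !![0,x;-x,0] !![0,y;-y,0] !![a,c;b,d]

theorem z3 : ∀ x y : ZMod 3, (x = -x → x = 0) ∧ (-x = -y → x = y) := by decide

theorem eq_par (k : Matrix I4 I4 (ZMod 3)) (h : kᵀ * J (Fin 2) (ZMod 3) = J (Fin 2) (ZMod 3) * k) :
    ∃ a b c d x y, k = par a b c d x y := by
  refine ⟨k (.inl 0) (.inl 0), k (.inl 0) (.inl 1), k (.inl 1) (.inl 0), k (.inl 1) (.inl 1),
    k (.inl 0) (.inr 1), k (.inr 0) (.inl 1), ?_⟩
  have e := fun i j => congrFun (congrFun h i) j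
  have e1 := e (.inl 0) (.inl 0)
  have e2 := e (.inl 1) (.inl 1)
  have e3 := e (.inl 1) (.inl 0)
  have e4 := e (.inr 0) (.inr 0)
  have e5 := e (.inr 1) (.inr 1)
  have e6 := e (.inr 0) (.inr 1)
  have e7 := e (.inr 0) (.inl 0)
  have e8 := e (.inr 0) (.inl 1)
  have e9 := e (.inr 1) (.inl 0)
  have e10 := e (.inr 1) (.inl 1)
  simp [Matrix.mul_apply, Matrix.J, Fintype.sum_sum_type, Fin.sum_univ_two, Matrix.one_apply] at e1 e2 e3 e4 e5 e6 e7 e8 e9 e10
  have f1 := (z3 _ 0).1 e1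
  have f2 := (z3 _ 0).1 e2
  have f4 := (z3 _ 0).1 e4.symm
  have f5 := (z3 _ 0).1 e5.symm
  ext i j
  rcases i with i | i <;> rcases j with j | j <;> fin_cases i <;> fin_cases j <;> simp [par] <;>
    first | assumption | exact Eq.symm ‹_› | linear_combination e3 | linear_combination -e3 | linear_combination e6 | linear_combination -e6

theorem S_conj {R : Type*} [CommRing R] {b : Bool} {j k P P' : Matrix I4 I4 R} (h1 : P * P' = 1) (h2 : P' * P = 1)
    (h3 : Pᵀ * J (Fin 2) R * P = J (Fin 2) R) (h : S b j k) : S b (P * j * P') (P * k * P') := by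
  obtain ⟨a, c, d⟩ := h
  have m : ∀ X Y : Matrix I4 I4 R, P * X * P' * (P * Y * P') = P * (X * Y) * P' := fun X Y => by
    calc _ = P * X * (P' * P) * Y * P' := by simp only [mul_assoc]
      _ = _ := by rw [h2]; simp only [mul_assoc, one_mul, mul_one]
  have t1 : Pᵀ * J (Fin 2) R = J (Fin 2) R * P' := by
    calc _ = Pᵀ * J (Fin 2) R * (P * P') := by rw [h1, mul_one]
      _ = _ := by rw [← mul_assoc, h3]
  have t2 : P'ᵀ * J (Fin 2) R = J (Fin 2) R * P := by
    calc _ = P'ᵀ * (Pᵀ * J (Fin 2) R * P) := by rw [h3]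
      _ = (P * P')ᵀ * J (Fin 2) R * P := by rw [transpose_mul]; simp only [mul_assoc]
      _ = _ := by rw [h1, transpose_one, one_mul]
  refine ⟨?_, by rw [m, c, mul_one, h1], ?_⟩
  · calc _ = P'ᵀ * kᵀ * (Pᵀ * J (Fin 2) R) := by rw [transpose_mul, transpose_mul]; simp only [mul_assoc]
      _ = P'ᵀ * (kᵀ * J (Fin 2) R) * P' := by rw [t1]; simp only [mul_assoc]
      _ = (P'ᵀ * J (Fin 2) R) * k * P' := by rw [a]; simp only [mul_assoc]
      _ = _ := by rw [t2]; simp only [mul_assoc]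
  · rw [m, m]
    rcases d with d | ⟨d, d'⟩
    · left; rw [d]; simp
    · right; exact ⟨d, by rw [d']⟩

theorem S_neg {R : Type*} [CommRing R] {b : Bool} {j k : Matrix I4 I4 R} (h : S b j k) : S b (-j) k := by
  obtain ⟨a, c, d⟩ := h
  refine ⟨a, c, ?_⟩
  rcases d with d | ⟨d, d'⟩
  · left; rw [mul_neg, d, neg_mul]
  · right; exact ⟨d, by rw [mul_neg, d', neg_mul]⟩

variable {F : Type*} [Field F]

theorem mapJ (e : ZMod 3 ≃+* F) : e.mapMatrix (J (Fin 2) (ZMod 3)) = J (Fin 2) F := by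
  ext i j
  rcases i with i | i <;> rcases j with j | j <;> fin_cases i <;> fin_cases j <;> simp [Matrix.J]

theorem S_map (e : ZMod 3 ≃+* F) (b : Bool) (j k : Matrix I4 I4 (ZMod 3)) :
    S b (e.mapMatrix j) (e.mapMatrix k) ↔ S b j k := by
  have t : (e.mapMatrix k)ᵀ = e.mapMatrix kᵀ := rfl
  unfold S
  rw [t, ← mapJ e, ← map_one (e.mapMatrix (m := I4))]
  simp only [← map_mul, ← map_neg, EmbeddingLike.apply_eq_iff_eq]

theorem ext_form {A B : Matrix I4 I4 F} (h : ∀ u v, u ⬝ᵥ A *ᵥ v = u ⬝ᵥ B *ᵥ v) : A = B := by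
  ext i j; simpa using h (Pi.single i 1) (Pi.single j 1)

theorem form_mul (g g' : Matrix I4 I4 F) (u v : I4 → F) : Cfsg.sympForm 2 F (g *ᵥ u) (g' *ᵥ v) = u ⬝ᵥ (gᵀ * J (Fin 2) F * g') *ᵥ v := by
  unfold Cfsg.sympForm
  rw [← mulVec_mulVec, ← mulVec_mulVec, dotProduct_mulVec u gᵀ, vecMul_transpose]

theorem mem_sp (g : GL I4 F) : g ∈ Cfsg.spGL 2 F ↔ (g : Matrix I4 I4 F)ᵀ * J (Fin 2) F * g = J (Fin 2) F := by
  constructor
  · intro h
    exact ext_form fun u v => (form_mul _ _ u v).symm.trans (h u v)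
  · intro h u v
    have := form_mul (g : Matrix I4 I4 F) (g : Matrix I4 I4 F) u v
    rw [h] at this
    exact this

def stabS (b : Bool) (j : Matrix I4 I4 F) : Subgroup (GL I4 F) where
  carrier := {g | ∀ k, S b j k ↔ S b j ((g : Matrix I4 I4 F) * k * ((g⁻¹ : GL I4 F) : Matrix I4 I4 F))}
  mul_mem' {x y} ha hb := by
    intro k
    rw [hb k, ha, Units.val_mul, _root_.mul_inv_rev, Units.val_mul]
    simp only [mul_assoc]
  one_mem' := by intro k; simp
  inv_mem' {a} ha := by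
    intro k
    rw [inv_inv, ha (((a⁻¹ : GL I4 F) : Matrix I4 I4 F) * k * (a : Matrix I4 I4 F))]
    simp only [mul_assoc, Units.mul_inv, mul_one, Units.mul_inv_cancel_left]

theorem mem_stabS {b : Bool} {j : Matrix I4 I4 F} {g : GL I4 F}
    (h1 : ∀ k, S b j k → S b j ((g : Matrix I4 I4 F) * k * ((g⁻¹ : GL I4 F) : Matrix I4 I4 F)))
    (h2 : ∀ k, S b j k → S b j (((g⁻¹ : GL I4 F) : Matrix I4 I4 F) * k * (g : Matrix I4 I4 F))) : g ∈ stabS b j := by
  intro k
  refine ⟨h1 k, fun h => ?_⟩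
  have := h2 _ h
  simpa only [mul_assoc, Units.inv_mul, mul_one, Units.inv_mul_cancel_left] using this

theorem core0 (e : ZMod 3 ≃+* F) (b : Bool) (j g g' t t' k : Matrix I4 I4 (ZMod 3))
    (a1 : g * g' = 1) (a2 : g' * g = 1) (a3 : gᵀ * J (Fin 2) (ZMod 3) * g = J (Fin 2) (ZMod 3))
    (b1 : t * t' = 1) (b2 : t' * t = 1) (b3 : tᵀ * J (Fin 2) (ZMod 3) * t = J (Fin 2) (ZMod 3))
    (c1 : ∀ a c d f x y, S b j (par a c d f x y) → S b j (g * par a c d f x y * g') ∧ S b j (g' * par a c d f x y * g))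
    (c2 : g * j ≠ j * g) (c3 : g * j ≠ -(j * g)) (c4 : S b j k) (c5 : ¬ S b j (t * k * t'))
    (H : Subgroup (GL I4 F)) (hH : Cfsg.Geo.IsMaximalIn (Cfsg.spGL 2 F) H)
    (hj : ∀ h ∈ H, (h : Matrix I4 I4 F) * e.mapMatrix j = e.mapMatrix j * h ∨
      (h : Matrix I4 I4 F) * e.mapMatrix j = -(e.mapMatrix j * h)) : False := by
  let u : ∀ x x' : Matrix I4 I4 (ZMod 3), x * x' = 1 → x' * x = 1 → GL I4 F := fun x x' p q =>
    ⟨e.mapMatrix x, e.mapMatrix x', by rw [← map_mul, p, map_one], by rw [← map_mul, q, map_one]⟩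
  have hu : ∀ x x' p q, xᵀ * J (Fin 2) (ZMod 3) * x = J (Fin 2) (ZMod 3) → u x x' p q ∈ Cfsg.spGL 2 F := by
    intro x x' p q r
    rw [mem_sp]
    change e.mapMatrix xᵀ * J (Fin 2) F * e.mapMatrix x = _
    rw [← mapJ e, ← map_mul, ← map_mul, r]
  have one : ∀ h ∈ H, ∀ k, S b (e.mapMatrix j) k →
      S b (e.mapMatrix j) ((h : Matrix I4 I4 F) * k * ((h⁻¹ : GL I4 F) : Matrix I4 I4 F)) := by
    intro h hh k hk
    have := S_conj (Units.mul_inv h) (Units.inv_mul h) ((mem_sp h).1 (hH.1.le hh)) hk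
    rcases hj h hh with r | r
    · rwa [r, mul_assoc, Units.mul_inv, mul_one] at this
    · rw [r, neg_mul, mul_assoc, Units.mul_inv, mul_one] at this
      simpa using S_neg this
  have hle : H ≤ stabS b (e.mapMatrix j) ⊓ Cfsg.spGL 2 F := fun h hh =>
    ⟨mem_stabS (one h hh) (by simpa only [inv_inv] using one h⁻¹ (H.inv_mem hh)), hH.1.le hh⟩
  have cc : ∀ k, S b j k → S b j (g * k * g') ∧ S b j (g' * k * g) := fun k hk => by
    obtain ⟨a, c, d, f, x, y, rfl⟩ := eq_par k hk.1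
    exact c1 _ _ _ _ _ _ hk
  rcases hH.2 _ hle inf_le_right with r | r
  · have : u g g' a1 a2 ∈ H := by
      rw [← r]
      refine ⟨mem_stabS (fun k hk => ?_) (fun k hk => ?_), hu g g' a1 a2 a3⟩
      · obtain ⟨k, rfl⟩ := (e.mapMatrix (m := I4)).surjective k
        change S b _ (e.mapMatrix g * _ * e.mapMatrix g')
        rw [← map_mul, ← map_mul, S_map]
        exact (cc k ((S_map e b j k).1 hk)).1
      · obtain ⟨k, rfl⟩ := (e.mapMatrix (m := I4)).surjective k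
        change S b _ (e.mapMatrix g' * _ * e.mapMatrix g)
        rw [← map_mul, ← map_mul, S_map]
        exact (cc k ((S_map e b j k).1 hk)).2
    have := hj _ this
    change e.mapMatrix g * _ = _ * e.mapMatrix g ∨ e.mapMatrix g * _ = -(_ * e.mapMatrix g) at this
    simp only [← map_mul, ← map_neg, EmbeddingLike.apply_eq_iff_eq] at this
    exact this.elim c2 c3
  · have : u t t' b1 b2 ∈ stabS b (e.mapMatrix j) ⊓ Cfsg.spGL 2 F := by rw [r]; exact hu t t' b1 b2 b3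
    have := (this.1 (e.mapMatrix k)).1 ((S_map e b j k).2 c4)
    change S b _ (e.mapMatrix t * _ * e.mapMatrix t') at this
    rw [← map_mul, ← map_mul, S_map] at this
    exact c5 this

def d0 : Matrix I4 I4 (ZMod 3) := fromBlocks !![1,0;0,1] !![0,0;0,0] !![0,0;0,0] !![2,0;0,2]
def j0 : Matrix I4 I4 (ZMod 3) := fromBlocks !![0,0;0,0] !![2,0;0,2] !![1,0;0,1] !![0,0;0,0]
def gA : Matrix I4 I4 (ZMod 3) := fromBlocks !![1,1;0,1] !![0,1;2,2] !![2,1;2,0] !![2,0;1,2]
def gA' : Matrix I4 I4 (ZMod 3) := fromBlocks !![2,1;0,2] !![0,1;2,1] !![1,1;2,0] !![1,0;1,1]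
def gB : Matrix I4 I4 (ZMod 3) := fromBlocks !![1,0;0,1] !![1,2;2,1] !![2,2;2,2] !![1,0;0,1]
def gB' : Matrix I4 I4 (ZMod 3) := fromBlocks !![1,0;0,1] !![2,1;1,2] !![1,1;1,1] !![1,0;0,1]
def t0 : Matrix I4 I4 (ZMod 3) := fromBlocks !![1,0;0,1] !![0,0;0,0] !![0,0;0,2] !![1,0;0,1]
def t0' : Matrix I4 I4 (ZMod 3) := fromBlocks !![1,0;0,1] !![0,0;0,0] !![0,0;0,1] !![1,0;0,1]
def k0 : Matrix I4 I4 (ZMod 3) := fromBlocks !![0,0;0,0] !![0,1;2,0] !![0,2;1,0] !![0,0;0,0]

theorem decA : ∀ a c d f x y, S false d0 (par a c d f x y) →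
    S false d0 (gA * par a c d f x y * gA') ∧ S false d0 (gA' * par a c d f x y * gA) := by decide +kernel
theorem decB : ∀ a c d f x y, S true j0 (par a c d f x y) →
    S true j0 (gB * par a c d f x y * gB') ∧ S true j0 (gB' * par a c d f x y * gB) := by decide +kernel

theorem coreAB (e : ZMod 3 ≃+* F) (j : Matrix I4 I4 (ZMod 3)) (hj0 : j = d0 ∨ j = j0)
    (H : Subgroup (GL I4 F)) (hH : Cfsg.Geo.IsMaximalIn (Cfsg.spGL 2 F) H)
    (hj : ∀ h ∈ H, (h : Matrix I4 I4 F) * e.mapMatrix j = e.mapMatrix j * h ∨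
      (h : Matrix I4 I4 F) * e.mapMatrix j = -(e.mapMatrix j * h)) : False := by
  rcases hj0 with rfl | rfl
  · exact core0 e false d0 gA gA' t0 t0' k0 (by decide +kernel) (by decide +kernel) (by decide +kernel) (by decide +kernel)
      (by decide +kernel) (by decide +kernel) decA (by decide +kernel) (by decide +kernel) (by decide +kernel) (by decide +kernel) H hH hj
  · exact core0 e true j0 gB gB' t0 t0' k0 (by decide +kernel) (by decide +kernel) (by decide +kernel) (by decide +kernel)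
      (by decide +kernel) (by decide +kernel) decB (by decide +kernel) (by decide +kernel) (by decide +kernel) (by decide +kernel) H hH hj

end CfsgH1.Sp43
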