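import Cfsg.Agent.H1.Sp43

set_option autoImplicit false
open Matrix

namespace CfsgH1.Sp43
variable {F : Type*} [Field F]

local notation "f" => Cfsg.sympForm 2 F

theorem coreP (e : ZMod 3 ≃+* F) (j1 : Matrix I4 I4 (ZMod 3)) (hj0 : j1 = d0 ∨ j1 = j0)
    (j P : Matrix I4 I4 F) (hP : Pᵀ * J (Fin 2) F * P = J (Fin 2) F) (hjP : j * P = P * e.mapMatrix j1)
    (H : Subgroup (GL I4 F)) (hH : Cfsg.Geo.IsMaximalIn (Cfsg.spGL 2 F) H)
    (hj : ∀ h ∈ H, (h : Matrix I4 I4 F) * j = j * h ∨ (h : Matrix I4 I4 F) * j = -(j * h)) : False := by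
  have h2 : -(J (Fin 2) F * Pᵀ * J (Fin 2) F) * P = 1 := by
    rw [neg_mul, mul_assoc (J (Fin 2) F), mul_assoc (J (Fin 2) F), hP, J_squared, neg_neg]
  let Q : GL I4 F := ⟨P, -(J (Fin 2) F * Pᵀ * J (Fin 2) F), mul_eq_one_comm.1 h2, h2⟩
  have hQ : Q ∈ Cfsg.spGL 2 F := (mem_sp Q).2 hP
  let o := (MulAut.conj Q⁻¹).mapSubgroup
  have ho : ∀ (K : Subgroup (GL I4 F)) x, x ∈ o K ↔ Q * x * Q⁻¹ ∈ K := fun K x => by
    change x ∈ K.map (MulAut.conj Q⁻¹).toMonoidHom ↔ _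
    rw [Subgroup.mem_map_equiv]; simp
  have hsp : o (Cfsg.spGL 2 F) = Cfsg.spGL 2 F := by
    ext x; rw [ho, Subgroup.mul_mem_cancel_right _ (inv_mem hQ), Subgroup.mul_mem_cancel_left _ hQ]
  refine coreAB e j1 hj0 (o H) ⟨hsp ▸ o.lt_iff_lt.2 hH.1, fun M a b => ?_⟩ fun h hh => ?_
  · obtain ⟨M, rfl⟩ := o.surjective M
    rw [← hsp] at b ⊢
    rcases hH.2 M (o.le_iff_le.1 a) (o.le_iff_le.1 b) with r | r
    · left; rw [r]
    · right; rw [r]
  · have hjq : e.mapMatrix j1 = ((Q⁻¹ : GL I4 F) : Matrix I4 I4 F) * j * Q := by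
      rw [mul_assoc]; change _ = _ * (j * P); rw [hjP, ← mul_assoc]
      change _ = ((Q⁻¹ : GL I4 F) : Matrix I4 I4 F) * Q * _
      rw [Units.inv_mul, one_mul]
    have hh' : (h : Matrix I4 I4 F) = ((Q⁻¹ : GL I4 F) : Matrix I4 I4 F) * ((Q * h * Q⁻¹ : GL I4 F) : Matrix I4 I4 F) * Q := by
      simp only [← Units.val_mul]; congr 1; group
    have := hj _ ((ho H h).1 hh)
    generalize ((Q * h * Q⁻¹ : GL I4 F) : Matrix I4 I4 F) = y at this hh'
    rw [hjq, hh']
    have m : ∀ X Y : Matrix I4 I4 F, ((Q⁻¹ : GL I4 F) : Matrix I4 I4 F) * X * Q * (((Q⁻¹ : GL I4 F) : Matrix I4 I4 F) * Y * Q) =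
        ((Q⁻¹ : GL I4 F) : Matrix I4 I4 F) * (X * Y) * Q := fun X Y => by
      simp only [mul_assoc, Units.mul_inv_cancel_left]
    rw [m, m]
    rcases this with r | r <;> rw [r] <;> simp

theorem f_add (u v w : I4 → F) : f (u + v) w = f u w + f v w := by simp [Cfsg.sympForm]
theorem f_add' (u v w : I4 → F) : f w (u + v) = f w u + f w v := by simp [Cfsg.sympForm, mulVec_add]
theorem f_smul (c : F) (u w : I4 → F) : f (c • u) w = c * f u w := by simp [Cfsg.sympForm]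
theorem f_smul' (c : F) (u w : I4 → F) : f w (c • u) = c * f w u := by simp [Cfsg.sympForm, mulVec_smul]
theorem f_neg' (u w : I4 → F) : f w (-u) = - f w u := by simp [Cfsg.sympForm, mulVec_neg]
theorem f_neg (u w : I4 → F) : f (-u) w = - f u w := by simp [Cfsg.sympForm]
theorem f_exp (u v : I4 → F) : f u v = u (.inr 0) * v (.inl 0) + u (.inr 1) * v (.inl 1)
    - u (.inl 0) * v (.inr 0) - u (.inl 1) * v (.inr 1) := by
  simp [Cfsg.sympForm, dotProduct, mulVec, Matrix.J, Fintype.sum_sum_type, Fin.sum_univ_two, Matrix.one_apply]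
  ring
theorem f_self (u : I4 → F) : f u u = 0 := by rw [f_exp]; ring
theorem f_swap (u v : I4 → F) : f u v = - f v u := by rw [f_exp, f_exp]; ring
theorem f_nd (u : I4 → F) (h : ∀ v, f u v = 0) : u = 0 := by
  have a := h (Pi.single (.inl 0) 1)
  have b := h (Pi.single (.inl 1) 1)
  have c := h (Pi.single (.inr 0) 1)
  have d := h (Pi.single (.inr 1) 1)
  simp [f_exp] at a b c d
  ext i; rcases i with i | i <;> fin_cases i <;> simpa

def cols (a0 a1 b0 b1 : I4 → F) : Matrix I4 I4 F := fun i => Sum.elim ![a0 i, a1 i] ![b0 i, b1 i]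

theorem cols_sp (a0 a1 b0 b1 : I4 → F) (h1 : f a0 a1 = 0) (h2 : f b0 b1 = 0) (h3 : f a0 b0 = -1) (h4 : f a0 b1 = 0)
    (h5 : f a1 b0 = 0) (h6 : f a1 b1 = -1) :
    (cols a0 a1 b0 b1)ᵀ * J (Fin 2) F * cols a0 a1 b0 b1 = J (Fin 2) F := by
  rw [f_exp] at h1 h2 h3 h4 h5 h6
  ext i k
  rcases i with i | i <;> rcases k with k | k <;> fin_cases i <;> fin_cases k <;>
    simp [cols, Matrix.mul_apply, Matrix.J, Fintype.sum_sum_type, Fin.sum_univ_two, Matrix.one_apply] <;>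
    first | ring1 | linear_combination h1 | linear_combination -h1 | linear_combination h2 | linear_combination -h2 | linear_combination h3 | linear_combination -h3 | linear_combination h4 | linear_combination -h4 | linear_combination h5 | linear_combination -h5 | linear_combination h6 | linear_combination -h6

theorem mul_cols (j : Matrix I4 I4 F) (a0 a1 b0 b1 : I4 → F) :
    j * cols a0 a1 b0 b1 = cols (j *ᵥ a0) (j *ᵥ a1) (j *ᵥ b0) (j *ᵥ b1) := by
  ext i k
  rcases k with k | k <;> fin_cases k <;> simp [cols, Matrix.mul_apply, mulVec, dotProduct]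

theorem e2 (e : ZMod 3 ≃+* F) : e 2 = -1 := by
  rw [show (2 : ZMod 3) = -1 from rfl, map_neg, map_one]

theorem cols_d0 (e : ZMod 3 ≃+* F) (a0 a1 b0 b1 : I4 → F) :
    cols a0 a1 b0 b1 * e.mapMatrix d0 = cols a0 a1 (-b0) (-b1) := by
  ext i k
  rcases k with k | k <;> fin_cases k <;>
    simp [cols, d0, Matrix.mul_apply, Fintype.sum_sum_type, Fin.sum_univ_two, e2 e]

theorem cols_j0 (e : ZMod 3 ≃+* F) (a0 a1 b0 b1 : I4 → F) :
    cols a0 a1 b0 b1 * e.mapMatrix j0 = cols b0 b1 (-a0) (-a1) := by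
  ext i k
  rcases k with k | k <;> fin_cases k <;>
    simp [cols, j0, Matrix.mul_apply, Fintype.sum_sum_type, Fin.sum_univ_two, e2 e]

theorem f3 (e : ZMod 3 ≃+* F) (x : F) : x = 0 ∨ x = 1 ∨ x = -1 := by
  obtain ⟨x, rfl⟩ := e.surjective x
  have : ∀ x : ZMod 3, x = 0 ∨ x = 1 ∨ x = -1 := by decide
  rcases this x with rfl | rfl | rfl <;> simp

theorem three (e : ZMod 3 ≃+* F) : (3 : F) = 0 := by
  have := e2 e
  rw [show (2 : ZMod 3) = 1 + 1 from rfl, map_add, map_one] at this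
  linear_combination this

theorem caseB0 (e : ZMod 3 ≃+* F) (j : Matrix I4 I4 F) (hj2 : j * j = -1)
    (ha : ∀ u v, f (j *ᵥ u) v = - f u (j *ᵥ v))
    (H : Subgroup (GL I4 F)) (hH : Cfsg.Geo.IsMaximalIn (Cfsg.spGL 2 F) H)
    (hj : ∀ h ∈ H, (h : Matrix I4 I4 F) * j = j * h ∨ (h : Matrix I4 I4 F) * j = -(j * h)) : False := by
  have h3 := three e
  have jj : ∀ v, j *ᵥ (j *ᵥ v) = -v := fun v => by rw [mulVec_mulVec, hj2, neg_mulVec, one_mulVec]
  have sy : ∀ u v, f u (j *ᵥ v) = f v (j *ᵥ u) := fun u v => by rw [f_swap, ha, neg_neg]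
  have key : ∀ p : (I4 → F) → Prop, (∀ u v, p u → p v → p (u + v)) → (∀ u, p u → p (j *ᵥ u)) →
      (∃ u v, p u ∧ p v ∧ f u v ≠ 0) → ∃ v, p v ∧ f v (j *ᵥ v) = -1 := by
    rintro p p1 p2 ⟨u, v, pu, pv, h⟩
    have : ∃ v, p v ∧ f v (j *ᵥ v) ≠ 0 := by
      by_contra hc
      push Not at hc
      have a := hc _ (p1 _ _ pu (p2 _ pv))
      have b := hc _ pu
      have c := hc _ (p2 _ pv)
      rw [mulVec_add, f_add, f_add', f_add', b, c, sy (j *ᵥ v) u, jj, f_neg'] at a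
      apply h
      linear_combination a + f u v * h3
    obtain ⟨w, pw, hw⟩ := this
    rcases f3 e (f w (j *ᵥ w)) with r | r | r
    · exact absurd r hw
    · refine ⟨w + j *ᵥ w, p1 _ _ pw (p2 _ pw), ?_⟩
      rw [mulVec_add, f_add, f_add', f_add', jj, f_neg', f_neg', f_self, f_self, f_swap (j *ᵥ w), r]
      linear_combination h3
    · exact ⟨w, pw, r⟩
  obtain ⟨v, -, hv⟩ := key (fun _ => True) (fun _ _ _ _ => trivial) (fun _ _ => trivial)
    ⟨Pi.single (.inr 0) 1, Pi.single (.inl 0) 1, trivial, trivial, by simp [f_exp]⟩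
  have hv' : f (j *ᵥ v) v = 1 := by rw [f_swap, hv, neg_neg]
  have pr : ∀ x, f v (x + f v x • (j *ᵥ v) + (- f (j *ᵥ v) x) • v) = 0 ∧
      f (j *ᵥ v) (x + f v x • (j *ᵥ v) + (- f (j *ᵥ v) x) • v) = 0 := fun x => by
    simp only [f_add', f_smul', f_self, hv, hv']
    constructor <;> ring
  obtain ⟨w, ⟨w1, w2⟩, hw⟩ := key (fun x => f v x = 0 ∧ f (j *ᵥ v) x = 0)
    (fun u v' a b => ⟨by rw [f_add', a.1, b.1, add_zero], by rw [f_add', a.2, b.2, add_zero]⟩)
    (fun u a => ⟨by have := ha v u; rw [a.2] at this; exact neg_eq_zero.1 this.symm,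
      by rw [ha, jj, f_neg', a.1, neg_zero, neg_zero]⟩) (by
      by_contra hc
      push Not at hc
      have all : ∀ x : I4 → F, x + f v x • (j *ᵥ v) + (- f (j *ᵥ v) x) • v = 0 := fun x => by
        apply f_nd
        intro y
        have a := hc _ _ (pr x) (pr y)
        rw [f_add', f_add', f_smul', f_smul', f_swap _ (j *ᵥ v), f_swap _ v, (pr x).1, (pr x).2] at a
        simpa using a
      have : (⊤ : Submodule F (I4 → F)) ≤ Submodule.span F {j *ᵥ v, v} := fun x _ =>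
        Submodule.mem_span_pair.2 ⟨- f v x, f (j *ᵥ v) x, by
          have := all x
          rw [neg_smul] at this ⊢
          linear_combination (exp := 1) -this⟩
      have h1 := Submodule.finrank_mono this
      have h2 : Module.finrank F (Submodule.span F ({j *ᵥ v, v} : Set (I4 → F))) ≤ 2 := by
        classical
        have := finrank_span_finset_le_card (R := F) ({j *ᵥ v, v} : Finset (I4 → F))
        rw [Set.finrank, Finset.coe_pair] at this
        exact this.trans Finset.card_le_two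
      simp at h1
      omega)
  refine coreP e j0 (.inr rfl) j (cols v w (j *ᵥ v) (j *ᵥ w)) (cols_sp _ _ _ _ w1 ?_ hv ?_ ?_ hw) ?_ H hH hj
  · rw [ha, jj, f_neg', w1, neg_zero, neg_zero]
  · have := ha v w; rw [w2] at this; exact neg_eq_zero.1 this.symm
  · rw [f_swap, w2, neg_zero]
  · rw [mul_cols, cols_j0, jj, jj]

theorem caseB (e : ZMod 3 ≃+* F) (K : Subalgebra F (Matrix I4 I4 F)) (k1 : Cfsg.Geo.IsFieldSubalgebra 2 K)
    (k2 : Cfsg.Geo.IsAdjointClosedFor f K) (k3 : ¬ Cfsg.Geo.IsSelfAdjointFor f K)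
    (H : Subgroup (GL I4 F)) (hH : Cfsg.Geo.IsMaximalIn (Cfsg.spGL 2 F) H)
    (hK : H ≤ Cfsg.Geo.subalgebraNormalizer K) : False := by
  have h3 := three e
  have inj : ∀ A B : Matrix I4 I4 F, (∀ u v, f u (A *ᵥ v) = f u (B *ᵥ v)) → A = B := fun A B h => by
    rw [← sub_eq_zero]
    ext i k
    have := f_nd ((A - B) *ᵥ Pi.single k 1) fun y => by rw [f_swap, sub_mulVec, sub_eq_add_neg, f_add', f_neg', h]; simp
    simpa using congrFun this i
  unfold Cfsg.Geo.IsSelfAdjointFor at k3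
  push Not at k3
  obtain ⟨k, hk, u0, v0, hne⟩ := k3
  obtain ⟨k', hk', hkk⟩ := k2 k hk
  obtain ⟨j, hjd⟩ : ∃ j, j = k - k' := ⟨_, rfl⟩
  have hjK : j ∈ K := hjd ▸ K.sub_mem hk hk'
  have hj0 : j ≠ 0 := fun h => hne (by rw [hkk, show k = k' from sub_eq_zero.1 (hjd.symm.trans h)])
  have ha : ∀ u v, f (j *ᵥ u) v = - f u (j *ᵥ v) := fun u v => by
    have a1 := hkk u v
    have a2 := hkk v u
    have a3 := f_swap (k' *ᵥ u) v
    have a4 := f_swap (k *ᵥ v) u
    rw [hjd, sub_mulVec, sub_mulVec, sub_eq_add_neg, sub_eq_add_neg, f_add, f_add', f_neg, f_neg']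
    linear_combination a1 - a3 - a2 + a4
  have nd : ∀ c : F, (∀ u v, c * f u v = 0) → c = 0 := fun c h => by
    simpa [f_exp] using h (Pi.single (.inr 0) 1) (Pi.single (.inl 0) 1)
  have ex : ∀ (a b : F) u v, f u ((a • (1 : Matrix I4 I4 F) + b • j) *ᵥ v) = a * f u v + b * f u (j *ᵥ v) ∧
      f ((a • (1 : Matrix I4 I4 F) + b • j) *ᵥ u) v = a * f u v - b * f u (j *ᵥ v) := fun a b u v => by
    simp only [add_mulVec, smul_mulVec, one_mulVec, f_add, f_add', f_smul, f_smul', ha]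
    exact ⟨trivial, by ring⟩
  have anti : ∀ a b : F, (∀ u v, f ((a • (1 : Matrix I4 I4 F) + b • j) *ᵥ u) v =
      - f u ((a • (1 : Matrix I4 I4 F) + b • j) *ᵥ v)) → a = 0 := fun a b h => nd a fun u v => by
    have := h u v
    rw [(ex a b u v).1, (ex a b u v).2] at this
    linear_combination -this + a * f u v * h3
  have li : LinearIndependent F ![(1 : K), ⟨j, hjK⟩] := by
    rw [LinearIndependent.pair_iff]
    intro s t hst
    have h0 : s • (1 : Matrix I4 I4 F) + t • j = 0 := congrArg Subtype.val hst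
    have hs : s = 0 := anti s t fun u v => by rw [h0]; simp [Cfsg.sympForm]
    rw [hs, zero_smul, zero_add] at h0
    exact ⟨hs, (smul_eq_zero.1 h0).resolve_right hj0⟩
  have sp : ∀ x ∈ K, ∃ a b : F, x = a • (1 : Matrix I4 I4 F) + b • j := fun x hx => by
    have := li.span_eq_top_of_card_eq_finrank' (by rw [k1.finrank_eq]; simp)
    have hx' : (⟨x, hx⟩ : K) ∈ Submodule.span F (Set.range ![(1 : K), ⟨j, hjK⟩]) := this ▸ trivial
    rw [Matrix.range_cons, Matrix.range_cons, Matrix.range_empty, Set.union_empty, Set.singleton_union,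
      Submodule.mem_span_pair] at hx'
    obtain ⟨a, b, h⟩ := hx'
    exact ⟨a, b, (congrArg Subtype.val h).symm⟩
  have dom : ∀ x ∈ K, ∀ y : Matrix I4 I4 F, x * y = 0 → x ≠ 0 → y = 0 := fun x hx y h h0 => by
    obtain ⟨z, hz, e1⟩ := k1.inv x hx h0
    rw [k1.comm x hx z hz] at e1
    rw [← one_mul y, ← e1, mul_assoc, h, mul_zero]
  have hj2 : j * j = -1 := by
    obtain ⟨a, b, h⟩ := sp _ (K.mul_mem hjK hjK)
    have hb : b • j = 0 := inj _ _ fun u v => by
      have e1 := (ex a b u v).1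
      have e2 := (ex a b u v).2
      rw [← h, ← mulVec_mulVec] at e1 e2
      rw [ha, ha, neg_neg, e1] at e2
      rw [smul_mulVec, f_smul', zero_mulVec]
      have : f u 0 = 0 := by simp [Cfsg.sympForm]
      rw [this]
      linear_combination -e2 + b * f u (j *ᵥ v) * h3
    rw [hb, add_zero] at h
    rcases f3 e a with rfl | rfl | rfl
    · exact absurd (dom j hjK j (by simpa using h) hj0) hj0
    · exfalso
      have p := LinearIndependent.pair_iff.1 li
      have n1 : j - 1 ≠ 0 := fun h => by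
        have := (p (-1) 1 (Subtype.ext (by change (-1 : F) • (1 : Matrix I4 I4 F) + (1 : F) • j = 0; rw [← h]; simp [add_comm, sub_eq_add_neg]))).2
        exact one_ne_zero this
      have := dom (j - 1) (K.sub_mem hjK K.one_mem) (j + 1) (by rw [one_smul] at h; simp [sub_mul, mul_add, h]) n1
      have := (p 1 1 (Subtype.ext (by change (1 : F) • (1 : Matrix I4 I4 F) + (1 : F) • j = 0; rw [← this]; simp [add_comm]))).2
      exact one_ne_zero this
    · simpa using h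
  refine caseB0 e j hj2 ha H hH fun h hh => ?_
  obtain ⟨a, b, hab⟩ := sp _ ((hK hh j).1 hjK)
  have hs : ∀ u v, f ((h : Matrix I4 I4 F) *ᵥ u) ((h : Matrix I4 I4 F) *ᵥ v) = f u v := hH.1.le hh
  have c : ∀ x : I4 → F, (h : Matrix I4 I4 F) *ᵥ (((h⁻¹ : GL I4 F) : Matrix I4 I4 F) *ᵥ x) = x := fun x => by
    rw [mulVec_mulVec, Units.mul_inv, one_mulVec]
  have ha0 : a = 0 := anti a b fun u v => by
    rw [← hab, ← mulVec_mulVec, ← mulVec_mulVec, ← mulVec_mulVec, ← mulVec_mulVec]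
    conv_lhs => rw [← c v, hs, ha]
    conv_rhs => rw [← c u, hs]
  rw [ha0, zero_smul, zero_add] at hab
  have h1 : (h : Matrix I4 I4 F) * j = b • (j * h) := by
    rw [← smul_mul_assoc, ← hab, mul_assoc, Units.inv_mul, mul_one]
  rcases f3 e b with rfl | rfl | rfl
  · exfalso
    apply hj0
    rw [zero_smul] at h1
    rw [← one_mul j, ← Units.inv_mul h, mul_assoc, h1, mul_zero]
  · left; simpa using h1
  · right; simpa using h1

theorem caseA (e : ZMod 3 ≃+* F) (D : Fin 2 → Submodule F (I4 → F)) (d1 : Cfsg.Geo.IsMDecomposition 2 D)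
    (d2 : ∀ i, Cfsg.Geo.IsTotallySingularFor f (D i))
    (H : Subgroup (GL I4 F)) (hH : Cfsg.Geo.IsMaximalIn (Cfsg.spGL 2 F) H)
    (hD : H ≤ Cfsg.Geo.decompositionStabilizer D) : False := by
  have hsup : D 0 ⊔ D 1 = ⊤ := by
    rw [← d1.iSup_eq_top]
    exact le_antisymm (sup_le (le_iSup D 0) (le_iSup D 1)) (iSup_le fun i => by
      fin_cases i
      · exact le_sup_left
      · exact le_sup_right)
  have hc : IsCompl (D 0) (D 1) := ⟨d1.indep.pairwiseDisjoint (by decide : (0 : Fin 2) ≠ 1), codisjoint_iff.2 hsup⟩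
  have dec : ∀ x : I4 → F, ∃ a ∈ D 0, ∃ b ∈ D 1, a + b = x := fun x => Submodule.mem_sup.1 (hsup ▸ trivial)
  let L : (I4 → F) →ₗ[F] (I4 → F) := LinearMap.ofIsCompl hc (D 0).subtype (-(D 1).subtype)
  let j : Matrix I4 I4 F := LinearMap.toMatrix' L
  have j0' : ∀ x ∈ D 0, j *ᵥ x = x := fun x hx => by
    rw [LinearMap.toMatrix'_mulVec]; exact LinearMap.ofIsCompl_apply_left hc ⟨x, hx⟩
  have j1' : ∀ x ∈ D 1, j *ᵥ x = -x := fun x hx => by
    rw [LinearMap.toMatrix'_mulVec]; exact LinearMap.ofIsCompl_apply_right hc ⟨x, hx⟩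
  have dual : ∀ a ∈ D 0, a ≠ 0 → ∃ b ∈ D 1, f a b = -1 := fun a ha h0 => by
    have : ∃ b ∈ D 1, f a b ≠ 0 := by
      by_contra hn
      push Not at hn
      refine h0 (f_nd a fun x => ?_)
      obtain ⟨p, hp, q, hq, rfl⟩ := dec x
      rw [f_add', d2 0 a ha p hp, hn q hq, add_zero]
    obtain ⟨b, hb, h⟩ := this
    exact ⟨(-(f a b)⁻¹) • b, (D 1).smul_mem _ hb, by rw [f_smul', neg_mul, inv_mul_cancel₀ h]⟩
  obtain ⟨a0, ha0, h0⟩ := (Submodule.ne_bot_iff (D 0)).1 (fun h => by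
    have := d1.finrank_eq 0; rw [h] at this; simp at this)
  obtain ⟨b0, hb0, e00⟩ := dual a0 ha0 h0
  have : ¬ D 0 ≤ Submodule.span F {a0} := fun h => by
    have h1 := Submodule.finrank_mono h
    rw [d1.finrank_eq 0, finrank_span_singleton h0] at h1
    omega
  obtain ⟨a', ha', hn⟩ := SetLike.not_le_iff_exists.1 this
  have ha1 : a' + f a' b0 • a0 ∈ D 0 := (D 0).add_mem ha' ((D 0).smul_mem _ ha0)
  have e10 : f (a' + f a' b0 • a0) b0 = 0 := by rw [f_add, f_smul, e00]; ring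
  have h1 : a' + f a' b0 • a0 ≠ 0 := fun h => hn (Submodule.mem_span_singleton.2 ⟨- f a' b0, by
    rw [neg_smul]; exact (eq_neg_of_add_eq_zero_left h).symm⟩)
  generalize a' + f a' b0 • a0 = a1 at ha1 e10 h1
  obtain ⟨b', hb', e11⟩ := dual a1 ha1 h1
  have hb1 : b' + f a0 b' • b0 ∈ D 1 := (D 1).add_mem hb' ((D 1).smul_mem _ hb0)
  refine coreP e d0 (.inl rfl) j (cols a0 a1 b0 (b' + f a0 b' • b0)) (cols_sp _ _ _ _ (d2 0 _ ha0 _ ha1)
    (d2 1 _ hb0 _ hb1) e00 (by rw [f_add', f_smul', e00]; ring) e10 (by rw [f_add', f_smul', e10, e11]; ring)) ?_ H hH ?_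
  · rw [mul_cols, cols_d0, j0' _ ha0, j0' _ ha1, j1' _ hb0, j1' _ hb1]
  · intro h hh
    obtain ⟨σ, hσ⟩ := hD hh
    have m : ∀ i, ∀ x ∈ D i, (h : Matrix I4 I4 F) *ᵥ x ∈ D (σ i) := fun i x hx => by
      rw [← hσ i]; exact ⟨x, hx, by simp⟩
    have ext' : ∀ A B : Matrix I4 I4 F, (∀ x, A *ᵥ x = B *ᵥ x) → A = B := fun A B h => by
      ext i k; simpa using congrFun (h (Pi.single k 1)) i
    have hs : (σ 0 = 0 ∧ σ 1 = 1) ∨ (σ 0 = 1 ∧ σ 1 = 0) := by
      have : ∀ σ : Equiv.Perm (Fin 2), (σ 0 = 0 ∧ σ 1 = 1) ∨ (σ 0 = 1 ∧ σ 1 = 0) := by decide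
      exact this σ
    rcases hs with ⟨s0, s1⟩ | ⟨s0, s1⟩
    · left
      refine ext' _ _ fun x => ?_
      obtain ⟨p, hp, q, hq, rfl⟩ := dec x
      rw [← mulVec_mulVec, ← mulVec_mulVec, mulVec_add, mulVec_add, mulVec_add, mulVec_add, j0' p hp, j1' q hq,
        j0' _ (s0 ▸ m 0 p hp), j1' _ (s1 ▸ m 1 q hq), mulVec_neg]
    · right
      refine ext' _ _ fun x => ?_
      obtain ⟨p, hp, q, hq, rfl⟩ := dec x
      rw [neg_mulVec, ← mulVec_mulVec, ← mulVec_mulVec, mulVec_add, mulVec_add, mulVec_add, mulVec_add, j0' p hp, j1' q hq,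
        j1' _ (s0 ▸ m 0 p hp), j0' _ (s1 ▸ m 1 q hq), mulVec_neg]
      simp [add_comm]

end CfsgH1.Sp43
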