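import Cfsg.Prelude.Def_GeometricClasses

set_option autoImplicit false
open Matrix Kronecker

namespace CfsgH1.Sp8t

abbrev K8 := Fin 2 × Fin 4

def J2 (R : Type*) [CommRing R] : Matrix (Fin 2) (Fin 2) R := !![0,1;-1,0]
def G0 (R : Type*) [CommRing R] : Matrix (Fin 4) (Fin 4) R := !![0,0,0,1;0,0,-1,0;0,-1,0,0;1,0,0,0]

variable {F : Type*} [Field F]

def iso (Γ : Matrix K8 K8 F) : Subgroup (GL K8 F) where
  carrier := {g | (g : Matrix K8 K8 F)ᵀ * Γ * g = Γ}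
  mul_mem' {a b} ha hb := by
    change ((a : Matrix K8 K8 F) * (b : Matrix K8 K8 F))ᵀ * Γ * ((a : Matrix K8 K8 F) * (b : Matrix K8 K8 F)) = Γ
    calc _ = (b : Matrix K8 K8 F)ᵀ * ((a : Matrix K8 K8 F)ᵀ * Γ * a) * b := by rw [transpose_mul]; simp only [mul_assoc]
      _ = _ := by rw [ha, hb]
  one_mem' := by simp
  inv_mem' {a} ha := by
    change ((a⁻¹ : GL K8 F) : Matrix K8 K8 F)ᵀ * Γ * (a⁻¹ : GL K8 F) = Γ
    have ha' : (a : Matrix K8 K8 F)ᵀ * Γ * a = Γ := ha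
    calc _ = ((a⁻¹ : GL K8 F) : Matrix K8 K8 F)ᵀ * ((a : Matrix K8 K8 F)ᵀ * Γ * a) * (a⁻¹ : GL K8 F) := by rw [ha']
      _ = ((a : Matrix K8 K8 F) * ((a⁻¹ : GL K8 F) : Matrix K8 K8 F))ᵀ * Γ * ((a : Matrix K8 K8 F) * ((a⁻¹ : GL K8 F) : Matrix K8 K8 F)) := by
        rw [transpose_mul]; simp only [mul_assoc]
      _ = _ := by rw [Units.mul_inv]; simp

def S1 (Γ x : Matrix K8 K8 F) : Prop := xᵀ * Γ = -(Γ * x) ∧ ∃ c : F, x * x = c • 1
def S2 (x : Matrix K8 K8 F) : Prop := (∃ a : Matrix (Fin 2) (Fin 2) F, x = a ⊗ₖ (1 : Matrix (Fin 4) (Fin 4) F)) ∨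
  ∃ b : Matrix (Fin 4) (Fin 4) F, x = (1 : Matrix (Fin 2) (Fin 2) F) ⊗ₖ b

theorem S1_conj {Γ x : Matrix K8 K8 F} {g : GL K8 F} (hg : g ∈ iso Γ) (h : S1 Γ x) :
    S1 Γ ((g : Matrix K8 K8 F) * x * (g⁻¹ : GL K8 F)) := by
  obtain ⟨a, c, d⟩ := h
  have h3 : (g : Matrix K8 K8 F)ᵀ * Γ * g = Γ := hg
  have h4 : ((g⁻¹ : GL K8 F) : Matrix K8 K8 F)ᵀ * Γ * (g⁻¹ : GL K8 F) = Γ := (iso Γ).inv_mem hg
  have t1 : (g : Matrix K8 K8 F)ᵀ * Γ = Γ * (g⁻¹ : GL K8 F) := by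
    rw [← h3, mul_assoc _ (g : Matrix K8 K8 F), Units.mul_inv, mul_one, h3]
  have t2 : ((g⁻¹ : GL K8 F) : Matrix K8 K8 F)ᵀ * Γ = Γ * g := by
    rw [← h4, mul_assoc _ ((g⁻¹ : GL K8 F) : Matrix K8 K8 F), Units.inv_mul, mul_one, h4]
  refine ⟨?_, c, ?_⟩
  · calc _ = ((g⁻¹ : GL K8 F) : Matrix K8 K8 F)ᵀ * xᵀ * ((g : Matrix K8 K8 F)ᵀ * Γ) := by
          rw [transpose_mul, transpose_mul]; simp only [mul_assoc]
      _ = ((g⁻¹ : GL K8 F) : Matrix K8 K8 F)ᵀ * (xᵀ * Γ) * (g⁻¹ : GL K8 F) := by rw [t1]; simp only [mul_assoc]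
      _ = -((((g⁻¹ : GL K8 F) : Matrix K8 K8 F)ᵀ * Γ) * x * (g⁻¹ : GL K8 F)) := by
          rw [a]; simp only [mul_assoc, mul_neg, neg_mul]
      _ = _ := by rw [t2]; simp only [mul_assoc]
  · calc _ = (g : Matrix K8 K8 F) * (x * x) * (g⁻¹ : GL K8 F) := by simp only [mul_assoc, Units.inv_mul_cancel_left]
      _ = _ := by rw [d, mul_smul_comm, smul_mul_assoc, mul_one, Units.mul_inv]

def stabS (Γ : Matrix K8 K8 F) : Subgroup (GL K8 F) where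
  carrier := {g | ∀ k, (S1 Γ k ∧ S2 k) ↔ (S1 Γ ((g : Matrix K8 K8 F) * k * ((g⁻¹ : GL K8 F) : Matrix K8 K8 F)) ∧
    S2 ((g : Matrix K8 K8 F) * k * ((g⁻¹ : GL K8 F) : Matrix K8 K8 F)))}
  mul_mem' {x y} ha hb := by
    intro k
    rw [hb k, ha, Units.val_mul, _root_.mul_inv_rev, Units.val_mul]
    simp only [mul_assoc]
  one_mem' := by intro k; simp
  inv_mem' {a} ha := by
    intro k
    rw [inv_inv, ha (((a⁻¹ : GL K8 F) : Matrix K8 K8 F) * k * (a : Matrix K8 K8 F))]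
    simp only [mul_assoc, Units.mul_inv, mul_one, Units.mul_inv_cancel_left]

theorem mem_stabS {Γ : Matrix K8 K8 F} {g : GL K8 F} (hg : g ∈ iso Γ)
    (h1 : ∀ k, S1 Γ k → S2 k → S2 ((g : Matrix K8 K8 F) * k * ((g⁻¹ : GL K8 F) : Matrix K8 K8 F)))
    (h2 : ∀ k, S1 Γ k → S2 k → S2 (((g⁻¹ : GL K8 F) : Matrix K8 K8 F) * k * ((g⁻¹⁻¹ : GL K8 F) : Matrix K8 K8 F))) :
    g ∈ stabS Γ ⊓ iso Γ := by
  refine ⟨fun k => ⟨fun h => ⟨S1_conj hg h.1, h1 k h.1 h.2⟩, fun h => ?_⟩, hg⟩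
  have a := S1_conj ((iso Γ).inv_mem hg) h.1
  have b := h2 _ h.1 h.2
  simp only [inv_inv, mul_assoc, Units.inv_mul, mul_one, Units.inv_mul_cancel_left] at a b
  exact ⟨a, b⟩

theorem S2_kron {g : GL K8 F} (hg : g ∈ Cfsg.Geo.kroneckerSubgroup 2 4 F) (k : Matrix K8 K8 F) (h : S2 k) :
    S2 ((g : Matrix K8 K8 F) * k * ((g⁻¹ : GL K8 F) : Matrix K8 K8 F)) := by
  obtain ⟨a, b, e⟩ := hg
  have e' : ((g⁻¹ : GL K8 F) : Matrix K8 K8 F) = ((a⁻¹ : GL (Fin 2) F) : Matrix (Fin 2) (Fin 2) F) ⊗ₖ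
      ((b⁻¹ : GL (Fin 4) F) : Matrix (Fin 4) (Fin 4) F) := by
    apply Units.inv_eq_of_mul_eq_one_right
    rw [e, ← mul_kronecker_mul, Units.mul_inv, Units.mul_inv, one_kronecker_one]
  rw [e, e']
  rcases h with ⟨x, rfl⟩ | ⟨x, rfl⟩
  · left; exact ⟨_, by rw [← mul_kronecker_mul, ← mul_kronecker_mul, mul_one, Units.mul_inv]⟩
  · right; exact ⟨_, by rw [← mul_kronecker_mul, ← mul_kronecker_mul, mul_one, Units.mul_inv]⟩

def sw : K8 → K8 := fun p => (![0,0,1,1] p.2, ![![0,1,0,1],![2,3,2,3]] p.1 p.2)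
theorem sw_sw : ∀ p, sw (sw p) = p := by decide
def gs (F : Type*) [Field F] : Matrix K8 K8 F := fun x y => if sw x = y then 1 else 0
theorem gs_mul (M : Matrix K8 K8 F) : gs F * M = M.submatrix sw id := by
  ext x y; simp [gs, mul_apply]
theorem gs_t : (gs F)ᵀ = gs F := by
  ext x y
  have : sw y = x ↔ sw x = y := ⟨fun h => by rw [← h, sw_sw], fun h => by rw [← h, sw_sw]⟩
  simp [gs, this]
theorem mul_gs (M : Matrix K8 K8 F) : M * gs F = M.submatrix id sw := by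
  apply transpose_injective
  rw [transpose_mul, gs_t, gs_mul]; rfl
theorem gs_gs : gs F * gs F = 1 := by
  rw [gs_mul]; ext x y; simp [gs, sw_sw, one_apply]

def B1 (p q r s : F) : Matrix (Fin 4) (Fin 4) F := !![p,0,q,0;0,p,0,q;r,0,s,0;0,r,0,s]
def B2 (p q r s : F) : Matrix (Fin 4) (Fin 4) F := !![p,q,0,0;r,s,0,0;0,0,p,q;0,0,r,s]

theorem sw1 (a : Matrix (Fin 2) (Fin 2) F) : gs F * (a ⊗ₖ (1 : Matrix (Fin 4) (Fin 4) F)) * gs F =
    (1 : Matrix (Fin 2) (Fin 2) F) ⊗ₖ B1 (a 0 0) (a 0 1) (a 1 0) (a 1 1) := by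
  rw [gs_mul, mul_gs]
  ext ⟨i, j⟩ ⟨k, l⟩
  fin_cases i <;> fin_cases j <;> fin_cases k <;> fin_cases l <;> simp [sw, B1]
theorem sw2 (p q r s : F) : gs F * ((1 : Matrix (Fin 2) (Fin 2) F) ⊗ₖ B1 p q r s) * gs F =
    !![p,q;r,s] ⊗ₖ (1 : Matrix (Fin 4) (Fin 4) F) := by
  rw [gs_mul, mul_gs]
  ext ⟨i, j⟩ ⟨k, l⟩
  fin_cases i <;> fin_cases j <;> fin_cases k <;> fin_cases l <;> simp [sw, B1]
theorem sw3 (p q r s : F) : gs F * ((1 : Matrix (Fin 2) (Fin 2) F) ⊗ₖ B2 p q r s) * gs F =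
    (1 : Matrix (Fin 2) (Fin 2) F) ⊗ₖ B2 p q r s := by
  rw [gs_mul, mul_gs]
  ext ⟨i, j⟩ ⟨k, l⟩
  fin_cases i <;> fin_cases j <;> fin_cases k <;> fin_cases l <;> simp [sw, B2]
theorem sw0 : gs F * (J2 F ⊗ₖ G0 F) * gs F = J2 F ⊗ₖ G0 F := by
  rw [gs_mul, mul_gs]
  ext ⟨i, j⟩ ⟨k, l⟩
  fin_cases i <;> fin_cases j <;> fin_cases k <;> fin_cases l <;> simp [sw, J2, G0]

theorem split (h2 : (2 : F) ≠ 0) (b : Matrix (Fin 4) (Fin 4) F)
    (h : S1 (J2 F ⊗ₖ G0 F) ((1 : Matrix (Fin 2) (Fin 2) F) ⊗ₖ b)) :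
    (∃ p q r s, b = B1 p q r s) ∨ ∃ p q r s, b = B2 p q r s := by
  obtain ⟨h, c, hc⟩ := h
  rw [← kroneckerMap_transpose, ← mul_kronecker_mul, ← mul_kronecker_mul] at h
  rw [← mul_kronecker_mul] at hc
  have e : ∀ i j, (bᵀ * G0 F) i j = - (G0 F * b) i j := fun i j => by
    simpa [J2] using congrFun (congrFun h (0, i)) (1, j)
  have e' : ∀ i j, (b * b) i j = c * (1 : Matrix (Fin 4) (Fin 4) F) i j := fun i j => by
    simpa [one_apply] using congrFun (congrFun hc (0, i)) (0, j)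
  have e00 := e 0 0
  have e11 := e 1 1
  have e22 := e 2 2
  have e33 := e 3 3
  have e01 := e 0 1
  have e02 := e 0 2
  have e03 := e 0 3
  have e12 := e 1 2
  have e13 := e 1 3
  have e23 := e 2 3
  simp only [mul_apply, Fin.sum_univ_four, transpose_apply] at e00 e11 e22 e33 e01 e02 e03 e12 e13 e23
  simp [G0] at e00 e11 e22 e33 e01 e02 e03 e12 e13 e23
  have z : ∀ x : F, 2 * x = 0 → x = 0 := fun x h => (mul_eq_zero.1 h).resolve_left h2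
  obtain ⟨u, v, hu, hv⟩ : ∃ u v : F, b 0 0 = u + v ∧ b 1 1 = u - v :=
    ⟨(b 0 0 + b 1 1) / 2, (b 0 0 - b 1 1) / 2, by field_simp; ring, by field_simp; ring⟩
  have hb : b = !![u + v, b 0 1, b 0 2, 0; b 1 0, u - v, 0, b 0 2; b 2 0, 0, v - u, b 0 1; 0, b 2 0, b 1 0, -u - v] := by
    ext i j
    fin_cases i <;> fin_cases j <;> simp <;>
      first | exact hu | exact hv | (apply z; first | linear_combination e00 | linear_combination -e11 | linear_combination -e22 | linear_combination e33 | linear_combination e11 | linear_combination e22) | linear_combination e01 | linear_combination -e01 | linear_combination e02 | linear_combination -e02 | linear_combination e13 | linear_combination -e13 | linear_combination e23 | linear_combination -e23 | linear_combination e03 - hu | linear_combination -e03 - hu | linear_combination e12 - hv | linear_combination -e12 - hv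
  generalize b 0 1 = v1, b 0 2 = u1, b 1 0 = v2, b 2 0 = u2 at hb
  subst hb
  have f00 := e' 0 0
  have f11 := e' 1 1
  have f01 := e' 0 1
  have f02 := e' 0 2
  have f03 := e' 0 3
  have f10 := e' 1 0
  have f12 := e' 1 2
  have f20 := e' 2 0
  have f21 := e' 2 1
  have f30 := e' 3 0
  simp only [mul_apply, Fin.sum_univ_four] at f00 f11 f01 f02 f03 f10 f12 f20 f21 f30
  simp [-mul_eq_zero, -mul_eq_mul_left_iff, -mul_eq_mul_right_iff] at f00 f11 f01 f02 f03 f10 f12 f20 f21 f30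
  by_cases hz : u = 0 ∧ u1 = 0 ∧ u2 = 0
  · obtain ⟨rfl, rfl, rfl⟩ := hz
    right; exact ⟨v, v1, v2, -v, by simp [B2]⟩
  · left
    have : ∀ w : F, u * w = 0 → u1 * w = 0 → u2 * w = 0 → w = 0 := fun w a b c => by
      by_contra hw
      exact hz ⟨(mul_eq_zero.1 a).resolve_right hw, (mul_eq_zero.1 b).resolve_right hw, (mul_eq_zero.1 c).resolve_right hw⟩
    obtain rfl : v = 0 := this v (z _ (z _ (by linear_combination f00 - f11))) (z _ (by linear_combination f02))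
      (z _ (by linear_combination f20))
    obtain rfl : v1 = 0 := this v1 (z _ (by linear_combination f01)) (z _ (by linear_combination f03))
      (z _ (by linear_combination f21))
    obtain rfl : v2 = 0 := this v2 (z _ (by linear_combination f10)) (z _ (by linear_combination f12))
      (z _ (by linear_combination f30))
    exact ⟨u, u1, u2, -u, by simp [B1]⟩

def tz (c : ℤ) : Matrix K8 K8 ℤ := fun x y => if x = y then 1 else if x = (0, 0) ∧ y = (1, 3) then c else 0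
def xz : Matrix K8 K8 ℤ := !![1,0;0,-1] ⊗ₖ (1 : Matrix (Fin 4) (Fin 4) ℤ)

theorem core (h2 : (2 : F) ≠ 0) (H : Subgroup (GL K8 F)) (hH : Cfsg.Geo.IsMaximalIn (iso (J2 F ⊗ₖ G0 F)) H)
    (hk : H ≤ Cfsg.Geo.kroneckerSubgroup 2 4 F) : False := by
  have hle : H ≤ stabS (J2 F ⊗ₖ G0 F) ⊓ iso (J2 F ⊗ₖ G0 F) := fun h hh =>
    mem_stabS (hH.1.le hh) (fun k _ => S2_kron (hk hh) k) (fun k _ => S2_kron (hk (H.inv_mem hh)) k)
  rcases hH.2 _ hle inf_le_right with r | r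
  · let g : GL K8 F := ⟨gs F, gs F, gs_gs, gs_gs⟩
    have k1 : ∀ k, S1 (J2 F ⊗ₖ G0 F) k → S2 k → S2 (gs F * k * gs F) := by
      rintro k a (⟨x, rfl⟩ | ⟨x, rfl⟩)
      · right; exact ⟨_, sw1 x⟩
      · rcases split h2 x a with ⟨p, q, r, s, rfl⟩ | ⟨p, q, r, s, rfl⟩
        · left; exact ⟨_, sw2 p q r s⟩
        · right; exact ⟨_, sw3 p q r s⟩
    have : g ∈ H := by
      rw [← r]
      exact mem_stabS (by change (gs F)ᵀ * _ * gs F = _; rw [gs_t, sw0]) k1 k1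
    obtain ⟨a, b, e⟩ := hk this
    have e1 := congrFun (congrFun e (0, 0)) (0, 0)
    have e2 := congrFun (congrFun e (1, 0)) (1, 0)
    have e3 := congrFun (congrFun e (1, 2)) (1, 2)
    simp [g, gs, sw, -mul_eq_zero] at e1 e2 e3
    rcases e2 with h | h
    · rw [h] at e3; simp at e3
    · rw [h] at e1; simp at e1
  · let m : Matrix K8 K8 ℤ →+* Matrix K8 K8 F := (Int.castRingHom F).mapMatrix
    have mG : m (J2 ℤ ⊗ₖ G0 ℤ) = J2 F ⊗ₖ G0 F := by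
      ext ⟨i, j⟩ ⟨k, l⟩
      fin_cases i <;> fin_cases j <;> fin_cases k <;> fin_cases l <;> simp [m, J2, G0]
    have mx : m xz = !![1,0;0,-1] ⊗ₖ (1 : Matrix (Fin 4) (Fin 4) F) := by
      ext ⟨i, j⟩ ⟨k, l⟩
      fin_cases i <;> fin_cases j <;> fin_cases k <;> fin_cases l <;> simp [m, xz]
    let t : GL K8 F := ⟨m (tz 1), m (tz (-1)), by rw [← map_mul, show tz 1 * tz (-1) = 1 by decide +kernel, map_one],
      by rw [← map_mul, show tz (-1) * tz 1 = 1 by decide +kernel, map_one]⟩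
    have : t ∈ stabS (J2 F ⊗ₖ G0 F) ⊓ iso (J2 F ⊗ₖ G0 F) := by
      rw [r]
      change m (tz 1)ᵀ * _ * m (tz 1) = _
      rw [← mG, ← map_mul, ← map_mul, show (tz 1)ᵀ * (J2 ℤ ⊗ₖ G0 ℤ) * tz 1 = J2 ℤ ⊗ₖ G0 ℤ by decide +kernel]
    have := ((this.1 (m xz)).1 ⟨⟨?_, 1, ?_⟩, .inl ⟨_, mx⟩⟩).2
    · change S2 (m (tz 1) * _ * m (tz (-1))) at this
      rw [← map_mul, ← map_mul] at this
      have e : (tz 1 * xz * tz (-1)) (0, 0) (1, 3) = -2 := by decide +kernel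
      have e' : m (tz 1 * xz * tz (-1)) (0, 0) (1, 3) = -2 := by
        change (((tz 1 * xz * tz (-1)) (0, 0) (1, 3) : ℤ) : F) = -2
        rw [e]; simp
      rcases this with ⟨a, h⟩ | ⟨a, h⟩ <;> rw [h] at e' <;> simp at e' <;> exact h2 e'
    · change m xzᵀ * _ = _
      rw [← mG, ← map_mul, ← map_mul, ← map_neg, show xzᵀ * (J2 ℤ ⊗ₖ G0 ℤ) = -((J2 ℤ ⊗ₖ G0 ℤ) * xz) by decide +kernel]
    · rw [← map_mul, show xz * xz = 1 by decide +kernel, map_one, one_smul]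

theorem max_map {G G' : Type*} [Group G] [Group G'] (φ : G ≃* G') {K H : Subgroup G'}
    (h : Cfsg.Geo.IsMaximalIn K H) : Cfsg.Geo.IsMaximalIn (K.comap φ.toMonoidHom) (H.comap φ.toMonoidHom) := by
  let o := φ.comapSubgroup
  change Cfsg.Geo.IsMaximalIn (o K) (o H)
  refine ⟨o.lt_iff_lt.2 h.1, fun M a b => ?_⟩
  obtain ⟨M, rfl⟩ := o.surjective M
  rcases h.2 M (o.le_iff_le.1 a) (o.le_iff_le.1 b) with r | r
  · left; rw [r]
  · right; rw [r]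

theorem core1 (h2 : (2 : F) ≠ 0) (c : F) (hc : c ≠ 0) (G Q : Matrix (Fin 4) (Fin 4) F) (hQ : Qᵀ * G * Q = G0 F)
    (H : Subgroup (GL K8 F)) (hH : Cfsg.Geo.IsMaximalIn (iso ((c • J2 F) ⊗ₖ G)) H)
    (hk : H ≤ Cfsg.Geo.kroneckerSubgroup 2 4 F) : False := by
  have g0 : G0 F * G0 F = 1 := by
    ext i j; fin_cases i <;> fin_cases j <;> simp [G0, mul_apply, Fin.sum_univ_four]
  have q1 : G0 F * Qᵀ * G * Q = 1 := by rw [mul_assoc (G0 F), mul_assoc (G0 F), hQ, g0]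
  let q : GL (Fin 4) F := ⟨Q, G0 F * Qᵀ * G, mul_eq_one_comm.1 q1, q1⟩
  let R : GL K8 F := ⟨(1 : Matrix (Fin 2) (Fin 2) F) ⊗ₖ Q, (1 : Matrix (Fin 2) (Fin 2) F) ⊗ₖ (G0 F * Qᵀ * G),
    by rw [← mul_kronecker_mul, mul_one, mul_eq_one_comm.1 q1, one_kronecker_one],
    by rw [← mul_kronecker_mul, mul_one, q1, one_kronecker_one]⟩
  have hR : R ∈ Cfsg.Geo.kroneckerSubgroup 2 4 F := ⟨1, q, rfl⟩
  have hRG : (R : Matrix K8 K8 F)ᵀ * ((c • J2 F) ⊗ₖ G) * R = c • (J2 F ⊗ₖ G0 F) := by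
    change ((1 : Matrix (Fin 2) (Fin 2) F) ⊗ₖ Q)ᵀ * _ * ((1 : Matrix (Fin 2) (Fin 2) F) ⊗ₖ Q) = _
    rw [← kroneckerMap_transpose, ← mul_kronecker_mul, ← mul_kronecker_mul, hQ, transpose_one, one_mul, mul_one,
      smul_kronecker]
  have := max_map (MulAut.conj R) hH
  have e : (iso ((c • J2 F) ⊗ₖ G)).comap (MulAut.conj R).toMonoidHom = iso (J2 F ⊗ₖ G0 F) := by
    generalize (c • J2 F) ⊗ₖ G = A, J2 F ⊗ₖ G0 F = B at hRG
    have hA : A = ((R⁻¹ : GL K8 F) : Matrix K8 K8 F)ᵀ * (c • B) * ((R⁻¹ : GL K8 F) : Matrix K8 K8 F) := by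
      rw [← hRG, mul_assoc, mul_assoc, Units.mul_inv, mul_one, ← mul_assoc, ← transpose_mul, Units.mul_inv,
        transpose_one, one_mul]
    have k : ∀ g : Matrix K8 K8 F, ((R : Matrix K8 K8 F) * g * ((R⁻¹ : GL K8 F) : Matrix K8 K8 F))ᵀ * A *
        ((R : Matrix K8 K8 F) * g * ((R⁻¹ : GL K8 F) : Matrix K8 K8 F)) =
        ((R⁻¹ : GL K8 F) : Matrix K8 K8 F)ᵀ * (c • (gᵀ * B * g)) * ((R⁻¹ : GL K8 F) : Matrix K8 K8 F) := fun g => by
      rw [← smul_mul_assoc, ← mul_smul_comm, ← hRG, transpose_mul, transpose_mul]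
      simp only [mul_assoc]
    ext g
    change ((R : Matrix K8 K8 F) * (g : Matrix K8 K8 F) * ((R⁻¹ : GL K8 F) : Matrix K8 K8 F))ᵀ * A *
        ((R : Matrix K8 K8 F) * (g : Matrix K8 K8 F) * ((R⁻¹ : GL K8 F) : Matrix K8 K8 F)) = A ↔
        (g : Matrix K8 K8 F)ᵀ * B * g = B
    rw [k]
    constructor
    · intro h
      have h' := congrArg (fun X => (R : Matrix K8 K8 F)ᵀ * X * (R : Matrix K8 K8 F)) h
      rw [hRG, mul_assoc, mul_assoc, Units.inv_mul, mul_one, ← mul_assoc, ← transpose_mul, Units.inv_mul,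
        transpose_one, one_mul] at h'
      exact smul_right_injective _ hc h'
    · intro h
      rw [h, ← hA]
  rw [e] at this
  refine core h2 _ this fun g hg => ?_
  have := hk hg
  change R * g * R⁻¹ ∈ _ at this
  rwa [Subgroup.mul_mem_cancel_right _ (inv_mem hR), Subgroup.mul_mem_cancel_left _ hR] at this

theorem gram_eq {n : ℕ} {f : (Fin n → F) → (Fin n → F) → F} (h : Cfsg.Geo.IsBilinearForm f) (u v : Fin n → F) :
    u ⬝ᵥ Cfsg.Geo.gramMatrix f *ᵥ v = f u v := by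
  let B : (Fin n → F) →ₗ[F] (Fin n → F) →ₗ[F] F := LinearMap.mk₂ F f h.add_left h.smul_left
    h.add_right (fun c x y => h.smul_right c x y)
  have : Cfsg.Geo.gramMatrix f = LinearMap.BilinForm.toMatrix' B := by
    ext i j; simp [Cfsg.Geo.gramMatrix, B]
  rw [this, ← Matrix.toBilin'_apply', Matrix.toBilin'_toMatrix']
  rfl

theorem normal (h2 : (2 : F) ≠ 0) {f : (Fin 4 → F) → (Fin 4 → F) → F} (h : Cfsg.Geo.IsSymmetricForm f)
    (hp : Cfsg.Geo.IsPlusTypeOn (fun v => f v v) ⊤) :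
    ∃ Q : Matrix (Fin 4) (Fin 4) F, Qᵀ * Cfsg.Geo.gramMatrix f * Q = G0 F := by
  obtain ⟨U, -, hU, hd⟩ := hp
  have hd : Module.finrank F U = 2 := by simp at hd; omega
  obtain ⟨⟨al, sl, ar, sr⟩, sy, nd⟩ := h
  have z : ∀ x : F, 2 * x = 0 → x = 0 := fun x h => (mul_eq_zero.1 h).resolve_left h2
  have uu : ∀ u ∈ U, ∀ v ∈ U, f u v = 0 := fun u hu v hv => z _ (by
    have a : f (u + v) (u + v) = 0 := hU _ (U.add_mem hu hv)
    have b : f u u = 0 := hU _ hu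
    have c : f v v = 0 := hU _ hv
    rw [al, ar, ar, sy v u] at a
    linear_combination a - b - c)
  have dual : ∀ a, a ≠ 0 → ∃ b, f a b = 1 := fun a h0 => by
    obtain ⟨b, h⟩ := (nd a h0).2
    exact ⟨(f a b)⁻¹ • b, by rw [sr, inv_mul_cancel₀ h]⟩
  obtain ⟨a0, ha0, h0⟩ := (Submodule.ne_bot_iff U).1 (fun h => by rw [h] at hd; simp at hd)
  obtain ⟨b, e00⟩ := dual a0 h0
  have : ¬ U ≤ Submodule.span F {a0} := fun h => by
    have h1 := Submodule.finrank_mono h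
    rw [hd, finrank_span_singleton h0] at h1
    omega
  obtain ⟨a', ha', hn⟩ := SetLike.not_le_iff_exists.1 this
  have ha1 : a' + (-f a' b) • a0 ∈ U := U.add_mem ha' (U.smul_mem _ ha0)
  have e10 : f (a' + (-f a' b) • a0) b = 0 := by rw [al, sl, e00]; ring
  have h1 : a' + (-f a' b) • a0 ≠ 0 := fun h => hn (Submodule.mem_span_singleton.2 ⟨f a' b, by
    rw [neg_smul] at h; exact (add_neg_eq_zero.1 h).symm⟩)
  generalize a' + (-f a' b) • a0 = a1 at ha1 e10 h1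
  obtain ⟨b', e11⟩ := dual a1 h1
  have u00 := uu _ ha0 _ ha0
  have u01 := uu _ ha0 _ ha1
  have u10 := uu _ ha1 _ ha0
  have u11 := uu _ ha1 _ ha1
  obtain ⟨b0, p1, p2, p3⟩ : ∃ b0, f a0 b0 = 1 ∧ f a1 b0 = 0 ∧ f b0 b0 = 0 :=
    ⟨b + (-(f b b / 2)) • a0, by rw [ar, sr, e00, u00]; ring, by rw [ar, sr, e10, u10]; ring, by
      simp only [al, ar, sl, sr, sy b a0, e00, u00]; field_simp; ring⟩
  obtain ⟨b2, q1, q2⟩ : ∃ b2, f a0 b2 = 0 ∧ f a1 b2 = 1 :=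
    ⟨b' + (-f a0 b') • b0, by rw [ar, sr, p1]; ring, by rw [ar, sr, e11, p2]; ring⟩
  obtain ⟨b1, r1, r2, r3, r4⟩ : ∃ b1, f a0 b1 = 0 ∧ f a1 b1 = -1 ∧ f b1 b1 = 0 ∧ f b0 b1 = 0 :=
    ⟨(-1 : F) • b2 + (f b2 b2 / 2) • a1 + (f b0 b2) • a0, by simp only [ar, sr, q1, u00, u01]; ring,
      by simp only [ar, sr, q2, u10, u11]; ring,
      by simp only [al, ar, sl, sr, sy b2 a0, sy b2 a1, q1, q2, u00, u01, u10, u11]; field_simp; ring,
      by simp only [ar, sr, sy b0 a0, sy b0 a1, p1, p2]; ring⟩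
  let c : Fin 4 → Fin 4 → F := ![a0, a1, b1, b0]
  refine ⟨(Matrix.of c)ᵀ, ?_⟩
  ext i j
  have : ((Matrix.of c)ᵀᵀ * Cfsg.Geo.gramMatrix f * (Matrix.of c)ᵀ) i j = f (c i) (c j) := by
    rw [← gram_eq ⟨al, sl, ar, sr⟩, mul_assoc]
    simp [mul_apply, dotProduct, mulVec]
  rw [this]
  fin_cases i <;> fin_cases j <;>
    simp [c, G0, u00, u01, u10, u11, p1, p2, p3, r1, r2, r3, r4, sy b1 a0, sy b1 a1, sy b0 a0, sy b0 a1, sy b1 b0]

theorem gram1 {f : (Fin 2 → F) → (Fin 2 → F) → F} (h : Cfsg.Geo.IsSymplecticForm f) :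
    ∃ c : F, c ≠ 0 ∧ Cfsg.Geo.gramMatrix f = c • J2 F := by
  have e : Cfsg.Geo.gramMatrix f = f (Pi.single 0 1) (Pi.single 1 1) • J2 F := by
    ext i j
    fin_cases i <;> fin_cases j <;> simp [Cfsg.Geo.gramMatrix, J2, h.alternating, h.skew (Pi.single 1 1) (Pi.single 0 1)]
  refine ⟨_, fun h0 => ?_, e⟩
  obtain ⟨x, hx⟩ := (h.nondegenerate (Pi.single 0 1) (by simp)).1
  apply hx
  rw [← gram_eq h.bilinear, e, h0]; simp

theorem final {ι : Type} [Fintype ι] [DecidableEq ι] (h2 : (2 : F) ≠ 0) (f : (ι → F) → (ι → F) → F)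
    (e : ι ≃ Fin 2 × Fin 4) (P : GL ι F) {f₁ : (Fin 2 → F) → (Fin 2 → F) → F} {f₂ : (Fin 4 → F) → (Fin 4 → F) → F}
    (h1 : Cfsg.Geo.IsSymplecticForm f₁) (h3 : Cfsg.Geo.IsSymmetricForm f₂)
    (hp : Cfsg.Geo.IsPlusTypeOn (fun v => f₂ v v) ⊤) (ht : Cfsg.Geo.IsTensorFormStructure id f f₁ f₂ e P)
    (K H : Subgroup (GL ι F)) (hK : ∀ g, g ∈ K ↔ ∀ u v, f ((g : Matrix ι ι F) *ᵥ u) ((g : Matrix ι ι F) *ᵥ v) = f u v)
    (hH : Cfsg.Geo.IsMaximalIn K H) (hle : H ≤ Cfsg.Geo.tensorProductSubgroup 2 4 e P) : False := by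
  obtain ⟨c, hc, e1⟩ := gram1 h1
  obtain ⟨Q, hQ⟩ := normal h2 h3 hp
  obtain ⟨d, hd, ht⟩ := ht
  let φ : GL K8 F ≃* GL ι F := (Cfsg.Geo.glReindex e.symm).trans (MulAut.conj P)
  have := max_map φ hH
  have ff : ∀ x y, Cfsg.Geo.formOfGram id (Cfsg.Geo.gramMatrix f₁ ⊗ₖ Cfsg.Geo.gramMatrix f₂) x y =
      x ⬝ᵥ (Cfsg.Geo.gramMatrix f₁ ⊗ₖ Cfsg.Geo.gramMatrix f₂) *ᵥ y := fun x y => by
    simp only [Cfsg.Geo.formOfGram, dotProduct, mulVec, Finset.mul_sum, id, mul_assoc]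
  have mv : ∀ (g : GL K8 F) (x : K8 → F), ((φ g : GL ι F) : Matrix ι ι F) *ᵥ ((P : Matrix ι ι F) *ᵥ (x ∘ e)) =
      (P : Matrix ι ι F) *ᵥ (((g : Matrix K8 K8 F) *ᵥ x) ∘ e) := fun g x => by
    change ((P : Matrix ι ι F) * (g : Matrix K8 K8 F).submatrix e e * ((P⁻¹ : GL ι F) : Matrix ι ι F)) *ᵥ _ = _
    rw [mulVec_mulVec, mul_assoc, Units.inv_mul, mul_one, ← mulVec_mulVec, submatrix_mulVec_equiv]
    congr 3
    ext i; simp
  have su : ∀ u : ι → F, ∃ x : K8 → F, u = (P : Matrix ι ι F) *ᵥ (x ∘ e) := fun u =>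
    ⟨(((P⁻¹ : GL ι F) : Matrix ι ι F) *ᵥ u) ∘ e.symm, by
      rw [Function.comp_assoc, Equiv.symm_comp_self, Function.comp_id, mulVec_mulVec, Units.mul_inv, one_mulVec]⟩
  have fm : ∀ (g A : Matrix K8 K8 F) x y, (g *ᵥ x) ⬝ᵥ A *ᵥ (g *ᵥ y) = x ⬝ᵥ (gᵀ * A * g) *ᵥ y := fun g A x y => by
    rw [← mulVec_mulVec, ← mulVec_mulVec, dotProduct_mulVec x gᵀ, vecMul_transpose]
  have e2 : K.comap φ.toMonoidHom = iso ((c • J2 F) ⊗ₖ Cfsg.Geo.gramMatrix f₂) := by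
    rw [← e1]
    ext g
    change φ g ∈ K ↔ (g : Matrix K8 K8 F)ᵀ * _ * g = _
    rw [hK]
    constructor
    · intro h
      have : ∀ x y, _ := fun x y => (h ((P : Matrix ι ι F) *ᵥ (x ∘ e)) ((P : Matrix ι ι F) *ᵥ (y ∘ e)))
      simp only [mv, ht, ff, fm] at this
      ext i j
      simpa using mul_left_cancel₀ hd (this (Pi.single i 1) (Pi.single j 1))
    · intro h u v
      obtain ⟨x, rfl⟩ := su u
      obtain ⟨y, rfl⟩ := su v
      rw [mv, mv, ht, ht, ff, ff, fm, h]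
  rw [e2] at this
  refine core1 h2 c hc _ Q hQ _ this fun g hg => ?_
  obtain ⟨_, ⟨k, hk, rfl⟩, h⟩ := hle hg
  obtain rfl : k = g := φ.injective h
  exact hk

end CfsgH1.Sp8t
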