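import Cfsg.Agent.H1.St4

/-! The graph on 100 vertices: adjacency, transport, and recognition from its parameters. -/

set_option autoImplicit false

namespace CfsgH1.Un

open CfsgH1.St Cfsg Finset

section

variable {α : Type*} {B : Set (Finset α)}

theorem pb_nn : ¬ (pointBlockGraph B).Adj none none := (pointBlockGraph B).loopless.irrefl _
theorem pb_np (a : α) : (pointBlockGraph B).Adj none (some (Sum.inl a)) := ⟨by simp, Or.inl trivial⟩
theorem pb_nb (b : B) : ¬ (pointBlockGraph B).Adj none (some (Sum.inr b)) := fun h => h.2.elim id id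
theorem pb_pp (a a' : α) : ¬ (pointBlockGraph B).Adj (some (Sum.inl a)) (some (Sum.inl a')) :=
  fun h => h.2.elim id id
theorem pb_pb (a : α) (b : B) : (pointBlockGraph B).Adj (some (Sum.inl a)) (some (Sum.inr b)) ↔ a ∈ (b : Finset α) :=
  ⟨fun h => h.2.elim id False.elim, fun h => ⟨by simp, Or.inl h⟩⟩
theorem pb_bb (b c : B) : (pointBlockGraph B).Adj (some (Sum.inr b)) (some (Sum.inr c)) ↔
    b ≠ c ∧ Disjoint (b : Finset α) c :=
  ⟨fun h => ⟨fun e => h.1 (by rw [e]), h.2.elim id fun h => h.symm⟩, fun h => ⟨by simpa using h.1, Or.inl h.2⟩⟩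

theorem iso_of_adj {V : Type*} {G : SimpleGraph V} (f : Option (α ⊕ B) → V) (hf : Function.Bijective f)
    (h1 : ∀ a, G.Adj (f none) (f (some (Sum.inl a)))) (h2 : ∀ b, ¬ G.Adj (f none) (f (some (Sum.inr b))))
    (h3 : ∀ a a', ¬ G.Adj (f (some (Sum.inl a))) (f (some (Sum.inl a'))))
    (h4 : ∀ a b, G.Adj (f (some (Sum.inl a))) (f (some (Sum.inr b))) ↔ a ∈ (b : Finset α))
    (h5 : ∀ b c, b ≠ c → (G.Adj (f (some (Sum.inr b))) (f (some (Sum.inr c))) ↔ Disjoint (b : Finset α) c)) :
    ∃ e : pointBlockGraph B ≃g G, ∀ x, e x = f x := by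
  refine ⟨⟨Equiv.ofBijective f hf, @fun x y => ?_⟩, fun _ => rfl⟩
  simp only [Equiv.ofBijective_apply]
  rcases x with _ | a | b <;> rcases y with _ | a' | b'
  · exact iff_of_false (G.loopless.irrefl _) pb_nn
  · exact iff_of_true (h1 _) (pb_np _)
  · exact iff_of_false (h2 _) (pb_nb _)
  · exact iff_of_true (h1 _).symm (pb_np _).symm
  · exact iff_of_false (h3 _ _) (pb_pp _ _)
  · rw [h4, pb_pb]
  · exact iff_of_false (fun h => h2 _ h.symm) fun h => pb_nb _ h.symm
  · rw [G.adj_comm, SimpleGraph.adj_comm _ (some (Sum.inr b)), h4, pb_pb]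
  · rw [pb_bb]
    by_cases e : b = b'
    · exact iff_of_false (e ▸ G.loopless.irrefl _) fun h => h.1 e
    · rw [h5 _ _ e, and_iff_right e]

theorem pb_iso {β : Type*} [DecidableEq β] {B' : Set (Finset β)} (h : SetSystemIso B B') :
    Nonempty (pointBlockGraph B ≃g pointBlockGraph B') := by
  obtain ⟨e, rfl⟩ := h
  let ψ := Equiv.Set.image (fun b : Finset α => b.image e) B (image_injective e.injective)
  have hψ : ∀ b, (ψ b : Finset β) = (b : Finset α).image e := fun _ => rfl
  obtain ⟨i, -⟩ := iso_of_adj (G := pointBlockGraph _) (Equiv.optionCongr (Equiv.sumCongr e ψ))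
    (Equiv.bijective _) (fun a => pb_np _) (fun b => pb_nb _) (fun a a' => pb_pp _ _)
    (fun a b => (pb_pb _ _).trans (by rw [hψ]; exact e.injective.mem_finset_image))
    (fun b c h => (pb_bb _ _).trans (by rw [hψ, hψ, disjoint_image e.injective, and_iff_right (ψ.injective.ne h)]))
  exact ⟨i⟩

end

theorem var_two {ι : Type*} {N : Finset ι} {x : ι → ℕ} {n : ℕ} (h0 : N.card = n) (h1 : ∑ u ∈ N, x u = 2 * n)
    (h2 : ∑ u ∈ N, x u * x u = 4 * n) : ∀ u ∈ N, x u = 2 := by
  have : ∑ u ∈ N, ((x u : ℤ) - 2) ^ 2 = 0 := by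
    have e : ∀ u ∈ N, ((x u : ℤ) - 2) ^ 2 = ((x u * x u : ℕ) : ℤ) - 4 * (x u : ℕ) + 4 := fun u _ => by
      push_cast; ring
    rw [sum_congr rfl e, sum_add_distrib, sum_sub_distrib, ← mul_sum, ← Nat.cast_sum, ← Nat.cast_sum, h1, h2,
      sum_const, h0]
    simp; ring
  intro u hu
  have := (sum_eq_zero_iff_of_nonneg fun u _ => sq_nonneg _).1 this u hu
  have := pow_eq_zero_iff (two_ne_zero) |>.1 this
  omega

theorem srg100 {V : Type*} [Fintype V] {G : SimpleGraph V} [DecidableRel G.Adj] (hG : G.IsSRGWith 100 22 0 6)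
    (v : V) : ∃ B : Set (Finset (G.neighborSet v)), IsSteinerSystem 3 6 B ∧ Nonempty (pointBlockGraph B ≃g G) := by
  classical
  have cn : ∀ x y, Fintype.card (G.commonNeighbors x y) = (univ.filter fun z => G.Adj x z ∧ G.Adj y z).card := by
    intro x y
    rw [← Set.toFinset_card]
    congr 1; ext d; simp [SimpleGraph.mem_commonNeighbors]
  have tri : ∀ {x y z}, G.Adj x y → G.Adj x z → G.Adj y z → False := fun {x y z} h1 h2 h3 => by
    have := hG.of_adj x y h1
    rw [cn, card_eq_zero, filter_eq_empty_iff] at this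
    exact this (mem_univ z) ⟨h2, h3⟩
  have mu : ∀ x y, x ≠ y → ¬ G.Adj x y → (univ.filter fun z => G.Adj x z ∧ G.Adj y z).card = 6 :=
    fun x y h1 h2 => by rw [← cn]; exact hG.of_not_adj h1 h2
  have dg : ∀ x, (univ.filter fun z => G.Adj x z).card = 22 := fun x => by
    rw [← SimpleGraph.neighborFinset_eq_filter, SimpleGraph.card_neighborFinset_eq_degree]; exact hG.regular x
  let F : Finset V := univ.filter fun w => w ≠ v ∧ ¬ G.Adj v w
  have mF : ∀ {w}, w ∈ F ↔ w ≠ v ∧ ¬ G.Adj v w := by simp [F]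
  let blk : V → Finset (G.neighborSet v) := fun w => univ.filter fun p => G.Adj p w
  have mb : ∀ {w p}, p ∈ blk w ↔ G.Adj p w := by simp [blk]
  have c0 : F.card = 77 := by
    have : univ = insert v ((univ.filter fun z => G.Adj v z) ∪ F) := by
      ext x; simp only [mem_univ, mem_insert, mem_union, mem_filter, mF, true_and, true_iff]; tauto
    have h := congrArg card this
    rw [card_univ, hG.card, card_insert_of_notMem (by simp [mF]), card_union_of_disjoint (by
      simp only [disjoint_left, mem_filter, mF]; tauto), dg] at h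
    omega
  have c1 : ∀ w ∈ F, (blk w).card = 6 := fun w hw => by
    rw [← mu v w (mF.1 hw).1.symm (mF.1 hw).2]
    exact card_bij (fun p _ => p.1) (fun p hp => by simpa using ⟨p.2, (mb.1 hp).symm⟩)
      (fun _ _ _ _ h => Subtype.ext h) fun z hz => by
        simp only [mem_filter, mem_univ, true_and] at hz
        exact ⟨⟨z, hz.1⟩, mb.2 hz.2.symm, rfl⟩
  have c2 : ∀ p q : G.neighborSet v, (F.filter fun w => p ∈ blk w ∧ q ∈ blk w).card = if p = q then 21 else 5 := by
    intro p q
    have e : (univ.filter fun z => G.Adj p z ∧ G.Adj q z) = insert v (F.filter fun w => p ∈ blk w ∧ q ∈ blk w) := by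
      ext z
      simp only [mem_filter, mem_univ, true_and, mem_insert, mF, mb]
      refine ⟨fun h => ?_, ?_⟩
      · by_cases e : z = v
        · exact Or.inl e
        · exact Or.inr ⟨⟨e, fun h1 => tri p.2 h1 h.1⟩, h⟩
      · rintro (rfl | h)
        · exact ⟨p.2.symm, q.2.symm⟩
        · exact h.2
    have h := congrArg card e
    rw [card_insert_of_notMem (by simp [mF])] at h
    split_ifs with c
    · subst c; simp only [and_self] at h ⊢; rw [dg] at h; omega
    · rw [mu _ _ (Subtype.coe_ne_coe.2 c) fun h1 => tri p.2 q.2 h1] at h; omega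
  have c3 : ∀ w ∈ F, (F.filter fun u => G.Adj w u).card = 16 := fun w hw => by
    have e : (univ.filter fun z => G.Adj w z) =
        (univ.filter fun z => G.Adj v z ∧ G.Adj w z) ∪ F.filter fun u => G.Adj w u := by
      ext z
      have : z = v → ¬ G.Adj w z := fun e h => (mF.1 hw).2 (e ▸ h.symm)
      simp only [mem_filter, mem_univ, true_and, mem_union, mF]; tauto
    have h := congrArg card e
    rw [dg, card_union_of_disjoint (by simp only [disjoint_left, mem_filter, mF]; tauto),
      mu v w (mF.1 hw).1.symm (mF.1 hw).2] at h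
    omega
  have z0 : ∀ {w u}, G.Adj w u → blk w ∩ blk u = ∅ := fun {w u} h =>
    eq_empty_of_forall_notMem fun p hp => tri (mb.1 (mem_inter.1 hp).1) (mb.1 (mem_inter.1 hp).2) h
  have key : ∀ w ∈ F, ∀ u ∈ F, u ≠ w → ¬ G.Adj w u → (blk w ∩ blk u).card = 2 := by
    intro w hw
    have sp : ∀ φ : ℕ → ℕ, φ 0 = 0 → ∑ u ∈ F, φ (blk w ∩ blk u).card =
        φ 6 + ∑ u ∈ (F.erase w).filter fun u => ¬ G.Adj w u, φ (blk w ∩ blk u).card := by
      intro φ h0
      rw [← add_sum_erase _ _ hw, inter_self, c1 w hw, sum_filter_of_ne]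
      intro u _ h1 h2
      rw [z0 h2, card_empty] at h1; exact h1 h0
    have e : ∀ u, (blk w ∩ blk u).card = ∑ p ∈ blk w, if p ∈ blk u then 1 else 0 := fun u => by
      rw [← card_filter, filter_mem_eq_inter]
    have s1 := sp id rfl
    have s2 := sp (fun n => n * n) rfl
    have t1 : ∑ u ∈ F, (blk w ∩ blk u).card = 126 := by
      simp only [e]
      rw [sum_comm, sum_const_nat (m := 21) fun p _ => ?_, c1 w hw]
      rw [← card_filter]; simpa using c2 p p
    have t2 : ∑ u ∈ F, (blk w ∩ blk u).card * (blk w ∩ blk u).card = 276 := by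
      simp only [e, sum_mul_sum]
      rw [sum_comm, sum_const_nat (m := 46) fun p hp => ?_, c1 w hw]
      rw [sum_comm, sum_congr rfl (g := fun q => 5 + if p = q then 16 else 0) fun q _ => ?_, sum_add_distrib,
        sum_const, c1 w hw, sum_ite_eq, if_pos hp]
      · rfl
      · have := c2 p q
        rw [card_filter] at this
        simp only [ite_mul, one_mul, zero_mul, ← ite_and, this]
        split_ifs <;> rfl
    have t0 : ((F.erase w).filter fun u => ¬ G.Adj w u).card = 60 := by
      have := card_filter_add_card_filter_not (s := F.erase w) fun u => G.Adj w u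
      rw [card_erase_of_mem hw, c0, filter_erase, erase_eq_of_notMem (by simp), c3 w hw] at this
      omega
    simp only [id] at s1 s2
    intro u hu h1 h2
    exact var_two (x := fun u => (blk w ∩ blk u).card) t0 (by omega) (by omega) u (by simp [hu, h1, h2])
  have le2 : ∀ w ∈ F, ∀ u ∈ F, u ≠ w → (blk w ∩ blk u).card ≤ 2 := fun w hw u hu h => by
    by_cases e : G.Adj w u
    · rw [z0 e]; simp
    · rw [key w hw u hu h e]
  have inj : ∀ w ∈ F, ∀ u ∈ F, blk w = blk u → w = u := fun w hw u hu e => by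
    by_contra h
    have := le2 w hw u hu (Ne.symm h)
    rw [← e, inter_self, c1 w hw] at this; omega
  refine ⟨blk '' F, ⟨by rintro _ ⟨w, hw, rfl⟩; exact c1 w hw, fun s hs => ?_⟩, ?_⟩
  · have h1 : F.biUnion (fun w => powersetCard 3 (blk w)) = powersetCard 3 univ := by
      refine eq_of_subset_of_card_le (biUnion_subset.2 fun w _ => powersetCard_mono (subset_univ _)) ?_
      rw [card_biUnion, sum_const_nat (m := 20) fun w hw => by rw [card_powersetCard, c1 w hw]; rfl, c0,
        card_powersetCard, card_univ, SimpleGraph.card_neighborSet_eq_degree, hG.regular v]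
      · decide +kernel
      · intro w hw u hu h
        refine disjoint_left.2 fun t h1 h2 => ?_
        rw [mem_powersetCard] at h1 h2
        have := (card_le_card (subset_inter h1.1 h2.1)).trans (le2 w hw u hu h.symm)
        omega
    obtain ⟨w, hw, h2⟩ := mem_biUnion.1 (h1 ▸ mem_powersetCard.2 ⟨subset_univ s, hs⟩)
    refine ⟨_, ⟨⟨w, hw, rfl⟩, (mem_powersetCard.1 h2).1⟩, ?_⟩
    rintro _ ⟨⟨u, hu, rfl⟩, h3⟩
    by_contra h
    have := (card_le_card (subset_inter (mem_powersetCard.1 h2).1 h3)).trans (le2 w hw u hu fun e => h (by rw [e]))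
    omega
  · choose g g1 g2 using fun b : blk '' F => b.2
    refine Exists.elim (iso_of_adj (G := G) (B := blk '' F) (fun x => x.elim v (Sum.elim Subtype.val g)) ⟨?_, fun w => ?_⟩
      (fun a => a.2) (fun b => (mF.1 (g1 b)).2) (fun a a' => tri a.2 a'.2)
      (fun a b => by rw [← g2]; exact mb.symm) fun b c h => ?_) fun e _ => ⟨e⟩
    · rintro (_ | a | b) (_ | a' | b') h <;> simp only [Option.elim, Sum.elim_inl, Sum.elim_inr] at h
      · rfl
      · exact absurd h a'.2.ne
      · exact absurd h.symm (mF.1 (g1 _)).1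
      · exact absurd h.symm a.2.ne
      · rw [Subtype.ext h]
      · exact absurd (h ▸ a.2) (mF.1 (g1 _)).2
      · exact absurd h (mF.1 (g1 _)).1
      · exact absurd (h ▸ a'.2) (mF.1 (g1 _)).2
      · rw [Subtype.ext ((g2 b).symm.trans (h ▸ g2 b'))]
    · by_cases e : w = v
      · exact ⟨none, e.symm⟩
      by_cases e' : G.Adj v w
      · exact ⟨some (Sum.inl ⟨w, e'⟩), rfl⟩
      · exact ⟨some (Sum.inr ⟨blk w, w, mF.2 ⟨e, e'⟩, rfl⟩), inj _ (g1 _) _ (mF.2 ⟨e, e'⟩) (g2 _)⟩
    · rw [← g2, ← g2, disjoint_iff_inter_eq_empty]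
      refine ⟨z0, fun h1 => by_contra fun h2 => ?_⟩
      have := key _ (g1 b) _ (g1 c) (fun e => h (Subtype.ext ((g2 b).symm.trans (e ▸ g2 c)))) h2
      rw [h1] at this; simp at this

end CfsgH1.Un
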