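import Cfsg.Agent.H1.LX2
import Cfsg.Agent.H2.Gs2
import Cfsg.Agent.S5395
import Cfsg.Prelude.Def_Classical
import Cfsg.Prelude.Def_KGroupFacts

/-! Models of the extraspecial 2-groups and their outer automorphism groups. -/

set_option autoImplicit false

namespace CfsgH1

open Subgroup Cfsg CfsgH2 Function Matrix
open scoped commutatorElement

/-- central extension of a vector space over the field with two elements by a bilinear cocycle -/
@[ext] structure XB {V : Type} [AddCommGroup V] [Module (ZMod 2) V] (β : LinearMap.BilinForm (ZMod 2) V) where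
  c : ZMod 2
  v : V

namespace XB
section
variable {V : Type} [AddCommGroup V] [Module (ZMod 2) V] {β : LinearMap.BilinForm (ZMod 2) V}

instance : Mul (XB β) := ⟨fun a b => ⟨a.c + b.c + β a.v b.v, a.v + b.v⟩⟩
instance : One (XB β) := ⟨⟨0, 0⟩⟩
instance : Inv (XB β) := ⟨fun a => ⟨-a.c + β a.v a.v, -a.v⟩⟩
@[simp] theorem mul_c (a b : XB β) : (a * b).c = a.c + b.c + β a.v b.v := rfl
@[simp] theorem mul_v (a b : XB β) : (a * b).v = a.v + b.v := rfl
@[simp] theorem one_c : (1 : XB β).c = 0 := rfl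
@[simp] theorem one_v : (1 : XB β).v = 0 := rfl
@[simp] theorem inv_c (a : XB β) : a⁻¹.c = -a.c + β a.v a.v := rfl
@[simp] theorem inv_v (a : XB β) : a⁻¹.v = -a.v := rfl

instance : Group (XB β) := Group.ofLeftAxioms (fun a b c => by ext <;> simp [add_assoc]; ring) (fun a => by ext <;> simp) fun a => XB.ext (by simp only [mul_c, inv_c, inv_v, one_c, map_neg, LinearMap.neg_apply]; ring) (neg_add_cancel _)

def eqv : XB β ≃ ZMod 2 × V := ⟨fun a => (a.c, a.v), fun a => ⟨a.1, a.2⟩, fun _ => rfl, fun _ => rfl⟩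

instance [Finite V] : Finite (XB β) := Finite.of_equiv _ eqv.symm

theorem card : Nat.card (XB β) = 2 * Nat.card V := by rw [Nat.card_congr eqv, Nat.card_prod, Nat.card_zmod]

theorem add_self (v : V) : v + v = 0 := by rw [← two_smul (ZMod 2), show (2 : ZMod 2) = 0 from rfl, zero_smul]

theorem sq (a : XB β) : a * a = ⟨β a.v a.v, 0⟩ := by ext <;> simp [add_self, CharTwo.add_self_eq_zero]

theorem comm_iff {a b : XB β} : a * b = b * a ↔ β a.v b.v = β b.v a.v := by simp [XB.ext_iff, add_comm]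

theorem ord : orderOf (⟨1, 0⟩ : XB β) = 2 := orderOf_eq_prime (by rw [pow_two, sq]; ext <;> simp) fun e => one_ne_zero (congrArg XB.c e)

variable [Finite V]

theorem mem_zp {a : XB β} : a ∈ zpowers (⟨1, 0⟩ : XB β) ↔ a.v = 0 := by
  rw [mem_zp2 ord]
  refine ⟨fun h => h.elim (congrArg XB.v) (congrArg XB.v), fun h => ?_⟩
  have : ∀ c : ZMod 2, c = 0 ∨ c = 1 := by decide
  exact (this a.c).imp (XB.ext · h) (XB.ext · h)

theorem center_eq (nd : ∀ v, (∀ w, β w v = β v w) → v = 0) : center (XB β) = zpowers ⟨1, 0⟩ := Subgroup.ext fun a => by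
  rw [mem_zp, mem_center_iff]
  exact ⟨fun h => nd _ fun w => comm_iff.1 (h ⟨0, w⟩), fun h g => comm_iff.2 (by simp [h])⟩

theorem xz [Nontrivial V] (nd : ∀ v, (∀ w, β w v = β v w) → v = 0) : XZ (⊤ : Subgroup (XB β)) ⟨1, 0⟩ := by
  have zc : Z[(⊤ : Subgroup (XB β))] = zpowers ⟨1, 0⟩ := by rw [top_inf_eq, coe_top, centralizer_univ, center_eq nd]
  refine ⟨⟨fun a => ⟨2, Subtype.ext ?_⟩, by rw [zc, Nat.card_zpowers, ord], zc ▸ commutator_le.2 fun a _ b _ => mem_zp.2 (by simp [commutatorElement_def])⟩, fun h => ?_, zc⟩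
  · change a.1 ^ (2 * 2) = 1
    rw [pow_mul, pow_two, pow_two, sq, sq]; ext <;> simp
  · obtain ⟨v, hv⟩ := exists_ne (0 : V)
    exact hv (mem_zp.1 (zc.le ⟨mem_top (⟨0, v⟩ : XB β), le_cent_self h (mem_top _)⟩))

theorem aut_c (nd : ∀ v, (∀ w, β w v = β v w) → v = 0) (α : MulAut (XB β)) {a : XB β} (h : a.v = 0) : α a = a := by
  rcases (mem_zp2 ord).1 (mem_zp.2 h) with rfl | rfl
  · exact map_one α
  refine ((mem_zp2 ord).1 (center_eq nd ▸ mem_center_iff.2 fun g => ?_)).resolve_left fun e => ne_one_of_two ord (α.map_eq_one_iff.1 e)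
  obtain ⟨g, rfl⟩ := α.surjective g
  rw [← map_mul, ← map_mul, comm_iff.2 (by simp)]

theorem aut_v (nd : ∀ v, (∀ w, β w v = β v w) → v = 0) (α : MulAut (XB β)) (a : XB β) : (α a).v = (α ⟨0, a.v⟩).v := by
  rw [show a = ⟨a.c, 0⟩ * ⟨0, a.v⟩ by ext <;> simp, map_mul, aut_c nd α rfl]; simp

def rho (nd : ∀ v, (∀ w, β w v = β v w) → v = 0) : MulAut (XB β) →* Module.End (ZMod 2) V where
  toFun α := (AddMonoidHom.mk' (fun v => (α ⟨0, v⟩).v) fun v w => by rw [← mul_v, ← map_mul, aut_v nd α (_ * _)]; rfl).toZModLinearMap 2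
  map_one' := LinearMap.ext fun _ => rfl
  map_mul' α γ := LinearMap.ext fun v => aut_v nd α (γ ⟨0, v⟩)

theorem el {U : Type} [AddCommGroup U] {f : U → V} (h1 : ∀ u u', f (u + u') = f u + f u') (hf : Injective f) (h0 : ∀ u u', β (f u) (f u') = 0) {k : ℕ} (hc : Nat.card U = 2 ^ k) :
    ∃ E : Subgroup (XB β), El 2 (k + 1) E ∧ ∀ a ∈ E, ∃ u, a.v = f u := by
  let φ : Multiplicative (ZMod 2 × U) →* XB β := MonoidHom.mk' (fun a => ⟨a.toAdd.1, f a.toAdd.2⟩) fun a b => XB.ext (by simp [h0]) (h1 _ _)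
  have inj : Injective φ := fun a b e => Prod.ext (congrArg XB.c e) (hf (congrArg XB.v e))
  refine ⟨φ.range, ⟨⟨⟨⟨?_⟩⟩, ?_⟩, ?_⟩, ?_⟩
  · rintro ⟨_, a, rfl⟩ ⟨_, b, rfl⟩
    exact Subtype.ext (comm_iff.2 ((h0 _ _).trans (h0 _ _).symm))
  · rintro _ ⟨a, rfl⟩
    rw [pow_two, sq]; exact XB.ext (h0 _ _) rfl
  · rw [← Nat.card_congr (MonoidHom.ofInjective inj).toEquiv, Nat.card_congr Multiplicative.toAdd, Nat.card_prod, Nat.card_zmod, hc, pow_succ']
  · rintro _ ⟨a, rfl⟩
    exact ⟨_, rfl⟩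

theorem rho_v (nd : ∀ v, (∀ w, β w v = β v w) → v = 0) (α : MulAut (XB β)) (a : XB β) : rho nd α a.v = (α a).v := (aut_v nd α a).symm
end

theorem out {ι : Type} [Fintype ι] [DecidableEq ι] [Nonempty ι] {β : LinearMap.BilinForm (ZMod 2) (ι → ZMod 2)} (nd : ∀ v, (∀ w, β w v = β v w) → v = 0) :
    Nonempty (Out (XB β) ≃* isometryGroup (ZMod 2) fun v => β v v) := by
  let Φ : MulAut (XB β) →* GL ι (ZMod 2) := ((LinearMap.toMatrixAlgEquiv' : Module.End (ZMod 2) (ι → ZMod 2) ≃ₐ[ZMod 2] _).toMonoidHom.comp (rho nd)).toHomUnits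
  have e : ∀ α (a : XB β), (Φ α).1 *ᵥ a.v = (α a).v := fun α a => (LinearMap.toMatrix'_mulVec _ _).trans (rho_v nd α a)
  have k : Inn (XB β) = Φ.ker := by
    refine Subgroup.ext fun α => ⟨?_, fun h => ?_⟩
    · rintro ⟨g, rfl⟩
      exact Units.ext (Matrix.ext_of_mulVec_single fun i => (e _ ⟨0, _⟩).trans (by rw [Units.val_one, one_mulVec]; exact (congrArg (· + -g.v) (add_comm _ _)).trans (add_neg_cancel_right _ _)))
    · obtain ⟨g, hg⟩ := Cfsg.Agent.S5395.result (extraspecial_top_iff.2 ⟨(xz nd).wx, (xz nd).nab⟩) α fun x => by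
        rw [center_eq nd, mem_zp, mul_v, ← e, MonoidHom.mem_ker.1 h]; simp
      exact ⟨g, MulEquiv.ext fun x => (hg x).symm⟩
  have r : Φ.range = isometryGroup (ZMod 2) fun v => β v v := by
    refine Subgroup.ext fun g => ⟨?_, fun h => ?_⟩
    · rintro ⟨α, rfl⟩ v -
      have := congrArg XB.c (map_mul α ⟨0, v⟩ ⟨0, v⟩)
      rw [sq, sq, aut_c nd α rfl, ← e] at this
      exact this.symm
    · let D : LinearMap.BilinForm (ZMod 2) (ι → ZMod 2) := β.compl₁₂ g.1.mulVecLin g.1.mulVecLin - β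
      have d0 : ∀ v, D v v = 0 := fun v => sub_eq_zero.2 (h v v)
      have ds : ∀ v w, D v w = D w v := fun v w => by
        have := d0 (v + w)
        simp only [map_add, LinearMap.add_apply, d0] at this
        rw [← CharTwo.add_eq_zero]; linear_combination this
      let γ := Matrix.toBilin' (Matrix.of fun i j => if Fintype.equivFin ι i < Fintype.equivFin ι j then D (Pi.single i 1) (Pi.single j 1) else 0)
      have f : γ + γ.flip = D := LinearMap.BilinForm.ext_basis (Pi.basisFun _ _) fun i j => by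
        simp only [Pi.basisFun_apply, LinearMap.add_apply, LinearMap.BilinForm.flip_apply, γ, Matrix.toBilin'_single, Matrix.of_apply]
        rcases lt_trichotomy (Fintype.equivFin ι i) (Fintype.equivFin ι j) with l | l | l
        · rw [if_pos l, if_neg l.not_gt, add_zero]
        · rw [(Fintype.equivFin ι).injective l, if_neg (lt_irrefl _), d0, add_zero]
        · rw [if_pos l, if_neg l.not_gt, zero_add, ds]
      let ψ : XB β →* XB β := MonoidHom.mk' (fun a => ⟨a.c + γ a.v a.v, g.1 *ᵥ a.v⟩) fun a b => by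
        have := LinearMap.congr_fun₂ f a.v b.v
        simp only [LinearMap.add_apply, LinearMap.BilinForm.flip_apply, D, LinearMap.sub_apply, LinearMap.compl₁₂_apply, Matrix.mulVecLin_apply] at this
        ext1
        · simp only [mul_c, mul_v, map_add, LinearMap.add_apply]; linear_combination this
        · exact Matrix.mulVec_add _ _ _
      have inj : Injective ψ := (injective_iff_map_eq_one ψ).2 fun a ha => by
        have h1 : a.v = 0 := by
          have := congrArg (fun b : XB β => g⁻¹.1 *ᵥ b.v) ha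
          simpa [ψ, Matrix.mulVec_mulVec] using this
        exact XB.ext (by simpa [ψ, h1] using congrArg XB.c ha) h1
      exact ⟨MulEquiv.ofBijective ψ (Finite.injective_iff_bijective.1 inj), Units.ext (Matrix.ext_of_mulVec_single fun i => e _ ⟨0, _⟩)⟩
  exact ⟨(QuotientGroup.quotientMulEquivOfEq k).trans ((QuotientGroup.quotientKerEquivRange Φ).trans (MulEquiv.subgroupCongr r))⟩

/-- the plus-type cocycle -/
def bp (m : ℕ) : LinearMap.BilinForm (ZMod 2) (Fin m ⊕ Fin m → ZMod 2) :=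
  LinearMap.mk₂ _ (fun v w => ∑ i, v (.inl i) * w (.inr i)) (by simp [add_mul, Finset.sum_add_distrib]) (by simp [Finset.mul_sum, mul_assoc])
    (by simp [mul_add, Finset.sum_add_distrib]) (by simp [Finset.mul_sum, mul_left_comm])

/-- the minus-type cocycle -/
def bm (m : ℕ) : LinearMap.BilinForm (ZMod 2) ((Fin m ⊕ Fin m) ⊕ Fin 2 → ZMod 2) :=
  LinearMap.mk₂ _ (fun v w => ∑ i, v (.inl (.inl i)) * w (.inl (.inr i)) + (v (.inr 0) * w (.inr 0) + v (.inr 0) * w (.inr 1) + v (.inr 1) * w (.inr 1)))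
    (by simp [add_mul, Finset.sum_add_distrib]; intros; ring) (by simp [Finset.mul_sum, mul_assoc, mul_add])
    (by simp [mul_add, Finset.sum_add_distrib]; intros; ring) (by simp [Finset.mul_sum, mul_left_comm, mul_add])

theorem bp_q (m : ℕ) : (fun v => bp m v v) = quadFormPlus m (ZMod 2) := rfl

theorem bm_q (m : ℕ) : (fun v => bm m v v) = quadFormMinus m (ZMod 2) 1 1 := funext fun v => by simp [bm, quadFormMinus, pow_two]

theorem bp_nd (m : ℕ) (v) (h : ∀ w, bp m w v = bp m v w) : v = 0 := by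
  ext (i | i)
  · simpa [bp, Pi.single_apply] using (h (Pi.single (.inr i) 1)).symm
  · simpa [bp, Pi.single_apply] using h (Pi.single (.inl i) 1)

theorem bm_nd (m : ℕ) (v) (h : ∀ w, bm m w v = bm m v w) : v = 0 := by
  ext ((i | i) | i)
  · simpa [bm, Pi.single_apply] using (h (Pi.single (.inl (.inr i)) 1)).symm
  · simpa [bm, Pi.single_apply] using h (Pi.single (.inl (.inl i)) 1)
  · fin_cases i
    · simpa [bm, Pi.single_apply] using (h (Pi.single (.inr 1) 1)).symm
    · simpa [bm, Pi.single_apply] using h (Pi.single (.inr 0) 1)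

theorem bp_card (m : ℕ) : Nat.card (XB (bp m)) = 2 ^ (2 * m + 1) := by rw [card]; simp; ring

theorem bm_card (m : ℕ) : Nat.card (XB (bm m)) = 2 ^ (2 * (m + 1) + 1) := by rw [card]; simp; ring

theorem bp_DD (m : ℕ) : 0 < DD (⊤ : Subgroup (XB (bp (m + 1)))) := by
  obtain ⟨E, h, -⟩ := el (β := bp (m + 1)) (f := fun u : Fin (m + 1) → ZMod 2 => Sum.elim u 0) (fun u u' => by ext (i | i) <;> simp)
    (fun u u' e => funext fun i => congrFun e (.inl i)) (fun u u' => by simp [bp]) (k := m + 1) (by simp)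
  exact (xz (bp_nd _)).wx.pos_of_el (card_top.trans (bp_card _)) h le_top

theorem bm_DD (m : ℕ) : DD (⊤ : Subgroup (XB (bm m))) < 0 := by
  obtain ⟨E, h, hE⟩ := el (β := bm m) (f := fun u : Fin m → ZMod 2 => Sum.elim (Sum.elim u 0) 0) (fun u u' => by ext ((i | i) | i) <;> simp)
    (fun u u' e => funext fun i => congrFun e (.inl (.inl i))) (fun u u' => by simp [bm]) (k := m) (by simp)
  have w := (xz (bm_nd m)).wx
  let x : XB (bm m) := ⟨0, Pi.single (.inr 0) 1⟩
  let y : XB (bm m) := ⟨0, Pi.single (.inr 1) 1⟩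
  have k : ¬ Commute x y := fun e => by simpa [x, y, bm] using comm_iff.1 e
  have c : ⁅y, x⁆ = ⟨1, 0⟩ := ((mem_zp2 ord).1 (mem_zp.2 (by simp [commutatorElement_def]))).resolve_left fun e => k (commutatorElement_eq_one_iff_commute.1 e).symm
  have := (w.split (mem_top x) (mem_top y) k).1.pos_of_el (w.card_split (card_top.trans (bm_card m)) (mem_top x) (mem_top y) k) h fun a ha => by
    obtain ⟨u, hu⟩ := hE a ha
    exact ⟨trivial, mem_centralizer_singleton_iff.2 (comm_iff.2 (by simp [hu, x, bm])), mem_centralizer_singleton_iff.2 (comm_iff.2 (by simp [hu, y, bm]))⟩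
  rw [w.DD_pair (mem_top x) (mem_top y) k (.inr rfl) (by rw [c, pow_two, sq, pow_one]; simp [x, bm]) (by rw [c, pow_two, sq, pow_one]; simp [y, bm])]
  linarith

end XB

theorem out_congr {G H : Type*} [Group G] [Group H] (φ : G ≃* H) : Nonempty (Out G ≃* Out H) :=
  ⟨QuotientGroup.congr _ _ (MulAut.congr φ) (by
    ext β
    constructor
    · rintro ⟨_, ⟨g, rfl⟩, rfl⟩
      exact ⟨φ g, by ext; simp⟩
    · rintro ⟨g, rfl⟩
      exact ⟨_, ⟨φ.symm g, rfl⟩, by ext; simp⟩)⟩

end CfsgH1
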